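import Cfsg.Agent.RootSub.Basic

set_option autoImplicit false

namespace Cfsg.Agent.RootSub

open Cfsg

section

variable {k : Type*} [Field k] {M : Type*} [AddCommGroup M] [Module k M]

local notation "GLM" => LinearMap.GeneralLinearGroup k M
local notation "EndM" => (M →ₗ[k] M)

/-- The action of a unit on a vector. -/
def ac (g : LinearMap.GeneralLinearGroup k M) (v : M) : M := (g : M →ₗ[k] M) v

@[simp] lemma ac_one (v : M) : ac (1 : LinearMap.GeneralLinearGroup k M) v = v := rfl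

lemma ac_mul (g h : LinearMap.GeneralLinearGroup k M) (v : M) : ac (g * h) v = ac g (ac h v) := rfl

lemma ac_add (g : LinearMap.GeneralLinearGroup k M) (v w : M) : ac g (v + w) = ac g v + ac g w :=
  map_add _ _ _

lemma ac_sub (g : LinearMap.GeneralLinearGroup k M) (v w : M) : ac g (v - w) = ac g v - ac g w :=
  map_sub _ _ _

lemma ac_neg (g : LinearMap.GeneralLinearGroup k M) (v : M) : ac g (-v) = - ac g v :=
  map_neg _ _

lemma ac_smul (g : LinearMap.GeneralLinearGroup k M) (c : k) (v : M) : ac g (c • v) = c • ac g v :=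
  map_smul _ _ _

lemma ac_zero (g : LinearMap.GeneralLinearGroup k M) : ac g (0 : M) = 0 := map_zero _

lemma ac_inv_ac (g : LinearMap.GeneralLinearGroup k M) (v : M) : ac g⁻¹ (ac g v) = v := by
  rw [← ac_mul, inv_mul_cancel, ac_one]

lemma ac_ac_inv (g : LinearMap.GeneralLinearGroup k M) (v : M) : ac g (ac g⁻¹ v) = v := by
  rw [← ac_mul, mul_inv_cancel, ac_one]

lemma sub_one_apply (g : LinearMap.GeneralLinearGroup k M) (v : M) :
    ((g : M →ₗ[k] M) - 1) v = ac g v - v := rfl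

/-- Canonical flag of a subgroup. -/
def upF (H : Subgroup (LinearMap.GeneralLinearGroup k M)) : ℕ → Submodule k M
  | 0 => ⊥
  | i + 1 =>
    { carrier := {v | ∀ h ∈ H, ac h v - v ∈ upF H i}
      add_mem' := by
        intro a b ha hb h hh
        have := (upF H i).add_mem (ha h hh) (hb h hh)
        have e : ac h (a + b) - (a + b) = (ac h a - a) + (ac h b - b) := by
          rw [ac_add]; abel
        rw [e]; exact this
      zero_mem' := by
        intro h _
        rw [ac_zero, sub_zero]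
        exact (upF H i).zero_mem
      smul_mem' := by
        intro c a ha h hh
        have e : ac h (c • a) - c • a = c • (ac h a - a) := by
          rw [ac_smul, smul_sub]
        rw [e]
        exact (upF H i).smul_mem c (ha h hh) }

lemma mem_upF_succ {H : Subgroup (LinearMap.GeneralLinearGroup k M)} {i : ℕ} {v : M} :
    v ∈ upF H (i + 1) ↔ ∀ h ∈ H, ac h v - v ∈ upF H i := Iff.rfl

lemma upF_zero (H : Subgroup (LinearMap.GeneralLinearGroup k M)) : upF H 0 = ⊥ := rfl

lemma upF_mono_succ (H : Subgroup (LinearMap.GeneralLinearGroup k M)) (i : ℕ) : upF H i ≤ upF H (i + 1) := by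
  induction i with
  | zero =>
    rw [upF_zero]; exact bot_le
  | succ i ih =>
    intro v hv h hh
    exact ih (hv h hh)

lemma upF_mono (H : Subgroup (LinearMap.GeneralLinearGroup k M)) {i j : ℕ} (hij : i ≤ j) : upF H i ≤ upF H j :=
  monotone_nat_of_le_succ (upF_mono_succ H) hij

lemma upF_preserve {H : Subgroup (LinearMap.GeneralLinearGroup k M)} {h : LinearMap.GeneralLinearGroup k M}
    (hh : h ∈ H) {i : ℕ} {v : M} (hv : v ∈ upF H i) : ac h v ∈ upF H i := by
  have h1 := (upF_mono_succ H i hv) h hh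
  have e : ac h v = (ac h v - v) + v := by abel
  rw [e]
  exact (upF H i).add_mem h1 hv

lemma upF_of_unip {H : Subgroup (LinearMap.GeneralLinearGroup k M)} (hU : IsUnipotentOn H) : ∃ n, upF H n = ⊤ := by
  obtain ⟨n, hn⟩ := hU
  refine ⟨n, ?_⟩
  -- for a list of length `n - j`, products land in `upF H j`
  have key : ∀ j, j ≤ n → ∀ l : List (LinearMap.GeneralLinearGroup k M), (∀ g ∈ l, g ∈ H) → l.length = n - j →
      ∀ v : M, ((l.map fun g => (g : M →ₗ[k] M) - 1).prod) v ∈ upF H j := by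
    intro j
    induction j with
    | zero =>
      intro _ l hl hlen v
      have := hn l hl (by simpa using hlen)
      rw [this]
      exact Submodule.zero_mem _
    | succ j ih =>
      intro hj l hl hlen v h hh
      have h1 := ih (by omega) (h :: l) (by
        intro g hg
        rcases List.mem_cons.mp hg with rfl | hg
        · exact hh
        · exact hl g hg) (by
        simp only [List.length_cons]; omega) v
      simpa [ac, List.map_cons, List.prod_cons] using h1
  rw [eq_top_iff]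
  intro v _
  have := key n le_rfl [] (by simp) (by simp) v
  simpa using this

lemma unip_of_upF {H : Subgroup (LinearMap.GeneralLinearGroup k M)} {n : ℕ} (h : upF H n = ⊤) : IsUnipotentOn H := by
  refine ⟨n, ?_⟩
  have key : ∀ l : List (LinearMap.GeneralLinearGroup k M), (∀ g ∈ l, g ∈ H) → ∀ i : ℕ, ∀ v ∈ upF H (i + l.length),
      ((l.map fun g => (g : M →ₗ[k] M) - 1).prod) v ∈ upF H i := by
    intro l
    induction l with
    | nil =>
      intro _ i v hv
      simpa using hv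
    | cons g l ih =>
      intro hl i v hv
      have h1 := ih (fun x hx => hl x (List.mem_cons_of_mem _ hx)) (i + 1) v (by
        simp only [List.length_cons] at hv
        have : i + 1 + l.length = i + (l.length + 1) := by omega
        rw [this]; exact hv)
      have h2 := h1 g (hl g List.mem_cons_self)
      simpa [ac, List.map_cons, List.prod_cons] using h2
  intro l hl hlen
  ext v
  have := key l hl 0 v (by rw [zero_add, hlen, h]; trivial)
  rw [upF_zero, Submodule.mem_bot] at this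
  simpa using this

lemma unip_mono {H K : Subgroup (LinearMap.GeneralLinearGroup k M)} (hH : IsUnipotentOn H) (h : K ≤ H) :
    IsUnipotentOn K := by
  obtain ⟨n, hn⟩ := hH
  exact ⟨n, fun l hl hlen => hn l (fun g hg => h (hl g hg)) hlen⟩

/-- Fixed points modulo `N` in an invariant subspace. -/
lemma exists_step {U : Subgroup (LinearMap.GeneralLinearGroup k M)} (hU : IsUnipotentOn U) (C N : Submodule k M)
    (hC : ∀ u ∈ U, ∀ v ∈ C, ac u v ∈ C) (hN : ¬ C ≤ N) : ∃ v ∈ C, v ∉ N ∧ ∀ u ∈ U, ac u v - v ∈ N := by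
  classical
  obtain ⟨n, hn⟩ := upF_of_unip hU
  have hex : ∃ i, ∃ v, v ∈ upF U i ∧ v ∈ C ∧ v ∉ N := by
    obtain ⟨w, hw, hwN⟩ := SetLike.not_le_iff_exists.mp hN
    exact ⟨n, w, by rw [hn]; trivial, hw, hwN⟩
  let i := Nat.find hex
  obtain ⟨v, hvi, hvC, hvN⟩ : ∃ v, v ∈ upF U i ∧ v ∈ C ∧ v ∉ N := Nat.find_spec hex
  refine ⟨v, hvC, hvN, ?_⟩
  intro u hu
  rcases Nat.eq_zero_or_eq_succ_pred i with hi | hi
  · exfalso
    rw [hi, upF_zero, Submodule.mem_bot] at hvi
    exact hvN (by rw [hvi]; exact N.zero_mem)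
  · by_contra hnot
    have hlt : Nat.pred i < i := by omega
    apply Nat.find_min hex hlt
    refine ⟨ac u v - v, ?_, C.sub_mem (hC u hu v hvC) hvC, hnot⟩
    rw [hi] at hvi
    exact hvi u hu

end

section fd

variable {k : Type*} [Field k] {M : Type*} [AddCommGroup M] [Module k M] [FiniteDimensional k M]

lemma unip_of_step {H : Subgroup (LinearMap.GeneralLinearGroup k M)}
    (h : ∀ N : Submodule k M, N ≠ ⊤ → (∀ g ∈ H, ∀ v ∈ N, ac g v ∈ N) → ∃ v, v ∉ N ∧ ∀ g ∈ H, ac g v - v ∈ N) :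
    IsUnipotentOn H := by
  by_contra hno
  have hall : ∀ i, upF H i ≠ ⊤ := fun i hi => hno (unip_of_upF hi)
  have hstrict : ∀ i, upF H i < upF H (i + 1) := by
    intro i
    refine lt_of_le_of_ne (upF_mono_succ H i) ?_
    intro he
    obtain ⟨v, hv, hv2⟩ := h (upF H i) (hall i) (fun g hg v hv => upF_preserve hg hv)
    apply hv
    rw [he]
    exact hv2
  obtain ⟨n, hn⟩ := monotone_stabilizes_iff_noetherian.mpr (inferInstance : IsNoetherian k M)
    ⟨upF H, fun i j hij => upF_mono H hij⟩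
  have h1 := hn (n + 1) (by omega)
  have h2 := hstrict n
  exact absurd h1 (ne_of_lt h2)

/-- A unipotent subgroup normalised by a unipotent subgroup. -/
lemma unip_sup_of_normalizes {Q U : Subgroup (LinearMap.GeneralLinearGroup k M)} (hQ : IsUnipotentOn Q)
    (hU : IsUnipotentOn U) (hn : U ≤ Subgroup.normalizer (Q : Set (LinearMap.GeneralLinearGroup k M))) :
    IsUnipotentOn (Q ⊔ U) := by
  apply unip_of_step
  intro N hNtop hNinv
  let C : Submodule k M :=
    { carrier := {v | ∀ q ∈ Q, ac q v - v ∈ N}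
      add_mem' := by
        intro a b ha hb q hq
        have e : ac q (a + b) - (a + b) = (ac q a - a) + (ac q b - b) := by
          rw [ac_add]; abel
        rw [e]
        exact N.add_mem (ha q hq) (hb q hq)
      zero_mem' := by
        intro q _
        rw [ac_zero, sub_zero]
        exact N.zero_mem
      smul_mem' := by
        intro c a ha q hq
        have e : ac q (c • a) - c • a = c • (ac q a - a) := by
          rw [ac_smul, smul_sub]
        rw [e]
        exact N.smul_mem c (ha q hq) }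
  have hmemC : ∀ v, v ∈ C ↔ ∀ q ∈ Q, ac q v - v ∈ N := fun v => Iff.rfl
  have hCnot : ¬ C ≤ N := by
    obtain ⟨v, hv, hvN, hv2⟩ := exists_step hQ ⊤ N (fun _ _ _ _ => trivial) (fun h => hNtop (top_le_iff.mp h))
    intro hle
    exact hvN (hle ((hmemC v).mpr hv2))
  have hCinv : ∀ u ∈ U, ∀ v ∈ C, ac u v ∈ C := by
    intro u hu v hv
    rw [hmemC]
    intro q hq
    have huinv : u⁻¹ ∈ U := U.inv_mem hu
    have h1 : u⁻¹ * q * u⁻¹⁻¹ ∈ Q := (Subgroup.mem_normalizer_iff.mp (hn huinv) q).mp hq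
    have h2 : u⁻¹ * q * u ∈ Q := by simpa using h1
    have h3 := hv _ h2
    have h4 : ac u (ac (u⁻¹ * q * u) v - v) = ac q (ac u v) - ac u v := by
      rw [ac_sub, ← ac_mul, ← ac_mul]
      congr 2
      group
    rw [← h4]
    exact hNinv u (Subgroup.mem_sup_right hu) _ h3
  obtain ⟨v, hvC, hvN, hv2⟩ := exists_step hU C N hCinv hCnot
  refine ⟨v, hvN, ?_⟩
  intro g hg
  have key : g ∈ Q ⊔ U ∧ ac g v - v ∈ N := by
    refine Subgroup.closure_induction (p := fun g _ => g ∈ Q ⊔ U ∧ ac g v - v ∈ N) ?_ ?_ ?_ ?_ (?_ : g ∈ Subgroup.closure ((Q : Set _) ∪ U))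
    · rintro x (hx | hx)
      · exact ⟨Subgroup.mem_sup_left hx, (hmemC v).mp hvC x hx⟩
      · exact ⟨Subgroup.mem_sup_right hx, hv2 x hx⟩
    · simp only [ac_one, sub_self]
      exact ⟨Subgroup.one_mem _, N.zero_mem⟩
    · rintro x y _ _ ⟨hx, hx2⟩ ⟨hy, hy2⟩
      refine ⟨Subgroup.mul_mem _ hx hy, ?_⟩
      have e : ac (x * y) v - v = ac x (ac y v - v) + (ac x v - v) := by
        rw [ac_mul, ac_sub]; abel
      rw [e]
      exact N.add_mem (hNinv x hx _ hy2) hx2
    · rintro x _ ⟨hx, hx2⟩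
      refine ⟨Subgroup.inv_mem _ hx, ?_⟩
      have e : ac x⁻¹ v - v = - ac x⁻¹ (ac x v - v) := by
        rw [ac_sub, ac_inv_ac]; abel
      rw [e]
      exact N.neg_mem (hNinv x⁻¹ (Subgroup.inv_mem _ hx) _ hx2)
    · rw [Subgroup.closure_union, Subgroup.closure_eq, Subgroup.closure_eq]
      exact hg
  exact key.2

/-! ### The associative closure -/

/-- The non-unital algebra generated by the elements `g - 1`. -/
noncomputable def augA (H : Subgroup (LinearMap.GeneralLinearGroup k M)) : NonUnitalSubalgebra k (M →ₗ[k] M) :=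
  NonUnitalAlgebra.adjoin k {x | ∃ g ∈ H, x = (g : M →ₗ[k] M) - 1}

lemma sub_one_mem_augA {H : Subgroup (LinearMap.GeneralLinearGroup k M)} {g : LinearMap.GeneralLinearGroup k M}
    (hg : g ∈ H) : (g : M →ₗ[k] M) - 1 ∈ augA H :=
  NonUnitalAlgebra.subset_adjoin k ⟨g, hg, rfl⟩

lemma augA_mono {H K : Subgroup (LinearMap.GeneralLinearGroup k M)} (h : H ≤ K) : augA H ≤ augA K := by
  apply NonUnitalAlgebra.adjoin_mono
  rintro _ ⟨g, hg, rfl⟩
  exact ⟨g, h hg, rfl⟩

lemma augA_lower {H : Subgroup (LinearMap.GeneralLinearGroup k M)} {x : M →ₗ[k] M} (hx : x ∈ augA H) :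
    ∀ i, ∀ v ∈ upF H (i + 1), x v ∈ upF H i := by
  induction hx using NonUnitalAlgebra.adjoin_induction with
  | mem x hx =>
    obtain ⟨g, hg, rfl⟩ := hx
    intro i v hv
    exact hv g hg
  | add x y _ _ hx hy =>
    intro i v hv
    exact (upF H i).add_mem (hx i v hv) (hy i v hv)
  | zero =>
    intro i v _
    exact (upF H i).zero_mem
  | mul x y _ _ hx hy =>
    intro i v hv
    have h1 := hy i v hv
    have h2 := upF_mono_succ H i h1
    exact hx i _ h2
  | smul c x _ hx =>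
    intro i v hv
    exact (upF H i).smul_mem c (hx i v hv)

lemma unip_of_augA {H K : Subgroup (LinearMap.GeneralLinearGroup k M)} (hH : IsUnipotentOn H)
    (h : ∀ g ∈ K, (g : M →ₗ[k] M) - 1 ∈ augA H) : IsUnipotentOn K := by
  obtain ⟨n, hn⟩ := upF_of_unip hH
  refine ⟨n, ?_⟩
  have key : ∀ l : List (LinearMap.GeneralLinearGroup k M), (∀ g ∈ l, g ∈ K) → ∀ i : ℕ, ∀ v ∈ upF H (i + l.length),
      ((l.map fun g => (g : M →ₗ[k] M) - 1).prod) v ∈ upF H i := by
    intro l
    induction l with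
    | nil =>
      intro _ i v hv
      simpa using hv
    | cons g l ih =>
      intro hl i v hv
      have h1 := ih (fun x hx => hl x (List.mem_cons_of_mem _ hx)) (i + 1) v (by
        simp only [List.length_cons] at hv
        have : i + 1 + l.length = i + (l.length + 1) := by omega
        rw [this]; exact hv)
      have h2 := augA_lower (h g (hl g List.mem_cons_self)) i _ h1
      simpa [List.map_cons, List.prod_cons] using h2
  intro l hl hlen
  ext v
  have := key l hl 0 v (by rw [zero_add, hlen, hn]; trivial)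
  rw [upF_zero, Submodule.mem_bot] at this
  simpa using this

/-- conjugation of endomorphisms -/
lemma conj_mem_augA {H : Subgroup (LinearMap.GeneralLinearGroup k M)} (g : LinearMap.GeneralLinearGroup k M)
    {x : M →ₗ[k] M} (hx : x ∈ augA H) :
    (g : M →ₗ[k] M) * x * ((g⁻¹ : LinearMap.GeneralLinearGroup k M) : M →ₗ[k] M) ∈ augA (conjBy H g) := by
  induction hx using NonUnitalAlgebra.adjoin_induction with
  | mem x hx =>
    obtain ⟨h, hh, rfl⟩ := hx
    have hm : g * h * g⁻¹ ∈ conjBy H g := conj_mem_conj g hh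
    have := sub_one_mem_augA hm
    convert this using 1
    rw [mul_sub, sub_mul, mul_one, Units.mul_inv]
    rfl
  | add x y _ _ hx hy =>
    rw [mul_add, add_mul]
    exact add_mem hx hy
  | zero =>
    simp
  | mul x y _ _ hx hy =>
    have e : (g : M →ₗ[k] M) * (x * y) * ((g⁻¹ : LinearMap.GeneralLinearGroup k M) : M →ₗ[k] M) =
        ((g : M →ₗ[k] M) * x * ((g⁻¹ : LinearMap.GeneralLinearGroup k M) : M →ₗ[k] M)) *
          ((g : M →ₗ[k] M) * y * ((g⁻¹ : LinearMap.GeneralLinearGroup k M) : M →ₗ[k] M)) := by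
      simp only [mul_assoc]
      rw [← mul_assoc ((g⁻¹ : LinearMap.GeneralLinearGroup k M) : M →ₗ[k] M) (g : M →ₗ[k] M), Units.inv_mul, one_mul]
    rw [e]
    exact mul_mem hx hy
  | smul c x _ hx =>
    have e : (g : M →ₗ[k] M) * (c • x) * ((g⁻¹ : LinearMap.GeneralLinearGroup k M) : M →ₗ[k] M) =
        c • ((g : M →ₗ[k] M) * x * ((g⁻¹ : LinearMap.GeneralLinearGroup k M) : M →ₗ[k] M)) := by
      simp [mul_assoc, mul_smul_comm, smul_mul_assoc]
    rw [e]
    exact SMulMemClass.smul_mem c hx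

/-- The measure. -/
noncomputable def meas (H : Subgroup (LinearMap.GeneralLinearGroup k M)) : ℕ :=
  Module.finrank k (augA H).toSubmodule

lemma meas_mono {H K : Subgroup (LinearMap.GeneralLinearGroup k M)} (h : H ≤ K) : meas H ≤ meas K :=
  Submodule.finrank_mono (augA_mono h)

lemma meas_le (H : Subgroup (LinearMap.GeneralLinearGroup k M)) : meas H ≤ Module.finrank k (M →ₗ[k] M) :=
  Submodule.finrank_le _

lemma eq_of_meas {H K : Subgroup (LinearMap.GeneralLinearGroup k M)} (h : H ≤ K) (he : meas K ≤ meas H) :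
    augA H = augA K := by
  have := Submodule.eq_of_le_of_finrank_le (augA_mono h) he
  exact NonUnitalSubalgebra.toSubmodule_injective this

lemma meas_conj_le (H : Subgroup (LinearMap.GeneralLinearGroup k M)) (g : LinearMap.GeneralLinearGroup k M) :
    meas H ≤ meas (conjBy H g) := by
  let L : (M →ₗ[k] M) →ₗ[k] (M →ₗ[k] M) :=
    (LinearMap.mulLeft k (g : M →ₗ[k] M)).comp (LinearMap.mulRight k ((g⁻¹ : LinearMap.GeneralLinearGroup k M) : M →ₗ[k] M))
  have hLapp : ∀ x, L x = (g : M →ₗ[k] M) * (x * ((g⁻¹ : LinearMap.GeneralLinearGroup k M) : M →ₗ[k] M)) := fun x => rfl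
  have hL : Function.Injective L := by
    intro x y hxy
    rw [hLapp, hLapp] at hxy
    have h1 := (Units.mul_right_inj g).mp hxy
    exact (Units.mul_left_inj g⁻¹).mp h1
  have hle : (augA H).toSubmodule.map L ≤ (augA (conjBy H g)).toSubmodule := by
    rintro _ ⟨x, hx, rfl⟩
    rw [hLapp, ← mul_assoc]
    exact conj_mem_augA g hx
  have h1 := Submodule.finrank_mono hle
  have h2 := (Submodule.equivMapOfInjective L hL (augA H).toSubmodule).finrank_eq
  unfold meas
  rw [h2]
  exact h1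

/-- `W`-closure. -/
noncomputable def clW (W : Set (Subgroup (LinearMap.GeneralLinearGroup k M)))
    (H : Subgroup (LinearMap.GeneralLinearGroup k M)) : Subgroup (LinearMap.GeneralLinearGroup k M) :=
  sSup {Y | Y ∈ W ∧ ∀ y ∈ Y, (y : M →ₗ[k] M) - 1 ∈ augA H}

/-- generated by members of `W` -/
def GenW (W : Set (Subgroup (LinearMap.GeneralLinearGroup k M)))
    (K : Subgroup (LinearMap.GeneralLinearGroup k M)) : Prop :=
  K ≤ sSup {Y | Y ∈ W ∧ Y ≤ K}

/-- closed unipotent `W`-subgroup -/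
def ClosedW (W : Set (Subgroup (LinearMap.GeneralLinearGroup k M)))
    (H : Subgroup (LinearMap.GeneralLinearGroup k M)) : Prop :=
  IsUnipotentOn H ∧ H = clW W H

variable {W : Set (Subgroup (LinearMap.GeneralLinearGroup k M))}

lemma sub_one_mem_of_mem_clW {H : Subgroup (LinearMap.GeneralLinearGroup k M)}
    {g : LinearMap.GeneralLinearGroup k M} (hg : g ∈ clW W H) : (g : M →ₗ[k] M) - 1 ∈ augA H := by
  rw [clW, sSup_eq_iSup'] at hg
  refine Subgroup.iSup_induction (C := fun g : LinearMap.GeneralLinearGroup k M => (g : M →ₗ[k] M) - 1 ∈ augA H) _ hg ?_ ?_ ?_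
  · rintro ⟨Y, _, hY⟩ x hx
    exact hY x hx
  · simp only [Units.val_one, sub_self]
    exact zero_mem _
  · intro x y hx hy
    have e : ((x * y : LinearMap.GeneralLinearGroup k M) : M →ₗ[k] M) - 1 =
        ((x : M →ₗ[k] M) - 1) * ((y : M →ₗ[k] M) - 1) + ((x : M →ₗ[k] M) - 1) + ((y : M →ₗ[k] M) - 1) := by
      rw [Units.val_mul]
      noncomm_ring
    rw [e]
    exact add_mem (add_mem (mul_mem hx hy) hx) hy

lemma le_clW {K : Subgroup (LinearMap.GeneralLinearGroup k M)} (hK : GenW W K) : K ≤ clW W K := by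
  refine hK.trans (sSup_le_sSup ?_)
  rintro Y ⟨hY, hYK⟩
  exact ⟨hY, fun y hy => sub_one_mem_augA (hYK hy)⟩

lemma augA_clW {K : Subgroup (LinearMap.GeneralLinearGroup k M)} (hK : GenW W K) : augA (clW W K) = augA K := by
  apply le_antisymm
  · apply NonUnitalAlgebra.adjoin_le
    rintro _ ⟨g, hg, rfl⟩
    exact sub_one_mem_of_mem_clW hg
  · exact augA_mono (le_clW hK)

lemma clW_congr {H K : Subgroup (LinearMap.GeneralLinearGroup k M)} (h : augA H = augA K) : clW W H = clW W K := by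
  unfold clW
  rw [h]

lemma closed_clW {K : Subgroup (LinearMap.GeneralLinearGroup k M)} (hK : GenW W K) (hU : IsUnipotentOn K) :
    ClosedW W (clW W K) := by
  exact ⟨unip_of_augA hU (fun g hg => sub_one_mem_of_mem_clW hg), (clW_congr (augA_clW hK)).symm⟩

lemma gen_of_closed {H : Subgroup (LinearMap.GeneralLinearGroup k M)} (h : ClosedW W H) : GenW W H := by
  unfold GenW
  conv_lhs => rw [h.2]
  apply sSup_le_sSup
  rintro Y ⟨hY, hY2⟩
  refine ⟨hY, ?_⟩
  rw [h.2]
  exact le_sSup ⟨hY, hY2⟩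

lemma gen_sup {Q Z : Subgroup (LinearMap.GeneralLinearGroup k M)} (hQ : GenW W Q) (hZ : Z ∈ W) : GenW W (Q ⊔ Z) := by
  apply sup_le
  · refine hQ.trans (sSup_le_sSup ?_)
    rintro Y ⟨hY, hYQ⟩
    exact ⟨hY, hYQ.trans le_sup_left⟩
  · exact le_sSup ⟨hZ, le_sup_right⟩

lemma closed_bot (hW : ∀ Y ∈ W, IsUnipotentOn Y) : ClosedW W (⊥ : Subgroup (LinearMap.GeneralLinearGroup k M)) := by
  have hU : IsUnipotentOn (⊥ : Subgroup (LinearMap.GeneralLinearGroup k M)) := by
    refine ⟨1, ?_⟩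
    rintro l hl hlen
    obtain ⟨g, rfl⟩ := List.length_eq_one_iff.mp hlen
    have := hl g (by simp)
    rw [Subgroup.mem_bot] at this
    subst this
    simp
  refine ⟨hU, ?_⟩
  apply le_antisymm bot_le
  have hbot : augA (⊥ : Subgroup (LinearMap.GeneralLinearGroup k M)) = ⊥ := by
    rw [eq_bot_iff]
    apply NonUnitalAlgebra.adjoin_le
    rintro _ ⟨g, hg, rfl⟩
    rw [Subgroup.mem_bot] at hg
    subst hg
    simp
  apply sSup_le
  rintro Y ⟨_, hY⟩
  intro y hy
  have h1 := hY y hy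
  rw [hbot] at h1
  have h2 : (y : M →ₗ[k] M) - 1 = 0 := NonUnitalAlgebra.mem_bot.mp h1
  rw [Subgroup.mem_bot]
  apply Units.ext
  simpa [sub_eq_zero] using h2

lemma strict_meas {A₁ A₂ : Subgroup (LinearMap.GeneralLinearGroup k M)} (h1 : ClosedW W A₁) (h2 : ClosedW W A₂)
    (hle : A₁ ≤ A₂) (hne : ¬ A₂ ≤ A₁) : meas A₁ < meas A₂ := by
  refine lt_of_le_of_ne (meas_mono hle) ?_
  intro he
  apply hne
  have h3 := eq_of_meas hle he.ge
  rw [h2.2, ← clW_congr h3, ← h1.2]

/-- A closed group whose conjugate lies in it is normalised. -/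
lemma conj_closed_eq {G : Subgroup (LinearMap.GeneralLinearGroup k M)}
    (hWconj : ∀ A ∈ W, ∀ g ∈ G, conjBy A g ∈ W) {Q : Subgroup (LinearMap.GeneralLinearGroup k M)} (hQ : ClosedW W Q)
    {g : LinearMap.GeneralLinearGroup k M} (hg : g ∈ G) (hle : conjBy Q g ≤ Q) : conjBy Q g = Q := by
  apply le_antisymm hle
  have h1 : augA (conjBy Q g) = augA Q := eq_of_meas hle (meas_conj_le Q g)
  have hfam : ∀ Y, Y ∈ W → (∀ y ∈ Y, (y : M →ₗ[k] M) - 1 ∈ augA Q) → Y ≤ conjBy Q g := by
    intro Y hY hY2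
    have hY3 : conjBy Y g⁻¹ ≤ Q := by
      rw [hQ.2]
      apply le_sSup
      refine ⟨hWconj Y hY g⁻¹ (G.inv_mem hg), ?_⟩
      intro z hz
      rw [mem_conj, inv_inv] at hz
      have h2 : g * z * g⁻¹ ∈ Y := hz
      have h3 := hY2 _ h2
      rw [← h1] at h3
      have h4 := conj_mem_augA g⁻¹ h3
      rw [conj_conj] at h4
      have e0 : g⁻¹ * g = 1 := inv_mul_cancel g
      rw [e0, conj_one'] at h4
      convert h4 using 1
      have e1 : ((g * z * g⁻¹ : LinearMap.GeneralLinearGroup k M) : M →ₗ[k] M) - 1 =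
          (g : M →ₗ[k] M) * ((z : M →ₗ[k] M) - 1) * ((g⁻¹ : LinearMap.GeneralLinearGroup k M) : M →ₗ[k] M) := by
        rw [mul_sub, sub_mul, mul_one, Units.mul_inv]
        rfl
      rw [e1]
      simp only [inv_inv]
      have e2 : ((g⁻¹ : LinearMap.GeneralLinearGroup k M) : M →ₗ[k] M) * (g : M →ₗ[k] M) = 1 := Units.inv_mul g
      calc (z : M →ₗ[k] M) - 1 = 1 * ((z : M →ₗ[k] M) - 1) * 1 := by simp
        _ = _ := by
          rw [← e2]
          noncomm_ring
    intro y hy
    rw [mem_conj]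
    exact hY3 (by
      rw [mem_conj, inv_inv]
      group
      exact hy)
  conv_lhs => rw [hQ.2]
  apply sSup_le
  rintro Y ⟨hY, hY2⟩
  exact hfam Y hY hY2

/-! ### The lower central layers -/

/-- Layers of a unipotent subgroup. -/
def layer (R : Subgroup (LinearMap.GeneralLinearGroup k M)) (j : ℕ) : Subgroup (LinearMap.GeneralLinearGroup k M) where
  carrier := {g | g ∈ R ∧ ∀ i, ∀ v ∈ upF R (i + j), ac g v - v ∈ upF R i}
  mul_mem' := by
    rintro a b ⟨ha, ha2⟩ ⟨hb, hb2⟩
    refine ⟨R.mul_mem ha hb, ?_⟩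
    intro i v hv
    have e : ac (a * b) v - v = (ac a (ac b v) - ac b v) + (ac b v - v) := by
      rw [ac_mul]; abel
    rw [e]
    exact (upF R i).add_mem (ha2 i _ (upF_preserve hb hv)) (hb2 i v hv)
  one_mem' := by
    refine ⟨R.one_mem, ?_⟩
    intro i v _
    simp only [ac_one, sub_self]
    exact (upF R i).zero_mem
  inv_mem' := by
    rintro a ⟨ha, ha2⟩
    refine ⟨R.inv_mem ha, ?_⟩
    intro i v hv
    have e : ac a⁻¹ v - v = - ac a⁻¹ (ac a v - v) := by
      rw [ac_sub, ac_inv_ac]; abel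
    rw [e]
    exact (upF R i).neg_mem (upF_preserve (R.inv_mem ha) (ha2 i v hv))

lemma mem_layer {R : Subgroup (LinearMap.GeneralLinearGroup k M)} {j : ℕ} {g : LinearMap.GeneralLinearGroup k M} :
    g ∈ layer R j ↔ g ∈ R ∧ ∀ i, ∀ v ∈ upF R (i + j), ac g v - v ∈ upF R i := Iff.rfl

lemma layer_zero (R : Subgroup (LinearMap.GeneralLinearGroup k M)) : layer R 0 = R := by
  ext g
  rw [mem_layer]
  constructor
  · exact fun h => h.1
  · intro hg
    refine ⟨hg, ?_⟩
    intro i v hv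
    rw [add_zero] at hv
    exact (upF R i).sub_mem (upF_preserve hg hv) hv

lemma layer_top {R : Subgroup (LinearMap.GeneralLinearGroup k M)} {n : ℕ} (hn : upF R n = ⊤) : layer R n = ⊥ := by
  rw [eq_bot_iff]
  intro g hg
  rw [mem_layer] at hg
  rw [Subgroup.mem_bot]
  apply Units.ext
  ext v
  have h1 := hg.2 0 v (by rw [zero_add, hn]; trivial)
  rw [upF_zero, Submodule.mem_bot, sub_eq_zero] at h1
  exact h1

lemma layer_comm {R : Subgroup (LinearMap.GeneralLinearGroup k M)} {j : ℕ} {x g : LinearMap.GeneralLinearGroup k M}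
    (hx : x ∈ layer R j) (hg : g ∈ R) : x * g * x⁻¹ * g⁻¹ ∈ layer R (j + 1) := by
  rw [mem_layer] at hx ⊢
  refine ⟨R.mul_mem (R.mul_mem (R.mul_mem hx.1 hg) (R.inv_mem hx.1)) (R.inv_mem hg), ?_⟩
  intro i v hv
  set u := ac x⁻¹ (ac g⁻¹ v) with hu
  have huF : u ∈ upF R (i + (j + 1)) := upF_preserve (R.inv_mem hx.1) (upF_preserve (R.inv_mem hg) hv)
  have e1 : ac (x * g * x⁻¹ * g⁻¹) v = ac x (ac g u) := by
    simp only [ac_mul, hu]
  have e2 : v = ac g (ac x u) := by
    rw [hu, ac_ac_inv, ac_ac_inv]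
  have e3 : ac (x * g * x⁻¹ * g⁻¹) v - v =
      (ac x (ac g u - u) - (ac g u - u)) - (ac g (ac x u - u) - (ac x u - u)) := by
    have e5 : ac x (ac g u) - v = ac x (ac g u) - ac g (ac x u) := by rw [← e2]
    rw [e1, e5, ac_sub, ac_sub]
    abel
  rw [e3]
  have h1 : ac g u - u ∈ upF R (i + j) := by
    have e4 : i + (j + 1) = i + j + 1 := by omega
    rw [e4] at huF
    exact huF g hg
  have h2 : ac x u - u ∈ upF R (i + 1) := by
    have e4 : i + (j + 1) = i + 1 + j := by omega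
    rw [e4] at huF
    exact hx.2 (i + 1) u huF
  exact (upF R i).sub_mem (hx.2 i _ h1) (h2 g hg)

/-- The normaliser condition for unipotent groups. -/
lemma exists_normalizing {R N : Subgroup (LinearMap.GeneralLinearGroup k M)} (hR : IsUnipotentOn R) (hle : N ≤ R)
    (hne : ¬ R ≤ N) : ∃ g ∈ R, g ∉ N ∧ ∀ m ∈ N, g * m * g⁻¹ ∈ N ∧ g⁻¹ * m * g ∈ N := by
  obtain ⟨n, hn⟩ := upF_of_unip hR
  have hj : ∃ j, ¬ layer R j ≤ N ∧ layer R (j + 1) ≤ N := by
    by_contra hno
    push Not at hno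
    have h1 : ∀ j, ¬ layer R j ≤ N := by
      intro j
      induction j with
      | zero => rw [layer_zero]; exact hne
      | succ j ih => exact hno j ih
    apply h1 n
    rw [layer_top hn]
    exact bot_le
  obtain ⟨j, hj1, hj2⟩ := hj
  obtain ⟨g, hg, hgN⟩ := SetLike.not_le_iff_exists.mp hj1
  have hgR : g ∈ R := hg.1
  refine ⟨g, hgR, hgN, ?_⟩
  intro m hm
  have hmR := hle hm
  constructor
  · have h1 := hj2 (layer_comm hg hmR)
    have e : g * m * g⁻¹ = (g * m * g⁻¹ * m⁻¹) * m := by group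
    rw [e]
    exact N.mul_mem h1 hm
  · have h1 := hj2 (layer_comm ((layer R j).inv_mem hg) hmR)
    have e : g⁻¹ * m * g = (g⁻¹ * m * g⁻¹⁻¹ * m⁻¹) * m := by group
    rw [e]
    exact N.mul_mem h1 hm

/-- Normaliser growth for `W`-generated subgroups. -/
lemma exists_member_normalizing {G : Subgroup (LinearMap.GeneralLinearGroup k M)}
    (hWconj : ∀ A ∈ W, ∀ g ∈ G, conjBy A g ∈ W) {Q R : Subgroup (LinearMap.GeneralLinearGroup k M)} (hQ : ClosedW W Q)
    (hR : IsUnipotentOn R) (hRgen : GenW W R) (hRG : R ≤ G) (hQR : Q ≤ R) (hne : ¬ R ≤ Q) :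
    ∃ Z ∈ W, Z ≤ R ∧ ¬ Z ≤ Q ∧ Z ≤ Subgroup.normalizer (Q : Set (LinearMap.GeneralLinearGroup k M)) := by
  by_contra hcon
  push Not at hcon
  let N := Subgroup.normalizer (Q : Set (LinearMap.GeneralLinearGroup k M)) ⊓ R
  have hNsub : ∀ Z ∈ W, Z ≤ N → Z ≤ Q := by
    intro Z hZ hZN
    by_contra hnot
    exact hcon Z hZ (hZN.trans inf_le_right) hnot (hZN.trans inf_le_left)
  have hQN : Q ≤ N := le_inf Subgroup.le_normalizer hQR
  have hRN : ¬ R ≤ N := by
    intro h
    apply hne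
    refine hRgen.trans (sSup_le ?_)
    rintro Y ⟨hY, hYR⟩
    exact hNsub Y hY (hYR.trans h)
  obtain ⟨g, hgR, hgN, hg⟩ := exists_normalizing hR inf_le_right hRN
  have hgG := hRG hgR
  have hle : conjBy Q g ≤ Q := by
    rintro _ ⟨x, hx, rfl⟩
    have hx' : x ∈ sSup {Y | Y ∈ W ∧ Y ≤ Q} := gen_of_closed hQ hx
    have hle2 : sSup {Y | Y ∈ W ∧ Y ≤ Q} ≤ Q.comap (MulAut.conj g).toMonoidHom := by
      apply sSup_le
      rintro Y ⟨hY, hYQ⟩
      rw [← Subgroup.map_le_iff_le_comap]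
      apply hNsub _ (hWconj Y hY g hgG)
      rintro _ ⟨y, hy, rfl⟩
      exact (hg y (hQN (hYQ hy))).1
    exact hle2 hx'
  have he := conj_closed_eq hWconj hQ hgG hle
  apply hgN
  exact Subgroup.mem_inf.mpr ⟨mem_normalizer_of_conj_eq he, hgR⟩

lemma exists_max_meas {S : Set (Subgroup (LinearMap.GeneralLinearGroup k M))} (hS : S.Nonempty) :
    ∃ P ∈ S, ∀ P' ∈ S, meas P' ≤ meas P := by
  classical
  have hbd : ∀ x ∈ meas '' S, x ≤ Module.finrank k (M →ₗ[k] M) := by
    rintro _ ⟨P, _, rfl⟩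
    exact meas_le P
  have hne : (meas '' S).Nonempty := hS.image _
  obtain ⟨P, hP, hmax⟩ : ∃ n ∈ meas '' S, ∀ x ∈ meas '' S, x ≤ n := by
    have hfin : (meas '' S).Finite := (Set.finite_Iic _).subset hbd
    obtain ⟨a, ha, hamax⟩ := hfin.exists_maximal hne
    refine ⟨a, ha, fun x hx => ?_⟩
    exact (le_total x a).elim id (fun h => hamax hx h)
  obtain ⟨Q, hQ, rfl⟩ := hP
  exact ⟨Q, hQ, fun P' hP' => hmax _ ⟨P', hP', rfl⟩⟩

lemma clW_mono {H K : Subgroup (LinearMap.GeneralLinearGroup k M)} (h : H ≤ K) : clW W H ≤ clW W K := by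
  apply sSup_le_sSup
  rintro Y ⟨hY, hY2⟩
  exact ⟨hY, fun y hy => augA_mono h (hY2 y hy)⟩

lemma unip_sup_cl {H K Y : Subgroup (LinearMap.GeneralLinearGroup k M)} (hK : IsUnipotentOn K) (hHK : H ≤ K)
    (hY : Y ∈ W) (hYK : Y ≤ K) : IsUnipotentOn (clW W H ⊔ Y) := by
  have h1 : clW W H ⊔ Y ≤ clW W K := by
    apply sup_le (clW_mono hHK)
    exact le_sSup ⟨hY, fun y hy => sub_one_mem_augA (hYK hy)⟩
  have h2 : IsUnipotentOn (clW W K) := unip_of_augA hK (fun g hg => sub_one_mem_of_mem_clW hg)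
  exact unip_mono h2 h1

/-- The Baer-Suzuki type theorem for unipotent groups. -/
theorem s5061_main {G : Subgroup (LinearMap.GeneralLinearGroup k M)}
    {W : Set (Subgroup (LinearMap.GeneralLinearGroup k M))} (hWG : ∀ A ∈ W, A ≤ G)
    (hWW : ∀ A ∈ W, ∀ B ∈ W, IsUnipotentOn (A ⊔ B)) (hWconj : ∀ A ∈ W, ∀ g ∈ G, conjBy A g ∈ W) :
    IsUnipotentOn (⨆ A ∈ W, A) ∧ ∀ g ∈ G, conjBy (⨆ A ∈ W, A) g = ⨆ A ∈ W, A := by
  constructor
  · have hself : ∀ Y ∈ W, IsUnipotentOn Y := by
      intro Y hY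
      have := hWW Y hY Y hY
      rwa [sup_idem] at this
    have hleG : ∀ {K : Subgroup (LinearMap.GeneralLinearGroup k M)}, GenW W K → K ≤ G := by
      intro K hK
      refine hK.trans (sSup_le ?_)
      rintro Y ⟨hY, _⟩
      exact hWG Y hY
    obtain ⟨P, hP, hPmax⟩ := exists_max_meas (S := {P | ClosedW W P}) ⟨⊥, closed_bot hself⟩
    have hPc : ClosedW W P := hP
    by_cases hall : ∀ Y ∈ W, Y ≤ P
    · exact unip_mono hPc.1 (iSup₂_le hall)
    exfalso
    push Not at hall
    obtain ⟨Y₀, hY₀, hY₀P⟩ := hall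
    obtain ⟨Q, hQm, hQmax⟩ := exists_max_meas
      (S := {Q | ClosedW W Q ∧ Q ≤ P ∧ ∃ Y ∈ W, ¬ Y ≤ P ∧ IsUnipotentOn (Q ⊔ Y)})
      ⟨⊥, closed_bot hself, bot_le, Y₀, hY₀, hY₀P, by rw [bot_sup_eq]; exact hself _ hY₀⟩
    obtain ⟨hQc, hQP, Y, hY, hYP, hQY⟩ := hQm
    have hQgen := gen_of_closed hQc
    have hPgen := gen_of_closed hPc
    -- `Q ≠ P`
    have hPQ : ¬ P ≤ Q := by
      intro h
      have hQeq : Q = P := le_antisymm hQP h
      subst hQeq
      have hgen := gen_sup hQgen hY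
      have hcl := closed_clW hgen hQY
      have hle1 : Q ≤ clW W (Q ⊔ Y) := le_sup_left.trans (le_clW hgen)
      have hYle : ¬ clW W (Q ⊔ Y) ≤ Q := fun h2 => hYP ((le_sup_right.trans (le_clW hgen)).trans h2)
      have h1 := strict_meas hQc hcl hle1 hYle
      have h2 := hPmax _ hcl
      omega
    have hYQ : ¬ Y ≤ Q := fun h => hYP (h.trans hQP)
    obtain ⟨Z, hZ, hZP, hZQ, hZN⟩ := exists_member_normalizing hWconj hQc hPc.1 hPgen (hleG hPgen) hQP hPQ
    have hgenY := gen_sup hQgen hY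
    obtain ⟨Y', hY', hY'R, hY'Q, hY'N⟩ := exists_member_normalizing hWconj hQc hQY hgenY (hleG hgenY) le_sup_left
      (fun h => hYQ (le_sup_right.trans h))
    have hQu : IsUnipotentOn Q := hQc.1
    have hall3 : IsUnipotentOn (Q ⊔ (Z ⊔ Y')) :=
      unip_sup_of_normalizes hQu (hWW Z hZ Y' hY') (sup_le hZN hY'N)
    by_cases hcase : Y' ≤ P
    · -- enlarge `Q` by `Y'`
      have hgen2 := gen_sup hQgen hY'
      have hu2 : IsUnipotentOn (Q ⊔ Y') := unip_mono hQY (sup_le le_sup_left hY'R)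
      have hcl := closed_clW hgen2 hu2
      have hclP : clW W (Q ⊔ Y') ≤ P := by
        rw [hPc.2]
        exact clW_mono (sup_le hQP hcase)
      have hmem : clW W (Q ⊔ Y') ∈ {Q | ClosedW W Q ∧ Q ≤ P ∧ ∃ Y ∈ W, ¬ Y ≤ P ∧ IsUnipotentOn (Q ⊔ Y)} := by
        refine ⟨hcl, hclP, Y, hY, hYP, ?_⟩
        exact unip_sup_cl hQY (sup_le le_sup_left hY'R) hY le_sup_right
      have h1 := hQmax _ hmem
      have h2 := strict_meas hQc hcl (le_sup_left.trans (le_clW hgen2))
        (fun h => hY'Q ((le_sup_right.trans (le_clW hgen2)).trans h))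
      omega
    · -- enlarge `Q` by `Z`, using `Y'`
      have hgen2 := gen_sup hQgen hZ
      have hu2 : IsUnipotentOn (Q ⊔ Z) := unip_mono hPc.1 (sup_le hQP hZP)
      have hcl := closed_clW hgen2 hu2
      have hclP : clW W (Q ⊔ Z) ≤ P := by
        rw [hPc.2]
        exact clW_mono (sup_le hQP hZP)
      have hmem : clW W (Q ⊔ Z) ∈ {Q | ClosedW W Q ∧ Q ≤ P ∧ ∃ Y ∈ W, ¬ Y ≤ P ∧ IsUnipotentOn (Q ⊔ Y)} := by
        refine ⟨hcl, hclP, Y', hY', hcase, ?_⟩
        exact unip_sup_cl hall3 (sup_le le_sup_left (le_sup_left.trans le_sup_right)) hY'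
          (le_sup_right.trans le_sup_right)
      have h1 := hQmax _ hmem
      have h2 := strict_meas hQc hcl (le_sup_left.trans (le_clW hgen2))
        (fun h => hZQ ((le_sup_right.trans (le_clW hgen2)).trans h))
      omega
  · intro g hg
    have key : ∀ h ∈ G, conjBy (⨆ A ∈ W, A) h ≤ ⨆ A ∈ W, A := by
      intro h hh
      have : (⨆ A ∈ W, A) ≤ (⨆ A ∈ W, A).comap (MulAut.conj h).toMonoidHom := by
        apply iSup₂_le
        intro A hA
        rw [← Subgroup.map_le_iff_le_comap]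
        exact le_iSup₂_of_le _ (hWconj A hA h hh) le_rfl
      rw [Subgroup.map_le_iff_le_comap]
      exact this
    apply le_antisymm (key g hg)
    have h2 := key g⁻¹ (G.inv_mem hg)
    intro x hx
    rw [mem_conj]
    apply h2
    rw [mem_conj, inv_inv]
    have e : g * (g⁻¹ * x * g) * g⁻¹ = x := by group
    rw [e]
    exact hx

end fd

end Cfsg.Agent.RootSub
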