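import Cfsg.Agent.Lib.A6Invol
import Cfsg.Prelude.Def_RootSubgroups

set_option autoImplicit false

namespace Cfsg.Agent.RootSub

open Cfsg Equiv

set_option maxRecDepth 100000 in
theorem a6_pow_fact : ∀ x : Perm (Fin 6), Perm.sign x = 1 → x ^ 3 = 1 ∨ x ^ 4 = 1 ∨ x ^ 5 = 1 := by
  decide +kernel

lemma a6_order {x : ↥(alternatingGroup (Fin 6))} :
    orderOf x = 1 ∨ orderOf x = 2 ∨ orderOf x = 3 ∨ orderOf x = 4 ∨ orderOf x = 5 := by
  have h := a6_pow_fact (x : Perm (Fin 6)) (Equiv.Perm.mem_alternatingGroup.mp x.2)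
  rcases h with h | h | h
  · have h' : orderOf (x : Perm (Fin 6)) ∣ 3 := orderOf_dvd_of_pow_eq_one h
    rw [Subgroup.orderOf_coe] at h'
    rcases (Nat.dvd_prime Nat.prime_three).mp h' with h1 | h1
    · left; exact h1
    · right; right; left; exact h1
  · have h' : orderOf (x : Perm (Fin 6)) ∣ 4 := orderOf_dvd_of_pow_eq_one h
    rw [Subgroup.orderOf_coe] at h'
    have : orderOf x ∈ Nat.divisors 4 := by
      rw [Nat.mem_divisors]; exact ⟨h', by norm_num⟩
    have e : Nat.divisors 4 = {1, 2, 4} := by decide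
    rw [e] at this
    simp only [Finset.mem_insert, Finset.mem_singleton] at this
    omega
  · have h' : orderOf (x : Perm (Fin 6)) ∣ 5 := orderOf_dvd_of_pow_eq_one h
    rw [Subgroup.orderOf_coe] at h'
    rcases (Nat.dvd_prime Nat.prime_five).mp h' with h1 | h1
    · left; exact h1
    · right; right; right; right; exact h1

lemma a6_invol_facts {a : ↥(alternatingGroup (Fin 6))} (h : orderOf a = 2) :
    Perm.sign (a : Perm (Fin 6)) = 1 ∧ (a : Perm (Fin 6)) ^ 2 = 1 ∧ (a : Perm (Fin 6)) ≠ 1 := by
  refine ⟨Equiv.Perm.mem_alternatingGroup.mp a.2, ?_, ?_⟩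
  · rw [← h]
    have := pow_orderOf_eq_one a
    exact_mod_cast congrArg Subtype.val this
  · intro e
    have : a = 1 := Subtype.ext e
    rw [this, orderOf_one] at h
    omega

theorem s5057_main :
    IsRootInvolutionClass {g : ↥(alternatingGroup (Fin 6)) | orderOf g = 2} ∧
    ∀ d ∈ {g : ↥(alternatingGroup (Fin 6)) | orderOf g = 2}, ∀ e ∈ {g : ↥(alternatingGroup (Fin 6)) | orderOf g = 2},
      orderOf (d * e) ≤ 5 := by
  set D := {g : ↥(alternatingGroup (Fin 6)) | orderOf g = 2} with hD
  have hconj : ∀ d ∈ D, ∀ g : ↥(alternatingGroup (Fin 6)), g * d * g⁻¹ ∈ D := by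
    intro d hd g
    have e : g * d * g⁻¹ = MulAut.conj g d := rfl
    change orderOf (g * d * g⁻¹) = 2
    rw [e, MulEquiv.orderOf_eq]
    exact hd
  have hsign0 : (Lib.A6Invol.u0) ∈ alternatingGroup (Fin 6) := by
    rw [Equiv.Perm.mem_alternatingGroup]
    exact Lib.A6Invol.sign_u0
  set u : ↥(alternatingGroup (Fin 6)) := ⟨Lib.A6Invol.u0, hsign0⟩ with hu
  have hu2 : u * u = 1 := by
    apply Subtype.ext
    show Lib.A6Invol.u0 * Lib.A6Invol.u0 = 1
    decide +kernel
  have hu1 : u ≠ 1 := by
    intro e
    have : Lib.A6Invol.u0 = 1 := congrArg Subtype.val e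
    revert this
    decide +kernel
  have huD : u ∈ D := by
    change orderOf u = 2
    apply orderOf_eq_prime _ hu1
    rw [pow_two]; exact hu2
  have hto : ∀ a ∈ D, ∃ g : ↥(alternatingGroup (Fin 6)), a = g * u * g⁻¹ := by
    intro a ha
    obtain ⟨h1, h2, h3⟩ := a6_invol_facts ha
    obtain ⟨g, hg, e⟩ := Lib.A6Invol.fact2 _ h1 h2 h3
    refine ⟨⟨g, by rw [Equiv.Perm.mem_alternatingGroup]; exact hg⟩, ?_⟩
    apply Subtype.ext
    exact e.symm
  have hle : ∀ d ∈ D, ∀ e ∈ D, orderOf (d * e) ≤ 5 := by
    intro d _ e _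
    rcases a6_order (x := d * e) with h | h | h | h | h <;> omega
  refine ⟨⟨⟨fun d hd => hd, ?_, hconj, ?_⟩, ⟨u, huD⟩, ?_⟩, hle⟩
  · -- generation
    have hsimple : IsSimpleGroup ↥(alternatingGroup (Fin 6)) := alternatingGroup.isSimpleGroup (by simp)
    have hn : (Subgroup.closure D).Normal := by
      constructor
      intro x hx g
      induction hx using Subgroup.closure_induction with
      | mem x hx => exact Subgroup.subset_closure (hconj x hx g)
      | one => simp
      | mul x y _ _ h1 h2 =>
        have e : g * (x * y) * g⁻¹ = (g * x * g⁻¹) * (g * y * g⁻¹) := by group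
        rw [e]
        exact Subgroup.mul_mem _ h1 h2
      | inv x _ h1 =>
        have e : g * x⁻¹ * g⁻¹ = (g * x * g⁻¹)⁻¹ := by group
        rw [e]
        exact Subgroup.inv_mem _ h1
    rcases hsimple.eq_bot_or_eq_top_of_normal _ hn with h | h
    · exfalso
      have : u ∈ Subgroup.closure D := Subgroup.subset_closure huD
      rw [h, Subgroup.mem_bot] at this
      exact hu1 this
    · exact h
  · intro a ha b hb
    have ha2 : a * a = 1 := by
      have := pow_orderOf_eq_one a
      rw [show orderOf a = 2 from ha, pow_two] at this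
      exact this
    have hb2 : b * b = 1 := by
      have := pow_orderOf_eq_one b
      rw [show orderOf b = 2 from hb, pow_two] at this
      exact this
    rcases a6_order (x := a * b) with h | h | h | h | h
    · right; left; rw [h]; decide
    · left
      have h2 := pow_orderOf_eq_one (a * b)
      rw [h, pow_two] at h2
      calc a * b = a * b * (a * b * (b * a)) := by
            have : a * b * (b * a) = 1 := by
              calc a * b * (b * a) = a * (b * b) * a := by group
                _ = 1 := by rw [hb2, mul_one, ha2]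
            rw [this, mul_one]
        _ = (a * b * (a * b)) * (b * a) := by group
        _ = b * a := by rw [h2, one_mul]
    · right; left; rw [h]; decide
    · right; right
      refine ⟨h, ?_⟩
      have := orderOf_pow_orderOf_div (x := a * b) (n := 2) (by rw [h]; norm_num) (by rw [h]; norm_num)
      rw [h] at this
      exact this
    · right; left; rw [h]; decide
  · intro a ha b hb
    obtain ⟨g, rfl⟩ := hto a ha
    obtain ⟨h, rfl⟩ := hto b hb
    refine ⟨h * g⁻¹, ?_⟩
    group

end Cfsg.Agent.RootSub
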