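import Mathlib

set_option autoImplicit false

namespace Cfsg.Agent.RootSub

open scoped commutatorElement

variable {P : Type*} [Group P]

lemma normal_of_commutator_le {K : Subgroup P} (h : commutator P ≤ K) : K.Normal := by
  constructor
  intro x hx g
  have e : g * x * g⁻¹ = ⁅g, x⁆ * x := by
    rw [commutatorElement_def]; group
  rw [e]
  refine K.mul_mem (h ?_) hx
  exact Subgroup.commutator_mem_commutator (Subgroup.mem_top g) (Subgroup.mem_top x)

lemma normalClosure_le_sup (E : Subgroup P) : Subgroup.normalClosure (E : Set P) ≤ E ⊔ commutator P := by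
  have hn : (E ⊔ commutator P).Normal := normal_of_commutator_le le_sup_right
  exact Subgroup.normalClosure_le_normal (fun x hx => Subgroup.mem_sup_left hx)

lemma comm_sup_le {E : Subgroup P} (hE : IsMulCommutative ↥E) :
    ⁅E ⊔ commutator P, E ⊔ commutator P⁆ ≤ (⊤ : Subgroup P).lowerCentralSeries 2 := by
  set L₂ := (⊤ : Subgroup P).lowerCentralSeries 2 with hL₂
  have hnorm : L₂.Normal := by
    have : ((⊤ : Subgroup P).lowerCentralSeries 2).Characteristic := inferInstance
    rw [hL₂]; infer_instance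
  let φ := QuotientGroup.mk' L₂
  have hcentral : ∀ c ∈ commutator P, ∀ g : P, φ c * φ g = φ g * φ c := by
    intro c hc g
    have h1 : ⁅c, g⁆ ∈ L₂ := by
      show ⁅c, g⁆ ∈ ⁅commutator P, (⊤ : Subgroup P)⁆
      exact Subgroup.commutator_mem_commutator hc (Subgroup.mem_top g)
    have h2 : φ ⁅c, g⁆ = 1 := by
      rw [QuotientGroup.mk'_apply, QuotientGroup.eq_one_iff]; exact h1
    rw [commutatorElement_def, map_mul, map_mul, map_mul, map_inv, map_inv] at h2
    have h3 : φ c * φ g * (φ c)⁻¹ = φ g := mul_inv_eq_one.mp h2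
    exact mul_inv_eq_iff_eq_mul.mp h3
  rw [Subgroup.commutator_le]
  intro x hx y hy
  have : (commutator P).Normal := inferInstance
  obtain ⟨e, he, c, hc, rfl⟩ := Subgroup.mem_sup_of_normal_right.mp hx
  obtain ⟨e', he', c', hc', rfl⟩ := Subgroup.mem_sup_of_normal_right.mp hy
  have h3 : φ ⁅e * c, e' * c'⁆ = 1 := by
    rw [commutatorElement_def]
    simp only [map_mul, map_inv]
    have hee : φ e * φ e' = φ e' * φ e := by
      rw [← map_mul, ← map_mul]
      congr 1
      have := hE.is_comm.comm ⟨e, he⟩ ⟨e', he'⟩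
      exact congrArg Subtype.val this
    have c1 := hcentral c hc
    have c2 := hcentral c' hc'
    have h4 : φ e * φ c * (φ e' * φ c') = (φ e' * φ c') * (φ e * φ c) := by
      calc φ e * φ c * (φ e' * φ c') = φ e * (φ c * φ e') * φ c' := by group
        _ = φ e * (φ e' * φ c) * φ c' := by rw [c1]
        _ = (φ e * φ e') * (φ c * φ c') := by group
        _ = (φ e' * φ e) * (φ c' * φ c) := by rw [hee, c1 c']
        _ = φ e' * (φ e * φ c') * φ c := by group
        _ = φ e' * (φ c' * φ e) * φ c := by rw [c2 e]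
        _ = _ := by group
    rw [show φ e * φ c * (φ e' * φ c') * (φ e * φ c)⁻¹ * (φ e' * φ c')⁻¹ =
      (φ e * φ c * (φ e' * φ c')) * ((φ e' * φ c') * (φ e * φ c))⁻¹ by group, h4]
    group
  rwa [QuotientGroup.mk'_apply, QuotientGroup.eq_one_iff] at h3

lemma lcs_le {E : Subgroup P} (hE : IsMulCommutative ↥E) (i : ℕ) :
    (Subgroup.normalClosure (E : Set P)).lowerCentralSeries (i + 1) ≤ (⊤ : Subgroup P).lowerCentralSeries (i + 2) := by
  induction i with
  | zero =>
    show ⁅Subgroup.normalClosure (E : Set P), Subgroup.normalClosure (E : Set P)⁆ ≤ _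
    exact (Subgroup.commutator_mono (normalClosure_le_sup E) (normalClosure_le_sup E)).trans (comm_sup_le hE)
  | succ i ih =>
    rw [Subgroup.lowerCentralSeries_succ]
    show _ ≤ ⁅(⊤ : Subgroup P).lowerCentralSeries (i + 2), (⊤ : Subgroup P)⁆
    exact Subgroup.commutator_mono ih le_top

theorem class_lt [Group.IsNilpotent P] (hna : ¬ IsMulCommutative P) {E : Subgroup P} (hE : IsMulCommutative ↥E) :
    Group.nilpotencyClass ↥(Subgroup.normalClosure (E : Set P)) < Group.nilpotencyClass P := by
  have h2 : 2 ≤ Group.nilpotencyClass P := by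
    by_contra h
    apply hna
    rw [← Group.IsNilpotent.nilpotencyClass_le_one_iff]
    omega
  obtain ⟨k, hk⟩ : ∃ k, Group.nilpotencyClass P = k + 2 := ⟨Group.nilpotencyClass P - 2, by omega⟩
  have h3 : (Subgroup.normalClosure (E : Set P)).lowerCentralSeries (k + 1) = ⊥ := by
    rw [eq_bot_iff]
    refine (lcs_le hE k).trans ?_
    rw [← hk, Subgroup.lowerCentralSeries_nilpotencyClass]
  have h4 : (⊤ : Subgroup ↥(Subgroup.normalClosure (E : Set P))).lowerCentralSeries (k + 1) = ⊥ := by
    rw [← Subgroup.map_subtype_inj, Subgroup.map_bot, Subgroup.top_subtype_lowerCentralSeries]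
    exact h3
  have h5 := Subgroup.lowerCentralSeries_eq_bot_iff_nilpotencyClass_le.mp h4
  omega

end Cfsg.Agent.RootSub
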