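import Cfsg.Agent.Lib.PCore
import Cfsg.Prelude.Def_RootSubgroups

set_option autoImplicit false

namespace Cfsg.Agent.RootSub

open Cfsg
open scoped commutatorElement

variable {G : Type*} [Group G] {D : Set G}

lemma invol_mul (hD : IsRootInvolutionSet D) {d : G} (hd : d ∈ D) : d * d = 1 := by
  have := pow_orderOf_eq_one d
  rwa [hD.orderOf_eq d hd, pow_two] at this

lemma invol_inv (hD : IsRootInvolutionSet D) {d : G} (hd : d ∈ D) : d⁻¹ = d :=
  inv_eq_of_mul_eq_one_left (invol_mul hD hd)

section finite
variable [Finite G]

lemma odd_in_core {x : G} (hx : x ∈ pCore 2 G) (ho : Odd (orderOf x)) : x = 1 := by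
  have : Fact (Nat.Prime 2) := ⟨Nat.prime_two⟩
  obtain ⟨k, hk⟩ := Lib.PCore.isPGroup_pCore (G := G) 2 ⟨x, hx⟩
  have h1 : x ^ 2 ^ k = 1 := by
    have := congrArg Subtype.val hk
    simpa using this
  have h2 : orderOf x ∣ 2 ^ k := orderOf_dvd_of_pow_eq_one h1
  obtain ⟨j, _, hj⟩ := (Nat.dvd_prime_pow Nat.prime_two).mp h2
  rcases j with _ | j
  · simp only [pow_zero] at hj
    exact orderOf_eq_one_iff.mp hj
  · exfalso
    rw [hj, pow_succ, Nat.odd_iff] at ho
    omega

lemma core_comm_of_pair (hD : IsOddTranspositionSet D) {a z : G} (ha : a ∈ D) (hz : z ∈ D) (h : a * z ∈ pCore 2 G) :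
    a * z = z * a := by
  rcases hD.1.pair a ha z hz with h1 | h1 | h1
  · exact h1
  · have := odd_in_core h h1
    have e : a = z := by
      have h2 : a = z⁻¹ := eq_inv_of_mul_eq_one_left this
      rw [h2, invol_inv hD.1 hz]
    rw [e]
  · exact absurd h1.1 (hD.2 a ha z hz)

/-- `e` commuting with `a` and `a z ∈ Q` commutes with `z`. -/
lemma comm_of_core (hD : IsOddTranspositionSet D) {e a z : G} (he : e ∈ D) (ha : a ∈ D) (hz : z ∈ D)
    (hea : e * a = a * e) (h : z * a ∈ pCore 2 G) : e * z = z * e := by
  have hN : (pCore 2 G).Normal := Lib.PCore.pCore_normal 2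
  rcases hD.1.pair e he z hz with h1 | h1 | h1
  · exact h1
  · have he' := invol_inv hD.1 he
    have hz' := invol_inv hD.1 hz
    have ha' := invol_inv hD.1 ha
    have h2 : (e * z) ^ 2 ∈ pCore 2 G := by
      have h3 : e * (z * a) * e⁻¹ * (z * a)⁻¹ ∈ pCore 2 G :=
        (pCore 2 G).mul_mem (hN.conj_mem _ h e) ((pCore 2 G).inv_mem h)
      have h4 : e * (z * a) * e⁻¹ * (z * a)⁻¹ = (e * z) ^ 2 := by
        have hae : a * e⁻¹ = e⁻¹ * a := by
          rw [he']; exact hea.symm
        calc e * (z * a) * e⁻¹ * (z * a)⁻¹ = e * z * (a * e⁻¹) * a⁻¹ * z⁻¹ := by group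
          _ = e * z * (e⁻¹ * a) * a⁻¹ * z⁻¹ := by rw [hae]
          _ = e * z * e⁻¹ * z⁻¹ := by group
          _ = (e * z) ^ 2 := by rw [he', hz', pow_two]; group
      rwa [h4] at h3
    have h5 : Odd (orderOf ((e * z) ^ 2)) := by
      have hd : orderOf ((e * z) ^ 2) ∣ orderOf (e * z) := orderOf_dvd_of_pow_eq_one (by
        rw [← pow_mul, mul_comm, pow_mul, pow_orderOf_eq_one, one_pow])
      exact Odd.of_dvd_nat h1 hd
    have h6 := odd_in_core h2 h5
    have h7 : orderOf (e * z) ∣ 2 := orderOf_dvd_of_pow_eq_one h6
    have h8 : orderOf (e * z) = 1 := by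
      rcases (Nat.dvd_prime Nat.prime_two).mp h7 with h9 | h9
      · exact h9
      · rw [h9] at h1
        exact absurd h1 (by decide)
    have h10 : e * z = 1 := orderOf_eq_one_iff.mp h8
    have h11 : e = z := by
      have := eq_inv_of_mul_eq_one_left h10
      rwa [hz'] at this
    rw [h11]
  · exact absurd h1.1 (hD.2 e he z hz)

theorem s5049_main (hD : IsOddTranspositionSet D) {a : G} (ha : a ∈ D) :
    (∀ e ∈ commutingMembers D a, ∀ q ∈ ⁅pCore 2 G, Subgroup.zpowers a⁆, e * q = q * e) ∧
    (∀ b ∈ oddPartners D a,
      pCore 2 G ⊓ Subgroup.centralizer {a * b} = pCore 2 G ⊓ Subgroup.centralizer {a} ⊓ Subgroup.centralizer {b}) := by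
  have hN : (pCore 2 G).Normal := Lib.PCore.pCore_normal 2
  have hinv := fun d (hd : d ∈ D) => invol_inv hD.1 hd
  have hmul := fun d (hd : d ∈ D) => invol_mul hD.1 hd
  constructor
  · intro e he
    have hle : ⁅pCore 2 G, Subgroup.zpowers a⁆ ≤ Subgroup.centralizer {e} := by
      rw [Subgroup.commutator_le]
      intro q hq g hg
      rw [Subgroup.mem_centralizer_singleton_iff]
      obtain ⟨k, rfl⟩ := Subgroup.mem_zpowers_iff.mp hg
      have ha2 : a ^ (2 : ℤ) = 1 := by
        rw [zpow_two]; exact hmul a ha
      have hcases : a ^ k = 1 ∨ a ^ k = a := by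
        rcases Int.even_or_odd' k with ⟨j, rfl | rfl⟩
        · left; rw [zpow_mul, ha2, one_zpow]
        · right; rw [zpow_add, zpow_mul, ha2, one_zpow, one_mul, zpow_one]
      rcases hcases with h1 | h1
      · rw [h1]
        simp
      · rw [h1]
        set z := q * a * q⁻¹ with hz
        have hzD : z ∈ D := hD.1.conj_mem a ha q
        have hy : z * a ∈ pCore 2 G := by
          have e1 : z * a = q * (a * q⁻¹ * a⁻¹) := by rw [hz, hinv a ha]; group
          rw [e1]
          exact (pCore 2 G).mul_mem hq (hN.conj_mem _ ((pCore 2 G).inv_mem hq) a)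
        have h2 := comm_of_core hD he.1 ha hzD he.2 hy
        have e2 : ⁅q, a⁆ = z * a := by
          rw [commutatorElement_def, hz, hinv a ha]
        rw [e2]
        symm
        calc e * (z * a) = (e * z) * a := by group
          _ = (z * e) * a := by rw [h2]
          _ = z * (e * a) := by group
          _ = z * (a * e) := by rw [he.2]
          _ = z * a * e := by group
    intro q hq
    have := hle hq
    rw [Subgroup.mem_centralizer_singleton_iff] at this
    exact this.symm
  · rintro b ⟨hb, hba, hodd⟩
    apply le_antisymm
    · intro q hqq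
      obtain ⟨hq, hc⟩ := Subgroup.mem_inf.mp hqq
      rw [Subgroup.mem_centralizer_singleton_iff] at hc
      set z := q * a * q⁻¹ with hz
      set w := q * b * q⁻¹ with hw
      have hzD : z ∈ D := hD.1.conj_mem a ha q
      have hwD : w ∈ D := hD.1.conj_mem b hb q
      have hzw : z * w = a * b := by
        calc z * w = q * (a * b) * q⁻¹ := by rw [hz, hw]; group
          _ = a * b := by rw [hc]; group
      have hqa : a * z ∈ pCore 2 G := by
        have e1 : a * z = (a * q * a⁻¹) * q⁻¹ := by rw [hz, hinv a ha]; group
        rw [e1]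
        exact (pCore 2 G).mul_mem (hN.conj_mem _ hq a) ((pCore 2 G).inv_mem hq)
      have hqb : b * w ∈ pCore 2 G := by
        have e1 : b * w = (b * q * b⁻¹) * q⁻¹ := by rw [hw, hinv b hb]; group
        rw [e1]
        exact (pCore 2 G).mul_mem (hN.conj_mem _ hq b) ((pCore 2 G).inv_mem hq)
      have hcaz := core_comm_of_pair hD ha hzD hqa
      have hcbw := core_comm_of_pair hD hb hwD hqb
      have hyy : a * z = b * w := by
        calc a * z = a * z * (w * w) := by rw [hmul w hwD, mul_one]
          _ = a * (z * w) * w := by group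
          _ = a * (a * b) * w := by rw [hzw]
          _ = (a * a) * b * w := by group
          _ = b * w := by rw [hmul a ha, one_mul]
      set y := a * z with hy
      -- y commutes with a and b.
      have hya : y * a = a * y := by
        calc y * a = (a * z) * a := rfl
          _ = a * (z * a) := by group
          _ = a * y := by rw [← hcaz]
      have hyb : y * b = b * y := by
        rw [hyy]
        calc b * w * b = b * (w * b) := by group
          _ = b * (b * w) := by rw [hcbw]
      have hy1 : y = 1 := by
        by_contra hne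
        have hy2 : y * y = 1 := by
          calc y * y = y * (z * a) := by rw [← hcaz]
            _ = (a * z) * (z * a) := rfl
            _ = a * (z * z) * a := by group
            _ = 1 := by rw [hmul z hzD, mul_one, hmul a ha]
        have hordy : orderOf y = 2 := orderOf_eq_prime (by rw [pow_two]; exact hy2) hne
        have hw' : w = b * y := by
          rw [hyy]
          calc w = (b * b) * w := by rw [hmul b hb, one_mul]
            _ = b * (b * w) := by group
        have hcx : Commute (a * b) y := by
          show a * b * y = y * (a * b)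
          calc a * b * y = a * (b * y) := by group
            _ = a * (y * b) := by rw [hyb]
            _ = (a * y) * b := by group
            _ = (y * a) * b := by rw [hya]
            _ = y * (a * b) := by group
        have hcop : Nat.Coprime (orderOf (a * b)) (orderOf y) := by
          rw [hordy]
          exact Nat.Coprime.symm (Nat.coprime_two_left.mpr hodd)
        have hord := hcx.orderOf_mul_eq_mul_orderOf_of_coprime hcop
        have eaw : a * w = a * b * y := by rw [hw']; group
        have hab1 : orderOf (a * b) ≠ 1 := by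
          intro h
          have h1 : a * b = 1 := orderOf_eq_one_iff.mp h
          have h2 : a = b⁻¹ := eq_inv_of_mul_eq_one_left h1
          rw [hinv b hb] at h2
          exact hba h2.symm
        rcases hD.1.pair a ha w hwD with h1 | h1 | h1
        · have h2 : (a * w) ^ 2 = 1 := by
            rw [pow_two]
            calc a * w * (a * w) = a * (w * a) * w := by group
              _ = a * (a * w) * w := by rw [h1]
              _ = (a * a) * (w * w) := by group
              _ = 1 := by rw [hmul a ha, hmul w hwD, one_mul]
          have h3 : orderOf (a * w) ∣ 2 := orderOf_dvd_of_pow_eq_one h2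
          rw [eaw, hord, hordy] at h3
          have h4 : orderOf (a * b) ∣ 1 := by
            have := Nat.le_of_dvd (by norm_num) h3
            have h5 : orderOf (a * b) ≤ 1 := by omega
            have h6 : 0 < orderOf (a * b) := Odd.pos hodd
            have h7 : orderOf (a * b) = 1 := by omega
            rw [h7]
          exact hab1 (Nat.dvd_one.mp h4)
        · rw [eaw, hord, hordy, Nat.odd_iff] at h1
          omega
        · exact absurd h1.1 (hD.2 a ha w hwD)
      have hza : z = a := by
        have h2 : z = a⁻¹ := by
          have : a * z = 1 := hy1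
          exact eq_inv_of_mul_eq_one_right this
        rw [h2, hinv a ha]
      have hwb : w = b := by
        have h2 : w = b⁻¹ := by
          have : b * w = 1 := by rw [← hyy]; exact hy1
          exact eq_inv_of_mul_eq_one_right this
        rw [h2, hinv b hb]
      refine Subgroup.mem_inf.mpr ⟨Subgroup.mem_inf.mpr ⟨hq, ?_⟩, ?_⟩
      · rw [Subgroup.mem_centralizer_singleton_iff]
        rw [hz] at hza
        have := congrArg (· * q) hza
        simp only [inv_mul_cancel_right] at this
        exact this
      · rw [Subgroup.mem_centralizer_singleton_iff]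
        rw [hw] at hwb
        have := congrArg (· * q) hwb
        simp only [inv_mul_cancel_right] at this
        exact this
    · intro q hqq
      obtain ⟨hq1, h2⟩ := Subgroup.mem_inf.mp hqq
      obtain ⟨hq, h1⟩ := Subgroup.mem_inf.mp hq1
      refine Subgroup.mem_inf.mpr ⟨hq, ?_⟩
      rw [Subgroup.mem_centralizer_singleton_iff] at h1 h2 ⊢
      calc q * (a * b) = (q * a) * b := by group
        _ = (a * q) * b := by rw [h1]
        _ = a * (q * b) := by group
        _ = a * (b * q) := by rw [h2]
        _ = a * b * q := by group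

end finite

end Cfsg.Agent.RootSub
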