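import Cfsg.Agent.RootSub.QuadSame

/-!
# Quadratic pairs: the unipotent lemma

Everything is done inside the endomorphism ring.
-/

set_option autoImplicit false
set_option linter.unusedSectionVars false

namespace Cfsg.Agent.RootSub.QP

open Cfsg

variable {k : Type*} [Field k] {M : Type*} [AddCommGroup M] [Module k M]

/-- an endomorphism is the image of a group element -/
def InG (G : Subgroup (LinearMap.GeneralLinearGroup k M)) (f : M →ₗ[k] M) : Prop :=
  ∃ g ∈ G, (g : M →ₗ[k] M) = f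

/-- quadratic element `x` (as `σ - 1`). -/
def QE (G : Subgroup (LinearMap.GeneralLinearGroup k M)) (x : M →ₗ[k] M) : Prop :=
  x * x = 0 ∧ x ≠ 0 ∧ ∀ c : k, InG G (1 + c • x)

/-- rank -/
noncomputable def rk (x : M →ₗ[k] M) : ℕ := Module.finrank k (LinearMap.range x)

variable {G : Subgroup (LinearMap.GeneralLinearGroup k M)}

lemma InG.one : InG G (1 : M →ₗ[k] M) := ⟨1, G.one_mem, rfl⟩

lemma InG.mul {f g : M →ₗ[k] M} (hf : InG G f) (hg : InG G g) : InG G (f * g) := by
  obtain ⟨a, ha, rfl⟩ := hf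
  obtain ⟨b, hb, rfl⟩ := hg
  exact ⟨a * b, G.mul_mem ha hb, rfl⟩

lemma InG.inv_of_sq {z : M →ₗ[k] M} (hz : z * z = 0) (h : InG G (1 + z)) : InG G (1 - z) := by
  obtain ⟨a, ha, hae⟩ := h
  refine ⟨a⁻¹, G.inv_mem ha, ?_⟩
  have h1 : (a : M →ₗ[k] M) * ((a⁻¹ : LinearMap.GeneralLinearGroup k M) : M →ₗ[k] M) = 1 := by
    rw [← Units.val_mul]
    simp
  rw [hae] at h1
  have h2 : (1 - z) * (1 + z) = 1 := by
    have : (1 - z) * (1 + z) = 1 - z * z := by noncomm_ring
    rw [this, hz, sub_zero]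
  calc ((a⁻¹ : LinearMap.GeneralLinearGroup k M) : M →ₗ[k] M)
      = ((1 - z) * (1 + z)) * ((a⁻¹ : LinearMap.GeneralLinearGroup k M) : M →ₗ[k] M) := by rw [h2, one_mul]
    _ = (1 - z) * ((1 + z) * ((a⁻¹ : LinearMap.GeneralLinearGroup k M) : M →ₗ[k] M)) := by rw [mul_assoc]
    _ = 1 - z := by rw [h1, mul_one]

lemma QE.smul {x : M →ₗ[k] M} (hx : QE G x) {c : k} (hc : c ≠ 0) : QE G (c • x) := by
  refine ⟨?_, smul_ne_zero hc hx.2.1, fun a => ?_⟩
  · rw [smul_mul_smul_comm, hx.1, smul_zero]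
  · have := hx.2.2 (a * c)
    rwa [mul_smul] at this

lemma rk_smul {x : M →ₗ[k] M} {c : k} (hc : c ≠ 0) : rk (c • x) = rk x := by
  unfold rk
  rw [LinearMap.range_smul _ _ hc]

/-- the conjugate by a unit -/
def cj (g : LinearMap.GeneralLinearGroup k M) (x : M →ₗ[k] M) : M →ₗ[k] M :=
  (g : M →ₗ[k] M) * x * ((g⁻¹ : LinearMap.GeneralLinearGroup k M) : M →ₗ[k] M)

lemma val_inv_mul (g : LinearMap.GeneralLinearGroup k M) :
    ((g⁻¹ : LinearMap.GeneralLinearGroup k M) : M →ₗ[k] M) * (g : M →ₗ[k] M) = 1 := by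
  rw [← Units.val_mul]
  simp

lemma val_mul_inv (g : LinearMap.GeneralLinearGroup k M) :
    (g : M →ₗ[k] M) * ((g⁻¹ : LinearMap.GeneralLinearGroup k M) : M →ₗ[k] M) = 1 := by
  rw [← Units.val_mul]
  simp

lemma cj_mul (g : LinearMap.GeneralLinearGroup k M) (a b : M →ₗ[k] M) : cj g (a * b) = cj g a * cj g b := by
  unfold cj
  calc (g : M →ₗ[k] M) * (a * b) * ((g⁻¹ : LinearMap.GeneralLinearGroup k M) : M →ₗ[k] M)
      = (g : M →ₗ[k] M) * a * 1 * b * ((g⁻¹ : LinearMap.GeneralLinearGroup k M) : M →ₗ[k] M) := by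
        simp only [mul_one, mul_assoc]
    _ = _ := by
        rw [← val_inv_mul g]
        simp only [mul_assoc]

lemma cj_add (g : LinearMap.GeneralLinearGroup k M) (a b : M →ₗ[k] M) : cj g (a + b) = cj g a + cj g b := by
  unfold cj
  rw [mul_add, add_mul]

lemma cj_smul (g : LinearMap.GeneralLinearGroup k M) (c : k) (a : M →ₗ[k] M) : cj g (c • a) = c • cj g a := by
  unfold cj
  rw [mul_smul_comm, smul_mul_assoc]

lemma cj_one (g : LinearMap.GeneralLinearGroup k M) : cj g (1 : M →ₗ[k] M) = 1 := by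
  unfold cj
  rw [mul_one, val_mul_inv]

lemma QE.cj {x : M →ₗ[k] M} (hx : QE G x) {g : LinearMap.GeneralLinearGroup k M} (hg : g ∈ G) :
    QE G (cj g x) := by
  refine ⟨?_, ?_, fun c => ?_⟩
  · rw [← cj_mul, hx.1]
    simp [QP.cj]
  · intro h
    apply hx.2.1
    have h1 : (g⁻¹ : LinearMap.GeneralLinearGroup k M).val * ((g : M →ₗ[k] M) * x * ((g⁻¹ : LinearMap.GeneralLinearGroup k M) : M →ₗ[k] M)) * (g : M →ₗ[k] M) = x := by
      calc _ = ((g⁻¹ : LinearMap.GeneralLinearGroup k M).val * (g : M →ₗ[k] M)) * x * (((g⁻¹ : LinearMap.GeneralLinearGroup k M) : M →ₗ[k] M) * (g : M →ₗ[k] M)) := by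
            simp only [mul_assoc]
        _ = x := by rw [val_inv_mul]; simp
    unfold QP.cj at h
    rw [h] at h1
    rw [← h1]
    simp
  · obtain ⟨a, ha, hae⟩ := hx.2.2 c
    refine ⟨g * a * g⁻¹, G.mul_mem (G.mul_mem hg ha) (G.inv_mem hg), ?_⟩
    rw [Units.val_mul, Units.val_mul, hae]
    have : QP.cj g (1 + c • x) = 1 + c • QP.cj g x := by
      rw [cj_add, cj_smul, cj_one]
    rw [← this]
    rfl

lemma inv_apply_apply (g : LinearMap.GeneralLinearGroup k M) (v : M) :
    ((g⁻¹ : LinearMap.GeneralLinearGroup k M) : M →ₗ[k] M) ((g : M →ₗ[k] M) v) = v :=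
  LinearMap.congr_fun (val_inv_mul g) v

lemma apply_inv_apply (g : LinearMap.GeneralLinearGroup k M) (v : M) :
    (g : M →ₗ[k] M) (((g⁻¹ : LinearMap.GeneralLinearGroup k M) : M →ₗ[k] M) v) = v :=
  LinearMap.congr_fun (val_mul_inv g) v

lemma rk_cj (g : LinearMap.GeneralLinearGroup k M) (x : M →ₗ[k] M) : rk (cj g x) = rk x := by
  unfold rk QP.cj
  have hsurj : LinearMap.range ((g⁻¹ : LinearMap.GeneralLinearGroup k M) : M →ₗ[k] M) = ⊤ := by
    rw [LinearMap.range_eq_top]
    intro v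
    exact ⟨(g : M →ₗ[k] M) v, inv_apply_apply g v⟩
  have e : LinearMap.range ((g : M →ₗ[k] M) * x * ((g⁻¹ : LinearMap.GeneralLinearGroup k M) : M →ₗ[k] M)) =
      (LinearMap.range x).map (g : M →ₗ[k] M) := by
    rw [← LinearMap.range_comp]
    change LinearMap.range (((g : M →ₗ[k] M) * x) * ((g⁻¹ : LinearMap.GeneralLinearGroup k M) : M →ₗ[k] M)) = LinearMap.range ((g : M →ₗ[k] M) * x)
    rw [Module.End.mul_eq_comp, LinearMap.range_comp, hsurj, Submodule.map_top]
  have hinj : Function.Injective (g : M →ₗ[k] M) := by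
    intro v w hvw
    have h1 := congrArg (((g⁻¹ : LinearMap.GeneralLinearGroup k M) : M →ₗ[k] M)) hvw
    rwa [inv_apply_apply, inv_apply_apply] at h1
  rw [e]
  exact (Submodule.equivMapOfInjective _ hinj _).finrank_eq.symm

section Alg

variable {x y : M →ₗ[k] M}

/-- `T = xy + yx` -/
def TT (x y : M →ₗ[k] M) : M →ₗ[k] M := x * y + y * x

/-- `w = xy - yx` -/
def WW (x y : M →ₗ[k] M) : M →ₗ[k] M := x * y - y * x

lemma TT_comm (x y : M →ₗ[k] M) : TT y x = TT x y := by
  unfold TT
  abel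

lemma TT_mul_x (hx : x * x = 0) : TT x y * x = x * y * x := by
  unfold TT
  rw [add_mul, mul_assoc y, hx, mul_zero, add_zero]

lemma x_mul_TT (hx : x * x = 0) : x * TT x y = x * y * x := by
  unfold TT
  rw [mul_add, ← mul_assoc, hx, zero_mul, zero_add, mul_assoc]

lemma TT_mul_y (hy : y * y = 0) : TT x y * y = y * x * y := by
  rw [TT_comm, TT_mul_x hy]

lemma y_mul_TT (hy : y * y = 0) : y * TT x y = y * x * y := by
  rw [TT_comm, x_mul_TT hy]

lemma comm_TT_x (hx : x * x = 0) : x * TT x y = TT x y * x := by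
  rw [x_mul_TT hx, TT_mul_x hx]

lemma comm_TT_y (hy : y * y = 0) : y * TT x y = TT x y * y := by
  rw [y_mul_TT hy, TT_mul_y hy]

/-- the general commutator expansion -/
lemma comm_expand {u v : M →ₗ[k] M} (hu : u * u = 0) (hv : v * v = 0) :
    (1 + u) * (1 + v) * (1 - u) * (1 - v) = 1 + (u * v - v * u) + v * u * v - u * v * u + u * v * u * v := by
  have e : (1 + u) * (1 + v) * (1 - u) * (1 - v) =
      1 + (u * v - v * u) + v * u * v - u * v * u + u * v * u * v - u * u - v * v - u * (v * v) + (u * u) * v := by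
    noncomm_ring
  rw [e, hu, hv]
  simp

end Alg

section UL

variable {x y : M →ₗ[k] M}

lemma val_inv_of_sq {g : LinearMap.GeneralLinearGroup k M} {z : M →ₗ[k] M} (hz : z * z = 0)
    (hg : (g : M →ₗ[k] M) = 1 + z) : ((g⁻¹ : LinearMap.GeneralLinearGroup k M) : M →ₗ[k] M) = 1 - z := by
  have h1 := val_mul_inv g
  rw [hg] at h1
  have h2 : (1 - z) * (1 + z) = 1 := by
    have : (1 - z) * (1 + z) = 1 - z * z := by noncomm_ring
    rw [this, hz, sub_zero]
  calc ((g⁻¹ : LinearMap.GeneralLinearGroup k M) : M →ₗ[k] M)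
      = ((1 - z) * (1 + z)) * ((g⁻¹ : LinearMap.GeneralLinearGroup k M) : M →ₗ[k] M) := by rw [h2, one_mul]
    _ = (1 - z) * ((1 + z) * ((g⁻¹ : LinearMap.GeneralLinearGroup k M) : M →ₗ[k] M)) := by rw [mul_assoc]
    _ = 1 - z := by rw [h1, mul_one]

/-- `(1+y) x (1-y)` -/
def cy (y x : M →ₗ[k] M) : M →ₗ[k] M := (1 + y) * x * (1 - y)

lemma cy_eq (y x : M →ₗ[k] M) : cy y x = x + y * x - x * y - y * x * y := by
  unfold cy
  noncomm_ring

lemma exists_unit_of_QE (hy : QE G y) : ∃ g ∈ G, (g : M →ₗ[k] M) = 1 + y := by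
  obtain ⟨g, hg, hge⟩ := hy.2.2 1
  exact ⟨g, hg, by rw [hge, one_smul]⟩

lemma QE.cy (hx : QE G x) (hy : QE G y) : QE G (cy y x) ∧ rk (cy y x) = rk x := by
  obtain ⟨g, hg, hge⟩ := exists_unit_of_QE hy
  have e : QP.cy y x = QP.cj g x := by
    unfold QP.cy QP.cj
    rw [val_inv_of_sq hy.1 hge, hge]
  rw [e]
  exact ⟨hx.cj hg, rk_cj g x⟩

lemma QE.neg (hy : QE G y) : QE G (-y) := by
  have := hy.smul (c := -1) (by simp)
  simpa using this

lemma rk_neg (y : M →ₗ[k] M) : rk (-y) = rk y := by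
  unfold rk
  rw [LinearMap.range_neg]

lemma TT_cy (hx : x * x = 0) (hy : y * y = 0) : TT x (cy y x) = -(TT x y * TT x y) := by
  have hx' : ∀ u, x * (x * u) = 0 := fun u => by rw [← mul_assoc, hx, zero_mul]
  have hy' : ∀ u, y * (y * u) = 0 := fun u => by rw [← mul_assoc, hy, zero_mul]
  rw [cy_eq]
  unfold TT
  simp only [mul_add, add_mul, mul_sub, sub_mul, mul_assoc, hx, hy, hx', hy', mul_zero, zero_mul, add_zero,
    zero_add, sub_zero, zero_sub]
  abel

/-- the word relations in the second step -/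
lemma UL_half [FiniteDimensional k M] {d : ℕ} (hmin : ∀ z, QE G z → d ≤ rk z) (h2 : (2 : k) ≠ 0)
    (hx : QE G x) (hy : QE G y) (hrx : rk x = d)
    (h5x : x * (y * (x * (y * x))) = 0) (h5y : y * (x * (y * (x * y))) = 0) : x * y * x = 0 := by
  have hxx := hx.1
  have hyy := hy.1
  have hx' : ∀ u, x * (x * u) = 0 := fun u => by rw [← mul_assoc, hxx, zero_mul]
  have hy' : ∀ u, y * (y * u) = 0 := fun u => by rw [← mul_assoc, hyy, zero_mul]
  have h5x' : ∀ u, x * (y * (x * (y * (x * u)))) = 0 := fun u => by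
    have : x * (y * (x * (y * (x * u)))) = x * (y * (x * (y * x))) * u := by simp only [mul_assoc]
    rw [this, h5x, zero_mul]
  have h5y' : ∀ u, y * (x * (y * (x * (y * u)))) = 0 := fun u => by
    have : y * (x * (y * (x * (y * u)))) = y * (x * (y * (x * y))) * u := by simp only [mul_assoc]
    rw [this, h5y, zero_mul]
  -- the two commutators
  have key : ∀ y' : M →ₗ[k] M, QE G y' → (y' = y ∨ y' = -y) →
      ∀ ν : k, InG G (1 + ν • (cy y' x * x - x * cy y' x)) := by
    intro y' hy' hor ν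
    obtain ⟨hz, -⟩ := hx.cy hy'
    have hzz := hz.1
    have hxz : x * cy y' x * x = 0 := by
      rcases hor with rfl | rfl <;> rw [cy_eq] <;>
        simp only [mul_add, add_mul, mul_sub, sub_mul, mul_assoc, mul_neg, neg_mul, hxx, hyy, hx', hy', h5x, h5y, h5x', h5y', neg_neg,
          mul_zero, zero_mul, add_zero, zero_add, sub_zero, zero_sub, neg_zero]
    have hzxz : cy y' x * x * cy y' x = 0 := by
      rcases hor with rfl | rfl <;> rw [cy_eq] <;>
        simp only [mul_add, add_mul, mul_sub, sub_mul, mul_assoc, mul_neg, neg_mul, hxx, hyy, hx', hy', h5x, h5y, h5x', h5y', neg_neg,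
          mul_zero, zero_mul, add_zero, zero_add, sub_zero, zero_sub, neg_zero]
    have hv : (ν • x) * (ν • x) = 0 := by
      rw [smul_mul_smul_comm, hxx, smul_zero]
    have e := comm_expand hzz hv
    have e1 : (ν • x) * cy y' x * (ν • x) = 0 := by
      simp only [smul_mul_assoc, mul_smul_comm]
      rw [hxz]
      simp
    have e2 : cy y' x * (ν • x) * cy y' x = 0 := by
      simp only [smul_mul_assoc, mul_smul_comm]
      rw [hzxz]
      simp
    rw [e1, e2, zero_mul] at e
    have e4 : 1 + ν • (cy y' x * x - x * cy y' x) =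
        1 + (cy y' x * (ν • x) - ν • x * cy y' x) + 0 - 0 + 0 := by
      rw [smul_sub, mul_smul_comm, smul_mul_assoc]
      simp
    rw [e4, ← e]
    have hgz := hz.2.2 1
    rw [one_smul] at hgz
    have hgv := hx.2.2 ν
    exact ((hgz.mul hgv).mul (InG.inv_of_sq hzz hgz)).mul (InG.inv_of_sq hv hgv)
  have hSp := key y hy (Or.inl rfl)
  have hSm := key (-y) hy.neg (Or.inr rfl)
  have eSp : cy y x * x - x * cy y x = -(2 : k) • (x * y * x) + x * y * (x * y) - y * x * (y * x) := by
    rw [cy_eq]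
    simp only [mul_add, add_mul, mul_sub, sub_mul, mul_assoc, hxx, hyy, hx', hy', mul_zero, zero_mul, add_zero,
      zero_add, sub_zero, zero_sub, neg_smul, two_smul]
    abel
  have eSm : cy (-y) x * x - x * cy (-y) x = (2 : k) • (x * y * x) + x * y * (x * y) - y * x * (y * x) := by
    rw [cy_eq]
    simp only [mul_add, add_mul, mul_sub, sub_mul, mul_assoc, mul_neg, neg_mul, neg_neg, hxx, hyy, hx', hy', mul_zero, zero_mul, add_zero,
      zero_add, sub_zero, zero_sub, two_smul]
    abel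
  have hprod : ((2 : k) • (x * y * x) + x * y * (x * y) - y * x * (y * x)) *
      (-(2 : k) • (x * y * x) + x * y * (x * y) - y * x * (y * x)) = 0 := by
    simp only [mul_add, add_mul, mul_sub, sub_mul, mul_assoc, smul_mul_assoc, mul_smul_comm, hxx, hyy, hx', hy', h5x, h5y, h5x', h5y',
      mul_zero, zero_mul, add_zero, zero_add, sub_zero, zero_sub, smul_zero]
  have hsq : (x * y * x) * (x * y * x) = 0 := by
    simp only [mul_assoc, hxx, hx', mul_zero]
  have hG : ∀ ν : k, InG G (1 + ν • (x * y * x)) := by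
    intro ν
    have h4 : (4 : k) ≠ 0 := by
      have : (4 : k) = 2 * 2 := by norm_num
      rw [this]
      exact mul_ne_zero h2 h2
    set μ : k := ν / 4 with hμ
    have h1 := hSm μ
    have h2' := hSp (-μ)
    rw [eSm] at h1
    rw [eSp] at h2'
    have h3 := h1.mul h2'
    have e : (1 + μ • ((2 : k) • (x * y * x) + x * y * (x * y) - y * x * (y * x))) *
        (1 + (-μ) • (-(2 : k) • (x * y * x) + x * y * (x * y) - y * x * (y * x))) = 1 + ν • (x * y * x) := by
      have gen : ∀ A B : M →ₗ[k] M, (1 + A) * (1 + B) = 1 + A + B + A * B := fun A B => by noncomm_ring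
      rw [gen, smul_mul_smul_comm, hprod, smul_zero, add_zero]
      have : ν = 4 * μ := by
        rw [hμ]
        field_simp
      rw [this, add_assoc]
      congr 1
      module
    rwa [e] at h3
  by_contra hne
  have hQ : QE G (x * y * x) := ⟨hsq, hne, hG⟩
  have hr := hmin _ hQ
  have hle : LinearMap.range (x * y * x) ≤ LinearMap.range x := by
    rintro _ ⟨v, rfl⟩
    exact ⟨y (x v), rfl⟩
  have heq : LinearMap.range (x * y * x) = LinearMap.range x := by
    apply Submodule.eq_of_le_of_finrank_le hle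
    unfold rk at hr hrx
    omega
  apply hne
  ext v
  have hv : x v ∈ LinearMap.range (x * y * x) := by
    rw [heq]
    exact ⟨v, rfl⟩
  obtain ⟨u, hu⟩ := hv
  have : (x * y * x) v = (x * (y * (x * (y * x)))) u := by
    change x (y (x v)) = x (y (x (y (x u))))
    rw [← hu]
    rfl
  rw [this, h5x]
  rfl

/-- `T` nilpotent implies `xyx = yxy = 0`. -/
theorem UL [FiniteDimensional k M] {d : ℕ} (hmin : ∀ z, QE G z → d ≤ rk z) (h2 : (2 : k) ≠ 0) (e : ℕ) :
    ∀ x y : M →ₗ[k] M, QE G x → QE G y → rk x = d → rk y = d → (TT x y) ^ e = 0 →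
      x * y * x = 0 ∧ y * x * y = 0 := by
  induction e with
  | zero =>
    intro x y _ _ _ _ h
    rw [pow_zero] at h
    have : ∀ z : M →ₗ[k] M, z = 0 := fun z => by
      rw [← one_mul z, h, zero_mul]
    exact ⟨this _, this _⟩
  | succ e ih =>
    intro x y hx hy hrx hry hT
    have hxx := hx.1
    have hyy := hy.1
    have hx' : ∀ u, x * (x * u) = 0 := fun u => by rw [← mul_assoc, hxx, zero_mul]
    have hy' : ∀ u, y * (y * u) = 0 := fun u => by rw [← mul_assoc, hyy, zero_mul]
    rcases Nat.eq_zero_or_pos e with rfl | he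
    · rw [zero_add, pow_one] at hT
      constructor
      · rw [← TT_mul_x hxx, hT, zero_mul]
      · rw [← TT_mul_y hyy, hT, zero_mul]
    -- apply the induction hypothesis to the conjugates
    have hpow : (TT x y * TT x y) ^ e = 0 := by
      rw [← pow_two, ← pow_mul]
      exact pow_eq_zero_of_le (by omega) hT
    obtain ⟨hx₁, hrx₁⟩ := hx.cy hy
    obtain ⟨hy₁, hry₁⟩ := hy.cy hx
    have h1 := ih x (cy y x) hx hx₁ hrx (hrx₁.trans hrx) (by
      rw [TT_cy hxx hyy, neg_pow, hpow, mul_zero])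
    have h3 := ih y (cy x y) hy hy₁ hry (hry₁.trans hry) (by
      rw [TT_cy hyy hxx, TT_comm x y, neg_pow, hpow, mul_zero])
    -- the word relations
    have h5x : x * (y * (x * (y * x))) = 0 := by
      have h4 := h1.1
      rw [cy_eq] at h4
      simp only [mul_add, add_mul, mul_sub, sub_mul, mul_assoc, hxx, hyy, hx', hy', mul_zero, zero_mul, add_zero,
        zero_add, sub_zero, zero_sub, neg_eq_zero] at h4
      exact h4
    have h5y : y * (x * (y * (x * y))) = 0 := by
      have h4 := h3.1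
      rw [cy_eq] at h4
      simp only [mul_add, add_mul, mul_sub, sub_mul, mul_assoc, hxx, hyy, hx', hy', mul_zero, zero_mul, add_zero,
        zero_add, sub_zero, zero_sub, neg_eq_zero] at h4
      exact h4
    exact ⟨UL_half hmin h2 hx hy hrx h5x h5y, UL_half hmin h2 hy hx hry h5y h5x⟩

/-- In type U the element `w` is a quadratic element or zero -/
lemma WW_of_U (hx : QE G x) (hy : QE G y) (h1 : x * y * x = 0) (h2 : y * x * y = 0) :
    WW x y * WW x y = 0 ∧ ∀ ν : k, InG G (1 + ν • WW x y) := by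
  have hxx := hx.1
  have hyy := hy.1
  have hx' : ∀ u, x * (x * u) = 0 := fun u => by rw [← mul_assoc, hxx, zero_mul]
  have hy' : ∀ u, y * (y * u) = 0 := fun u => by rw [← mul_assoc, hyy, zero_mul]
  have h1a : x * (y * x) = 0 := by rw [← mul_assoc, h1]
  have h2a : y * (x * y) = 0 := by rw [← mul_assoc, h2]
  have h1' : ∀ u, x * (y * (x * u)) = 0 := fun u => by
    have : x * (y * (x * u)) = x * y * x * u := by simp only [mul_assoc]
    rw [this, h1, zero_mul]
  have h2' : ∀ u, y * (x * (y * u)) = 0 := fun u => by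
    have : y * (x * (y * u)) = y * x * y * u := by simp only [mul_assoc]
    rw [this, h2, zero_mul]
  constructor
  · unfold WW
    simp only [mul_sub, sub_mul, mul_assoc, hxx, hyy, hx', hy', h1a, h2a, h1', h2', mul_zero, zero_mul, sub_zero]
  · intro ν
    have hv : (ν • y) * (ν • y) = 0 := by
      rw [smul_mul_smul_comm, hyy, smul_zero]
    have e := comm_expand hxx hv
    have e1 : (ν • y) * x * (ν • y) = 0 := by
      simp only [smul_mul_assoc, mul_smul_comm]
      rw [h2]
      simp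
    have e2 : x * (ν • y) * x = 0 := by
      simp only [smul_mul_assoc, mul_smul_comm]
      rw [h1]
      simp
    rw [e1, e2, zero_mul] at e
    have e4 : 1 + ν • WW x y = 1 + (x * (ν • y) - ν • y * x) + 0 - 0 + 0 := by
      unfold WW
      rw [smul_sub, mul_smul_comm, smul_mul_assoc]
      simp
    rw [e4, ← e]
    have hgz := hx.2.2 1
    rw [one_smul] at hgz
    have hgv := hy.2.2 ν
    exact ((hgz.mul hgv).mul (InG.inv_of_sq hxx hgz)).mul (InG.inv_of_sq hv hgv)

end UL

section Rank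

variable [FiniteDimensional k M]

/-- `rk (uv - vu) ≤ rk v` when `uvu = 0`. -/
lemma rk_comm_le {u v : M →ₗ[k] M} (h : u * v * u = 0) : rk (u * v - v * u) ≤ rk v := by
  unfold rk
  have hle : LinearMap.range (u * v - v * u) ≤
      (LinearMap.range v).map u ⊔ (LinearMap.range u).map v := by
    rintro _ ⟨w, rfl⟩
    apply Submodule.sub_mem
    · exact Submodule.mem_sup_left ⟨v w, ⟨w, rfl⟩, rfl⟩
    · exact Submodule.mem_sup_right ⟨u w, ⟨w, rfl⟩, rfl⟩
  have h1 : (LinearMap.range u).map v ≤ LinearMap.range v ⊓ LinearMap.ker u := by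
    rintro _ ⟨_, ⟨w, rfl⟩, rfl⟩
    refine ⟨⟨u w, rfl⟩, ?_⟩
    exact LinearMap.congr_fun h w
  -- rank nullity for `u` on the range of `v`
  have h2 : Module.finrank k ((LinearMap.range v).map u) + Module.finrank k ↥(LinearMap.range v ⊓ LinearMap.ker u) =
      Module.finrank k (LinearMap.range v) := by
    have := LinearMap.finrank_range_add_finrank_ker (u.domRestrict (LinearMap.range v))
    rw [LinearMap.range_domRestrict, LinearMap.ker_domRestrict] at this
    rw [← this]
    congr 1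
    have e : (LinearMap.range v ⊓ LinearMap.ker u) = (Submodule.comap (LinearMap.range v).subtype (LinearMap.ker u)).map (LinearMap.range v).subtype := by
      rw [Submodule.map_comap_subtype]
    rw [e]
    exact (Submodule.equivMapOfInjective _ (Submodule.injective_subtype _) _).finrank_eq.symm
  have h3 := Submodule.finrank_mono hle
  have h4 := Submodule.finrank_add_le_finrank_add_finrank ((LinearMap.range v).map u) ((LinearMap.range u).map v)
  have h5 := Submodule.finrank_mono h1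
  omega

/-- `rk f = rk (f ε) + rk (f (1-ε))` for an idempotent `ε` commuting with `f`. -/
lemma rk_add_idem {f ε : M →ₗ[k] M} (hε : ε * ε = ε) (hc : f * ε = ε * f) :
    rk f = rk (f * ε) + rk (f * (1 - ε)) := by
  unfold rk
  have hsup : LinearMap.range f = LinearMap.range (f * ε) ⊔ LinearMap.range (f * (1 - ε)) := by
    apply le_antisymm
    · rintro _ ⟨v, rfl⟩
      have : f v = (f * ε) v + (f * (1 - ε)) v := by
        simp [Module.End.mul_apply]
      rw [this]
      exact Submodule.add_mem_sup ⟨v, rfl⟩ ⟨v, rfl⟩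
    · apply sup_le
      · rintro _ ⟨v, rfl⟩
        exact ⟨ε v, rfl⟩
      · rintro _ ⟨v, rfl⟩
        exact ⟨(1 - ε) v, rfl⟩
  have hinf : LinearMap.range (f * ε) ⊓ LinearMap.range (f * (1 - ε)) = ⊥ := by
    rw [eq_bot_iff]
    rintro _ ⟨⟨v, rfl⟩, ⟨u, hu⟩⟩
    have h1 : ε ((f * ε) v) = (f * ε) v := by
      have : ε * (f * ε) = f * ε := by
        rw [← mul_assoc, ← hc, mul_assoc, hε]
      exact LinearMap.congr_fun this v
    have h2 : ε ((f * (1 - ε)) u) = 0 := by
      have : ε * (f * (1 - ε)) = 0 := by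
        rw [← mul_assoc, ← hc, mul_assoc, mul_sub, mul_one, hε, sub_self, mul_zero]
      exact LinearMap.congr_fun this u
    rw [hu, h1] at h2
    simpa using h2
  have := Submodule.finrank_sup_add_finrank_inf_eq (LinearMap.range (f * ε)) (LinearMap.range (f * (1 - ε)))
  rw [← hsup, hinf] at this
  simp only [finrank_bot, add_zero] at this
  exact this

/-- `c² z = 0`, `c` commuting with `z` gives `2 rk (c z) ≤ rk z`. -/
lemma rk_half {c z : M →ₗ[k] M} (hc : c * z = z * c) (h : c * c * z = 0) : 2 * rk (c * z) ≤ rk z := by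
  unfold rk
  have e1 : LinearMap.range (c * z) = (LinearMap.range z).map c := by
    rw [Module.End.mul_eq_comp, LinearMap.range_comp]
  have h2 : Module.finrank k ((LinearMap.range z).map c) + Module.finrank k ↥(LinearMap.range z ⊓ LinearMap.ker c) =
      Module.finrank k (LinearMap.range z) := by
    have := LinearMap.finrank_range_add_finrank_ker (c.domRestrict (LinearMap.range z))
    rw [LinearMap.range_domRestrict, LinearMap.ker_domRestrict] at this
    rw [← this]
    congr 1
    have e : (LinearMap.range z ⊓ LinearMap.ker c) = (Submodule.comap (LinearMap.range z).subtype (LinearMap.ker c)).map (LinearMap.range z).subtype := by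
      rw [Submodule.map_comap_subtype]
    rw [e]
    exact (Submodule.equivMapOfInjective _ (Submodule.injective_subtype _) _).finrank_eq.symm
  have h3 : (LinearMap.range z).map c ≤ LinearMap.range z ⊓ LinearMap.ker c := by
    rintro _ ⟨_, ⟨w, rfl⟩, rfl⟩
    refine ⟨⟨c w, ?_⟩, ?_⟩
    · exact (LinearMap.congr_fun hc w).symm
    · exact LinearMap.congr_fun h w
  have h5 := Submodule.finrank_mono h3
  rw [e1]
  omega

end Rank

section Bridge

variable {σ : LinearMap.GeneralLinearGroup k M}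

lemma QE_of_mem (hσ : σ ∈ quadraticElements G) : QE G ((σ : M →ₗ[k] M) - 1) := by
  refine ⟨hσ.2.1.1, hσ.2.1.2, fun c => ?_⟩
  have hsq : (c • ((σ : M →ₗ[k] M) - 1)) * (c • ((σ : M →ₗ[k] M) - 1)) = 0 := by
    rw [smul_mul_smul_comm, hσ.2.1.1, smul_zero]
  exact ⟨unitOfSq _ hsq, hσ.2.2 ⟨c, rfl⟩, rfl⟩

lemma mem_of_QE {z : M →ₗ[k] M} (hz : QE G z) : unitOfSq z hz.1 ∈ quadraticElements G := by
  obtain ⟨g, hg, hge⟩ := hz.2.2 1
  rw [one_smul] at hge
  have hm : unitOfSq z hz.1 = g := by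
    apply Units.ext
    rw [hge]
    rfl
  refine ⟨hm ▸ hg, ⟨?_, ?_⟩, ?_⟩
  · simp [unitOfSq_coe, hz.1]
  · simp [unitOfSq_coe, hz.2.1]
  · rintro ρ ⟨c, hc⟩
    obtain ⟨g', hg', hge'⟩ := hz.2.2 c
    have : ρ = g' := by
      apply Units.ext
      rw [hc, hge']
      simp [unitOfSq_coe]
    rw [this]
    exact hg'

lemma rk_min_of_mem (hσ : σ ∈ minimalQuadraticElements G) :
    ∀ z, QE G z → rk ((σ : M →ₗ[k] M) - 1) ≤ rk z := by
  intro z hz
  have := hσ.2 _ (mem_of_QE hz)
  unfold commutatorRank at this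
  rw [unitOfSq_coe, add_sub_cancel_left] at this
  exact this

lemma QE_of_min (hσ : σ ∈ minimalQuadraticElements G) : QE G ((σ : M →ₗ[k] M) - 1) := QE_of_mem hσ.1

/-- A quadratic element of minimal rank gives an element of `𝒬_d`. -/
lemma min_of_QE {z : M →ₗ[k] M} (hz : QE G z) (hmin : ∀ z', QE G z' → rk z ≤ rk z') :
    unitOfSq z hz.1 ∈ minimalQuadraticElements G := by
  refine ⟨mem_of_QE hz, fun τ hτ => ?_⟩
  have := hmin _ (QE_of_mem hτ)
  unfold commutatorRank
  rw [unitOfSq_coe, add_sub_cancel_left]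
  exact this

/-- the commutator in type U is minimal. -/
theorem WW_min {x y : M →ₗ[k] M} [FiniteDimensional k M] (hx : QE G x) (hy : QE G y) (h1 : x * y * x = 0) (h2 : y * x * y = 0)
    (hmin : ∀ z', QE G z' → rk y ≤ rk z') (hne : WW x y ≠ 0) :
    QE G (WW x y) ∧ rk (WW x y) = rk y := by
  obtain ⟨hsq, hG⟩ := WW_of_U hx hy h1 h2
  have hQ : QE G (WW x y) := ⟨hsq, hne, hG⟩
  exact ⟨hQ, le_antisymm (rk_comm_le h1) (hmin _ hQ)⟩

end Bridge

end Cfsg.Agent.RootSub.QP
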