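import Cfsg.Agent.RootSub.Graph

set_option autoImplicit false

namespace Cfsg.Agent.RootSub

open Cfsg
open scoped commutatorElement

variable {G : Type*} [Group G] {S : Set (Subgroup G)}

/-- The centralizer in `N` of a subgroup `P`. -/
def kappa (N P : Subgroup G) : Subgroup G := N ⊓ Subgroup.centralizer (P : Set G)

lemma mem_kappa {N P : Subgroup G} {x : G} : x ∈ kappa N P ↔ x ∈ N ∧ ∀ p ∈ P, p * x = x * p := by
  simp only [kappa, Subgroup.mem_inf, Subgroup.mem_centralizer_iff, SetLike.mem_coe]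

lemma kappa_conj {N P : Subgroup G} {x : G} (hN : conjBy N x = N) : conjBy (kappa N P) x = kappa N (conjBy P x) := by
  ext y
  rw [mem_conj, mem_kappa, mem_kappa]
  constructor
  · rintro ⟨h1, h2⟩
    refine ⟨?_, ?_⟩
    · rw [← hN, mem_conj]; exact h1
    · intro p hp
      rw [mem_conj] at hp
      have := h2 _ hp
      have h3 : x * (x⁻¹ * p * x * (x⁻¹ * y * x)) * x⁻¹ = p * y := by group
      have h4 : x * (x⁻¹ * y * x * (x⁻¹ * p * x)) * x⁻¹ = y * p := by group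
      rw [← h3, ← h4, this]
  · rintro ⟨h1, h2⟩
    refine ⟨?_, ?_⟩
    · rw [← hN, mem_conj] at h1; exact h1
    · intro p hp
      have := h2 (x * p * x⁻¹) (conj_mem_conj x hp)
      have h3 : x⁻¹ * (x * p * x⁻¹ * y) * x = p * (x⁻¹ * y * x) := by group
      have h4 : x⁻¹ * (y * (x * p * x⁻¹)) * x = x⁻¹ * y * x * p := by group
      rw [← h3, ← h4, this]

variable {A B D : Subgroup G}

/-- Key computation: if `B` and `D` are not a rank one pair then contradiction. -/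
lemma quad_rankOne (hS : IsRootSubgroupSet S) (hc1 : RootCommutatorCase S A B) (hc2 : RootCommutatorCase S D ⁅A, B⁆)
    (hDC : ⁅D, ⁅A, B⁆⁆ = A) (hB : B ∈ S) (hD : D ∈ S) (hb' : ∃ b ∈ B, b ≠ 1) (hd' : ∃ d ∈ D, d ≠ 1) :
    IsRankOnePair B D := by
  by_contra hne
  have hcase := non_rankOne_cases hS hB hD hne
  obtain ⟨b, hb, hb1⟩ := hb'
  obtain ⟨d, hd, hd1⟩ := hd'
  set C := ⁅A, B⁆ with hCdef
  have hcommb : ∀ c ∈ C, c * b = b * c := fun c hc => hc1.2.1 c hc b (Subgroup.mem_sup_right hb)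
  have hcommAC : ∀ c ∈ C, ∀ a ∈ A, c * a = a * c := fun c hc a ha => hc1.2.1 c hc a (Subgroup.mem_sup_left ha)
  have hA' : ∀ a ∈ A, a ∈ ⁅D, C⁆ := fun a ha => by rw [hDC]; exact ha
  have hcommAd : ∀ a ∈ A, a * d = d * a := fun a ha => hc2.2.1 a (hA' a ha) d (Subgroup.mem_sup_left hd)
  -- b and b' = d b d⁻¹ commute
  set b' := d * b * d⁻¹ with hb'def
  have hbb' : b' * b = b * b' := conj_comm_of_not_rankOne hS hB hcase hd hb hb
  -- surjectivity of φ_b (as a ↦ [b, a])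
  have hφ : ∀ c ∈ C, ∃ a ∈ A, b * a * b⁻¹ * a⁻¹ = c := by
    intro c hc
    obtain ⟨a, ha, e⟩ := exists_comm_left hc1 hb hb1 hc
    refine ⟨a⁻¹, A.inv_mem ha, ?_⟩
    have e2 : b * a⁻¹ * b⁻¹ * a⁻¹⁻¹ = a⁻¹ * (a * b * a⁻¹ * b⁻¹) * a := by group
    rw [e2, e, mul_assoc, hcommAC c hc a ha]
    group
  -- surjectivity of ψ_d
  have hψ : ∀ a ∈ A, ∃ c ∈ C, d * c * d⁻¹ * c⁻¹ = a := fun a ha => exists_comm_right hc2 hd hd1 (hA' a ha)
  have hψ' : ∀ a ∈ A, ∃ c ∈ C, d⁻¹ * c * d * c⁻¹ = a := by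
    intro a ha
    obtain ⟨c, hc, e⟩ := exists_comm_right hc2 (D.inv_mem hd) (by simpa using hd1) (hA' a ha)
    exact ⟨c, hc, by simpa using e⟩
  -- A ≤ C
  have hAC : A ≤ C := by
    intro a ha
    obtain ⟨c', hc', e1⟩ := hψ a ha
    obtain ⟨a', ha', e2⟩ := hφ c' hc'
    obtain ⟨c, hc, e3⟩ := hψ' a' ha'
    -- b' c b'⁻¹ = a c' c
    have hstep1 : d⁻¹ * c * d = a' * c := by rw [← e3]; group
    have hstep2 : b * (a' * c) * b⁻¹ = c' * a' * c := by
      have : b * (a' * c) * b⁻¹ = (b * a' * b⁻¹) * (b * c * b⁻¹) := by group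
      rw [this, ← hcommb c hc]
      have h5 : b * a' * b⁻¹ = c' * a' := by rw [← e2]; group
      rw [h5]
      group
    have hstep3 : d * (a' * c) * d⁻¹ = c := by
      rw [← hstep1]; group
    have hstep4 : d * c' * d⁻¹ = a * c' := by rw [← e1]; group
    have hstep : b' * c * b'⁻¹ = a * c' * c := by
      have e5 : b' * c * b'⁻¹ = d * (b * (d⁻¹ * c * d) * b⁻¹) * d⁻¹ := by rw [hb'def]; group
      rw [e5, hstep1, hstep2]
      have e6 : d * (c' * a' * c) * d⁻¹ = (d * c' * d⁻¹) * (d * (a' * c) * d⁻¹) := by group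
      rw [e6, hstep3, hstep4]
    -- b' c b'⁻¹ ∈ C
    obtain ⟨a₀, ha₀, e4⟩ := hφ c hc
    have hmemC : b' * c * b'⁻¹ ∈ C := by
      -- b' a₀ b'⁻¹ = (something in C) * a₀
      have h6 : b' * a₀ * b'⁻¹ = (d * c * d⁻¹ * c⁻¹) * c * a₀ := by
        have h7 : d⁻¹ * a₀ * d = a₀ := by
          rw [mul_assoc, hcommAd a₀ ha₀]; group
        have h8 : b * a₀ * b⁻¹ = c * a₀ := by rw [← e4]; group
        have e8 : b' * a₀ * b'⁻¹ = d * (b * (d⁻¹ * a₀ * d) * b⁻¹) * d⁻¹ := by rw [hb'def]; group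
        rw [e8, h7, h8]
        have e9 : d * (c * a₀) * d⁻¹ = (d * c * d⁻¹) * (d * a₀ * d⁻¹) := by group
        rw [e9, ← hcommAd a₀ ha₀]
        group
      have h9 : d * c * d⁻¹ * c⁻¹ ∈ A := by
        rw [← hDC]; exact mem_comm hd hc
      set a₂ := d * c * d⁻¹ * c⁻¹ with ha₂
      -- [b, a₂ c a₀] = [b, a₂ a₀]
      set x := b' * a₀ * b'⁻¹ with hx
      have hcomm : b' * b⁻¹ * b'⁻¹ = b⁻¹ := by
        have : b' * b⁻¹ = b⁻¹ * b' := by
          have h10 : b⁻¹ * (b' * b) * b⁻¹ = b⁻¹ * (b * b') * b⁻¹ := by rw [hbb']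
          simpa [mul_assoc] using h10.symm
        rw [this]; group
      have e10 : b' * c * b'⁻¹ = b * x * b⁻¹ * x⁻¹ := by
        rw [← e4]
        calc b' * (b * a₀ * b⁻¹ * a₀⁻¹) * b'⁻¹ = (b' * b) * a₀ * b⁻¹ * a₀⁻¹ * b'⁻¹ := by group
          _ = (b * b') * a₀ * b⁻¹ * a₀⁻¹ * b'⁻¹ := by rw [hbb']
          _ = b * x * (b' * b⁻¹ * b'⁻¹) * x⁻¹ := by rw [hx]; group
          _ = b * x * b⁻¹ * x⁻¹ := by rw [hcomm]
      have hxform : x = c * (a₂ * a₀) := by
        rw [h6, ← hcommAC c hc a₂ h9]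
        group
      have hbc : b * c * b⁻¹ = c := by rw [← hcommb c hc]; group
      have e12 : b * x * b⁻¹ * x⁻¹ = c * (b * (a₂ * a₀) * b⁻¹ * (a₂ * a₀)⁻¹) * c⁻¹ := by
        rw [hxform]
        have e13 : b * (c * (a₂ * a₀)) * b⁻¹ = (b * c * b⁻¹) * (b * (a₂ * a₀) * b⁻¹) := by group
        rw [e13, hbc]
        group
      rw [e10, e12]
      have hbr : b * (a₂ * a₀) * b⁻¹ * (a₂ * a₀)⁻¹ ∈ C := by
        have := Subgroup.inv_mem _ (mem_comm (A.mul_mem h9 ha₀) hb)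
        have e14 : ((a₂ * a₀) * b * (a₂ * a₀)⁻¹ * b⁻¹)⁻¹ = b * (a₂ * a₀) * b⁻¹ * (a₂ * a₀)⁻¹ := by group
        rwa [e14] at this
      exact Subgroup.mul_mem _ (Subgroup.mul_mem _ hc hbr) (Subgroup.inv_mem _ hc)
    have : a = (a * c' * c) * (c' * c)⁻¹ := by group
    rw [this, ← hstep]
    exact Subgroup.mul_mem _ hmemC (Subgroup.inv_mem _ (Subgroup.mul_mem _ hc' hc))
  -- contradiction
  obtain ⟨x, hx⟩ := Subgroup.ne_bot_iff_exists_ne_one.mp (hS.ne_bot _ hc1.1)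
  obtain ⟨a, ha, e⟩ := hφ x x.2
  apply hx
  apply Subtype.ext
  simp only [OneMemClass.coe_one]
  rw [← e, ← hcommb a (hAC ha)]
  group

theorem s5036_main (hS : IsRootSubgroupSet S) (hA : A ∈ S) (hB : B ∈ S) (hC : ⁅A, B⁆ ∈ S) (hD : D ∈ S)
    (hDC : ⁅D, ⁅A, B⁆⁆ = A) :
    IsRankOnePair B D ∧
    {E | ∃ x ∈ B ⊔ D, E = conjBy A x} = {E | ∃ x ∈ B ⊔ D, E = conjBy ⁅A, B⁆ x} ∧
    {E | ∃ x ∈ B ⊔ D, E = conjBy A x} = (fun b : G => conjBy A b) '' (B : Set G) ∪ {⁅A, B⁆} ∧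
    {E | ∃ x ∈ B ⊔ D, E = conjBy A x} = (fun d : G => conjBy ⁅A, B⁆ d) '' (D : Set G) ∪ {A} ∧
    IsSubgroupPartition (A ⊔ ⁅A, B⁆) {E | ∃ x ∈ B ⊔ D, E = conjBy A x} ∧
    ∀ x ∈ (B ⊔ D) ⊓ Subgroup.centralizer ((A ⊔ ⁅A, B⁆ : Subgroup G) : Set G), ∀ y ∈ B ⊔ D, x * y = y * x := by
  have hc1 : RootCommutatorCase S A B := commutator_case_of_mem hS hA hB hC
  have hc2 : RootCommutatorCase S D ⁅A, B⁆ := commutator_case_of_mem hS hD hC (by rw [hDC]; exact hA)
  have hbne : ∃ b ∈ B, b ≠ 1 := by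
    obtain ⟨x, hx⟩ := Subgroup.ne_bot_iff_exists_ne_one.mp (hS.ne_bot B hB)
    exact ⟨x, x.2, by simpa using hx⟩
  have hdne : ∃ d ∈ D, d ≠ 1 := by
    obtain ⟨x, hx⟩ := Subgroup.ne_bot_iff_exists_ne_one.mp (hS.ne_bot D hD)
    exact ⟨x, x.2, by simpa using hx⟩
  have hpair : IsRankOnePair B D := quad_rankOne hS hc1 hc2 hDC hB hD hbne hdne
  have hcB : RootCommutatorCase S B A := commutator_case_of_mem hS hB hA (by rw [Subgroup.commutator_comm]; exact hC)
  set C := ⁅A, B⁆ with hCdef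
  have injB : ∀ b ∈ B, b ≠ 1 → ∀ a ∈ A, b * a * b⁻¹ * a⁻¹ = 1 → a = 1 :=
    fun b hb hb1 a ha h => comm_right_inj hS hcB hD hpair hb hb1 ha h
  have injD : ∀ d ∈ D, d ≠ 1 → ∀ c ∈ C, d * c * d⁻¹ * c⁻¹ = 1 → c = 1 :=
    fun d hd hd1 c hc h => comm_right_inj hS hc2 hB (RankOnePair_symm hpair) hd hd1 hc h
  have hcommBC : ∀ c ∈ C, ∀ b ∈ B, c * b = b * c := fun c hc b hb => hc1.2.1 c hc b (Subgroup.mem_sup_right hb)
  have hcommAC : ∀ c ∈ C, ∀ a ∈ A, c * a = a * c := fun c hc a ha => hc1.2.1 c hc a (Subgroup.mem_sup_left ha)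
  have hA' : ∀ a ∈ A, a ∈ ⁅D, C⁆ := fun a ha => by rw [hDC]; exact ha
  have hcommAD : ∀ a ∈ A, ∀ d ∈ D, a * d = d * a := fun a ha d hd => hc2.2.1 a (hA' a ha) d (Subgroup.mem_sup_left hd)
  obtain ⟨b₀, hb₀, hb₀1⟩ := hbne
  obtain ⟨d₀, hd₀, hd₀1⟩ := hdne
  have hbracketB : ∀ b ∈ B, ∀ a ∈ A, b * a * b⁻¹ * a⁻¹ ∈ C := by
    intro b hb a ha
    have := Subgroup.inv_mem _ (mem_comm ha hb)
    have e14 : (a * b * a⁻¹ * b⁻¹)⁻¹ = b * a * b⁻¹ * a⁻¹ := by group
    rwa [e14] at this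
  have hbracketD : ∀ d ∈ D, ∀ c ∈ C, d * c * d⁻¹ * c⁻¹ ∈ A := by
    intro d hd c hc
    rw [← hDC]; exact mem_comm hd hc
  have hinter : ∀ x ∈ A, x ∈ C → x = 1 := by
    intro x hx hx2
    apply injB b₀ hb₀ hb₀1 x hx
    rw [← hcommBC x hx2 b₀ hb₀]
    group
  have hACne : A ≠ C := fun e => (comm_ne_left hS hc1) e.symm
  set N := A ⊔ C with hNdef
  have hAN : A ≤ N := le_sup_left
  have hCN : C ≤ N := le_sup_right
  have hNform : ∀ x ∈ N, ∃ a ∈ A, ∃ c ∈ C, x = a * c := fun x hx => mem_sup_comm_iff hc1 hx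
  -- centralizers
  have hκB : kappa N B = C := by
    apply le_antisymm
    · intro x hx
      obtain ⟨hxN, hxc⟩ := mem_kappa.mp hx
      obtain ⟨a, ha, c, hc, rfl⟩ := hNform x hxN
      have hcb := hcommBC c hc b₀ hb₀
      have h1 := hxc b₀ hb₀
      have h2 : b₀ * a * b₀⁻¹ * a⁻¹ = 1 := by
        have h3 : b₀ * a * c = a * (c * b₀) := by simpa [mul_assoc] using h1
        rw [hcb] at h3
        have h4 : b₀ * a = a * b₀ := by
          have h5 : b₀ * a * c = a * b₀ * c := by rw [h3]; group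
          exact mul_right_cancel h5
        rw [h4]; group
      have ha1 := injB b₀ hb₀ hb₀1 a ha h2
      rw [ha1, one_mul]; exact hc
    · intro c hc
      exact mem_kappa.mpr ⟨hCN hc, fun p hp => (hcommBC c hc p hp).symm⟩
  have hκD : kappa N D = A := by
    apply le_antisymm
    · intro x hx
      obtain ⟨hxN, hxc⟩ := mem_kappa.mp hx
      obtain ⟨a, ha, c, hc, rfl⟩ := hNform x hxN
      have hcb := hcommAD a ha d₀ hd₀
      have h1 := hxc d₀ hd₀
      have h2 : d₀ * c * d₀⁻¹ * c⁻¹ = 1 := by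
        have h3 : d₀ * a * c = a * c * d₀ := by simpa [mul_assoc] using h1
        rw [← hcb] at h3
        have h4 : d₀ * c = c * d₀ := by
          have h5 : a * (d₀ * c) = a * (c * d₀) := by
            calc a * (d₀ * c) = a * d₀ * c := by group
              _ = a * c * d₀ := h3
              _ = _ := by group
          exact mul_left_cancel h5
        rw [h4]; group
      have hc1' := injD d₀ hd₀ hd₀1 c hc h2
      rw [hc1', mul_one]; exact ha
    · intro a ha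
      exact mem_kappa.mpr ⟨hAN ha, fun p hp => (hcommAD a ha p hp).symm⟩
  -- normalization of N
  have hNb : ∀ b ∈ B, conjBy N b ≤ N := by
    intro b hb
    rw [hNdef, conj_sup]
    refine sup_le ?_ ?_
    · rintro _ ⟨a, ha, rfl⟩
      simp only [MulEquiv.coe_toMonoidHom, MulAut.conj_apply]
      have e : b * a * b⁻¹ = (b * a * b⁻¹ * a⁻¹) * a := by group
      rw [e]
      exact N.mul_mem (hCN (hbracketB b hb a ha)) (hAN ha)
    · rintro _ ⟨c, hc, rfl⟩
      simp only [MulEquiv.coe_toMonoidHom, MulAut.conj_apply]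
      rw [← hcommBC c hc b hb]
      simpa using hCN hc
  have hNd : ∀ d ∈ D, conjBy N d ≤ N := by
    intro d hd
    rw [hNdef, conj_sup]
    refine sup_le ?_ ?_
    · rintro _ ⟨a, ha, rfl⟩
      simp only [MulEquiv.coe_toMonoidHom, MulAut.conj_apply]
      rw [← hcommAD a ha d hd]
      simpa using hAN ha
    · rintro _ ⟨c, hc, rfl⟩
      simp only [MulEquiv.coe_toMonoidHom, MulAut.conj_apply]
      have e : d * c * d⁻¹ = (d * c * d⁻¹ * c⁻¹) * c := by group
      rw [e]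
      exact N.mul_mem (hAN (hbracketD d hd c hc)) (hCN hc)
  have hNx : ∀ x ∈ B ⊔ D, conjBy N x = N := by
    intro x hx
    have key : conjBy N x ≤ N ∧ conjBy N x⁻¹ ≤ N := by
      refine sup_induction (P := fun x => conjBy N x ≤ N ∧ conjBy N x⁻¹ ≤ N) ?_ ?_ ?_ ?_ ?_ hx
      · exact fun b hb => ⟨hNb b hb, hNb _ (B.inv_mem hb)⟩
      · exact fun d hd => ⟨hNd d hd, hNd _ (D.inv_mem hd)⟩
      · simp
      · intro x y hx hy
        constructor
        · rw [← conj_conj]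
          exact (conj_le_conj x hy.1).trans hx.1
        · rw [mul_inv_rev, ← conj_conj]
          exact (conj_le_conj y⁻¹ hx.2).trans hy.2
      · intro x hx
        simpa [and_comm] using hx
    exact conj_eq_of_le_both key.1 key.2
  have hκx : ∀ x ∈ B ⊔ D, ∀ P, conjBy (kappa N P) x = kappa N (conjBy P x) := fun x hx P => kappa_conj (hNx x hx)
  -- the three descriptions
  have horbA : {E | ∃ x ∈ B ⊔ D, E = conjBy A x} = {E | ∃ P ∈ pts B D, E = kappa N P} := by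
    ext E
    constructor
    · rintro ⟨x, hx, rfl⟩
      refine ⟨conjBy D x, conj_mem_pts hpair hx right_mem_pts, ?_⟩
      rw [← hκx x hx, hκD]
    · rintro ⟨P, hP, rfl⟩
      rw [pts_comm hpair, ← unipotent_eq_pts (RankOnePair_symm hpair)] at hP
      obtain ⟨x, hx, rfl⟩ := hP
      rw [sup_comm] at hx
      refine ⟨x, hx, ?_⟩
      rw [← hκx x hx, hκD]
  have horbC : {E | ∃ x ∈ B ⊔ D, E = conjBy C x} = {E | ∃ P ∈ pts B D, E = kappa N P} := by
    ext E
    constructor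
    · rintro ⟨x, hx, rfl⟩
      refine ⟨conjBy B x, conj_mem_pts hpair hx left_mem_pts, ?_⟩
      rw [← hκx x hx, hκB]
    · rintro ⟨P, hP, rfl⟩
      rw [← unipotent_eq_pts hpair] at hP
      obtain ⟨x, hx, rfl⟩ := hP
      refine ⟨x, hx, ?_⟩
      rw [← hκx x hx, hκB]
  have hdescA : {E | ∃ x ∈ B ⊔ D, E = conjBy A x} = (fun b : G => conjBy A b) '' (B : Set G) ∪ {C} := by
    rw [horbA]
    ext E
    constructor
    · rintro ⟨P, (rfl | ⟨b, hb, rfl⟩), rfl⟩
      · right; exact hκB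
      · left
        refine ⟨b, hb, ?_⟩
        simp only
        rw [← hκD, hκx b (Subgroup.mem_sup_left hb)]
    · rintro (⟨b, hb, rfl⟩ | rfl)
      · refine ⟨conjBy D b, Or.inr ⟨b, hb, rfl⟩, ?_⟩
        simp only
        rw [← hκx b (Subgroup.mem_sup_left hb), hκD]
      · exact ⟨B, left_mem_pts, hκB.symm⟩
  have hdescC : {E | ∃ x ∈ B ⊔ D, E = conjBy A x} = (fun d : G => conjBy C d) '' (D : Set G) ∪ {A} := by
    rw [horbA, pts_comm hpair]
    ext E
    constructor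
    · rintro ⟨P, (rfl | ⟨d, hd, rfl⟩), rfl⟩
      · right; exact hκD
      · left
        refine ⟨d, hd, ?_⟩
        simp only
        rw [← hκB, hκx d (Subgroup.mem_sup_right hd)]
    · rintro (⟨d, hd, rfl⟩ | rfl)
      · refine ⟨conjBy B d, Or.inr ⟨d, hd, rfl⟩, ?_⟩
        simp only
        rw [← hκx d (Subgroup.mem_sup_right hd), hκB]
      · exact ⟨D, left_mem_pts, hκD.symm⟩
  refine ⟨hpair, horbA.trans horbC.symm, hdescA, hdescC, ?_, ?_⟩
  · -- partition
    rw [hdescA]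
    refine ⟨?_, ?_, ?_⟩
    · rintro E (⟨b, hb, rfl⟩ | rfl)
      · rintro _ ⟨a, ha, rfl⟩
        exact hNb b hb ⟨a, hAN ha, rfl⟩
      · exact hCN
    · intro x hx hx1
      obtain ⟨a, ha, c, hc, rfl⟩ := hNform x hx
      by_cases ha1 : a = 1
      · refine ⟨C, Or.inr rfl, ?_⟩
        rw [ha1, one_mul]; exact hc
      · obtain ⟨b, hb, e⟩ := exists_comm_right hc1 (A.inv_mem ha) (by simpa using ha1) hc
        refine ⟨conjBy A b, Or.inl ⟨b, hb, rfl⟩, ?_⟩
        have e2 : a * c = b * a * b⁻¹ := by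
          rw [← e]; group
        rw [e2]
        exact conj_mem_conj b ha
    · -- disjointness
      have hkey : ∀ b ∈ B, ∀ y ∈ A, y ∈ conjBy A b → y ≠ 1 → b = 1 := by
        intro b hb y hy hy2 hy1
        by_contra hb1
        rw [mem_conj] at hy2
        set a := b⁻¹ * y * b with ha
        have e1 : b * a * b⁻¹ = y := by rw [ha]; group
        have h1 := hbracketB b hb a hy2
        rw [e1] at h1
        have h2 : y * a⁻¹ ∈ A := A.mul_mem hy (A.inv_mem hy2)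
        have h3 := hinter _ h2 h1
        have h4 : b * a * b⁻¹ * a⁻¹ = 1 := by rw [e1]; exact h3
        have h5 := injB b hb hb1 a hy2 h4
        apply hy1
        rw [← e1, h5]; group
      have hkey2 : ∀ b ∈ B, ∀ x ∈ conjBy A b, x ∈ C → x = 1 := by
        intro b hb x hx hxC
        rw [mem_conj] at hx
        set a := b⁻¹ * x * b with ha
        have e1 : b * a * b⁻¹ = x := by rw [ha]; group
        have h1 := hbracketB b hb a hx
        rw [e1] at h1
        have h2 : a ∈ C := by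
          have := Subgroup.mul_mem _ (Subgroup.inv_mem _ h1) hxC
          simpa using this
        have h3 := hinter a hx h2
        rw [← e1, h3]; group
      rintro E₁ (⟨b₁, hb₁, rfl⟩ | rfl) E₂ (⟨b₂, hb₂, rfl⟩ | rfl) hne
      · rw [eq_bot_iff]
        rintro x ⟨hx1, hx2⟩
        by_contra hx
        have hx' : x ≠ 1 := by simpa using hx
        apply hne
        simp only
        -- y = b₁⁻¹ x b₁ ∈ A ∩ A^{b₁⁻¹ b₂}
        have hy1 : b₁⁻¹ * x * b₁ ∈ A := by
          exact mem_conj.mp hx1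
        have hy2 : b₁⁻¹ * x * b₁ ∈ conjBy A (b₁⁻¹ * b₂) := by
          rw [mem_conj]
          have e : (b₁⁻¹ * b₂)⁻¹ * (b₁⁻¹ * x * b₁) * (b₁⁻¹ * b₂) = b₂⁻¹ * x * b₂ := by group
          rw [e]
          exact mem_conj.mp hx2
        have hy3 : b₁⁻¹ * x * b₁ ≠ 1 := by
          intro h
          apply hx'
          have : x = b₁ * (b₁⁻¹ * x * b₁) * b₁⁻¹ := by group
          rw [this, h]; group
        have h4 := hkey _ (B.mul_mem (B.inv_mem hb₁) hb₂) _ hy1 hy2 hy3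
        have : b₂ = b₁ := by
          have := inv_mul_eq_one.mp h4
          exact this.symm
        rw [this]
      · rw [eq_bot_iff]
        rintro x ⟨hx1, hx2⟩
        rw [Subgroup.mem_bot]
        exact hkey2 b₁ hb₁ x hx1 hx2
      · rw [eq_bot_iff]
        rintro x ⟨hx1, hx2⟩
        rw [Subgroup.mem_bot]
        exact hkey2 b₂ hb₂ x hx2 hx1
      · exact absurd rfl hne
  · -- centralizer of N in X is central
    rintro x ⟨hxX, hxc⟩ y hy
    have hfix : ∀ P ∈ pts B D, conjBy P x = P := by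
      intro P hP
      by_contra hne
      have hP' : conjBy P x ∈ pts B D := conj_mem_pts hpair hxX hP
      obtain ⟨z, hz, h1, h2⟩ := exists_to_base hpair hP hP' (Ne.symm hne)
      have hcen : ∀ E : Subgroup G, E ≤ N → conjBy E x = E := by
        intro E hE
        apply conj_fix_of_comm
        intro d hd
        exact (Subgroup.mem_centralizer_iff.mp hxc d (hE hd)).symm
      have e1 : kappa N (conjBy P x) = kappa N P := by
        rw [← hκx x hxX P]
        apply hcen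
        exact inf_le_left
      have e2 : kappa N (conjBy (conjBy P x) z) = kappa N (conjBy P z) := by
        rw [← hκx z hz, ← hκx z hz, e1]
      rw [h1, h2, hκB, hκD] at e2
      exact hACne e2
    exact comm_sup_of_fixes hpair hfix hy

end Cfsg.Agent.RootSub
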