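import Cfsg.Agent.RootSub.Basic

set_option autoImplicit false

namespace Cfsg.Agent.RootSub

open Cfsg

variable {k : Type*} [Field k] {M : Type*} [AddCommGroup M] [Module k M]

local notation "GLm" => LinearMap.GeneralLinearGroup k M

/-- The unit `1 + t` for `t² = 0`. -/
def unitOfSq (t : M →ₗ[k] M) (ht : t * t = 0) : GLm where
  val := 1 + t
  inv := 1 - t
  val_inv := by
    have : (1 + t) * (1 - t) = 1 - t * t := by noncomm_ring
    rw [this, ht, sub_zero]
  inv_val := by
    have : (1 - t) * (1 + t) = 1 - t * t := by noncomm_ring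
    rw [this, ht, sub_zero]

@[simp] lemma unitOfSq_coe (t : M →ₗ[k] M) (ht : t * t = 0) : ((unitOfSq t ht : GLm) : M →ₗ[k] M) = 1 + t := rfl

lemma coe_eq (τ : GLm) : (τ : M →ₗ[k] M) = 1 + ((τ : M →ₗ[k] M) - 1) := by abel

lemma coe_inv_of_sq {τ : GLm} (h : ((τ : M →ₗ[k] M) - 1) * ((τ : M →ₗ[k] M) - 1) = 0) :
    ((τ⁻¹ : GLm) : M →ₗ[k] M) - 1 = -((τ : M →ₗ[k] M) - 1) := by
  set t := (τ : M →ₗ[k] M) - 1 with ht
  have e : τ = unitOfSq t h := by
    apply Units.ext
    simp [ht]
  have e2 : ((τ⁻¹ : GLm) : M →ₗ[k] M) = 1 - t := by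
    rw [e]
    rfl
  rw [e2]
  abel

variable {G : Subgroup (LinearMap.GeneralLinearGroup k M)} {σ : LinearMap.GeneralLinearGroup k M}

lemma same_mul_zero (hσ : IsQuadraticOn σ) {τ τ' : GLm}
    (h1 : LinearMap.ker ((τ : M →ₗ[k] M) - 1) = LinearMap.ker ((σ : M →ₗ[k] M) - 1))
    (h2 : LinearMap.range ((τ' : M →ₗ[k] M) - 1) = LinearMap.range ((σ : M →ₗ[k] M) - 1)) :
    ((τ : M →ₗ[k] M) - 1) * ((τ' : M →ₗ[k] M) - 1) = 0 := by
  ext v
  have hv : ((τ' : M →ₗ[k] M) - 1) v ∈ LinearMap.range ((τ' : M →ₗ[k] M) - 1) := LinearMap.mem_range_self _ v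
  rw [h2] at hv
  obtain ⟨w, hw⟩ := hv
  have h3 : ((τ' : M →ₗ[k] M) - 1) v ∈ LinearMap.ker ((σ : M →ₗ[k] M) - 1) := by
    rw [LinearMap.mem_ker, ← hw]
    have := congrArg (fun f : M →ₗ[k] M => f w) hσ.1
    simpa using this
  rw [← h1, LinearMap.mem_ker] at h3
  simpa using h3

lemma class_quadratic {τ : GLm} (h : τ ∈ sameActionClass G σ) : IsQuadraticOn τ := h.1.1.2.1

section fd
variable [FiniteDimensional k M]

lemma class_mul (hσ : σ ∈ minimalQuadraticElements G) {τ τ' : GLm} (h : τ ∈ sameActionClass G σ)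
    (h' : τ' ∈ sameActionClass G σ) : τ * τ' ∈ sameActionClass G σ ∪ {1} := by
  have hqσ := hσ.1.2.1
  set t := (τ : M →ₗ[k] M) - 1 with ht
  set t' := (τ' : M →ₗ[k] M) - 1 with ht'
  set s := (σ : M →ₗ[k] M) - 1 with hs
  have hker : LinearMap.ker t = LinearMap.ker s := h.2.1
  have hker' : LinearMap.ker t' = LinearMap.ker s := h'.2.1
  have hran : LinearMap.range t = LinearMap.range s := h.2.2
  have hran' : LinearMap.range t' = LinearMap.range s := h'.2.2
  have h00 : t * t = 0 := same_mul_zero hqσ hker hran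
  have h01 : t * t' = 0 := same_mul_zero hqσ hker hran'
  have h10 : t' * t = 0 := same_mul_zero hqσ hker' hran
  have h11 : t' * t' = 0 := same_mul_zero hqσ hker' hran'
  have hprod : ((τ * τ' : GLm) : M →ₗ[k] M) - 1 = t + t' := by
    have e1 : (τ : M →ₗ[k] M) = 1 + t := coe_eq τ
    have e2 : (τ' : M →ₗ[k] M) = 1 + t' := coe_eq τ'
    rw [Units.val_mul, e1, e2]
    have : (1 + t) * (1 + t') = 1 + t + t' + t * t' := by noncomm_ring
    rw [this, h01]
    abel
  by_cases hz : t + t' = 0
  · right
    apply Units.ext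
    have : ((τ * τ' : GLm) : M →ₗ[k] M) = 1 + (((τ * τ' : GLm) : M →ₗ[k] M) - 1) := coe_eq _
    rw [this, hprod, hz]
    simp
  left
  have hsq : (t + t') * (t + t') = 0 := by
    have : (t + t') * (t + t') = t * t + t * t' + t' * t + t' * t' := by noncomm_ring
    rw [this, h00, h01, h10, h11]
    simp
  have hquad : IsQuadraticOn (τ * τ') := by
    refine ⟨?_, ?_⟩
    · rw [hprod]; exact hsq
    · rw [hprod]; exact hz
  have hqE : τ * τ' ∈ quadraticElements G := by
    refine ⟨G.mul_mem h.1.1.1 h'.1.1.1, hquad, ?_⟩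
    rintro ρ ⟨c, hc⟩
    rw [hprod] at hc
    have hs1 : (c • t) * (c • t) = 0 := by
      rw [smul_mul_smul_comm, h00, smul_zero]
    have hs2 : (c • t') * (c • t') = 0 := by
      rw [smul_mul_smul_comm, h11, smul_zero]
    have hm1 : unitOfSq (c • t) hs1 ∈ G := h.1.1.2.2 ⟨c, rfl⟩
    have hm2 : unitOfSq (c • t') hs2 ∈ G := h'.1.1.2.2 ⟨c, rfl⟩
    have e : ρ = unitOfSq (c • t) hs1 * unitOfSq (c • t') hs2 := by
      apply Units.ext
      rw [hc, Units.val_mul, unitOfSq_coe, unitOfSq_coe]
      have gen : ∀ u u' : M →ₗ[k] M, (1 + u) * (1 + u') = 1 + u + u' + u * u' := fun u u' => by noncomm_ring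
      rw [gen, smul_mul_smul_comm, h01, smul_zero, smul_add]
      abel
    rw [e]
    exact G.mul_mem hm1 hm2
  have hranle : LinearMap.range (t + t') ≤ LinearMap.range s := by
    rintro _ ⟨v, rfl⟩
    apply Submodule.add_mem
    · rw [← hran]; exact LinearMap.mem_range_self _ v
    · rw [← hran']; exact LinearMap.mem_range_self _ v
  have hkerle : LinearMap.ker s ≤ LinearMap.ker (t + t') := by
    intro v hv
    have h1 : t v = 0 := by
      have : v ∈ LinearMap.ker t := by rw [hker]; exact hv
      exact this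
    have h2 : t' v = 0 := by
      have : v ∈ LinearMap.ker t' := by rw [hker']; exact hv
      exact this
    simp [h1, h2]
  have hrk1 : commutatorRank (τ * τ') ≤ commutatorRank σ := by
    unfold commutatorRank
    rw [hprod]
    exact Submodule.finrank_mono hranle
  have hrk2 : commutatorRank σ ≤ commutatorRank (τ * τ') := hσ.2 _ hqE
  have hraneq : LinearMap.range (t + t') = LinearMap.range s := by
    apply Submodule.eq_of_le_of_finrank_le hranle
    have := hrk2
    unfold commutatorRank at this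
    rw [hprod] at this
    exact this
  have hkereq : LinearMap.ker (t + t') = LinearMap.ker s := by
    symm
    apply Submodule.eq_of_le_of_finrank_le hkerle
    have e1 := LinearMap.finrank_range_add_finrank_ker (t + t')
    have e2 := LinearMap.finrank_range_add_finrank_ker s
    rw [hraneq] at e1
    omega
  refine ⟨⟨hqE, ?_⟩, ?_, ?_⟩
  · intro ρ hρ
    exact hrk1.trans (hσ.2 ρ hρ)
  · rw [hprod]; exact hkereq
  · rw [hprod]; exact hraneq

lemma class_inv {τ : GLm} (h : τ ∈ sameActionClass G σ) : τ⁻¹ ∈ sameActionClass G σ := by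
  have hq := class_quadratic h
  have hinv := coe_inv_of_sq hq.1
  have hran : commutatorRank τ⁻¹ = commutatorRank τ := by
    unfold commutatorRank
    rw [hinv, LinearMap.range_neg]
  refine ⟨⟨⟨G.inv_mem h.1.1.1, ⟨?_, ?_⟩, ?_⟩, ?_⟩, ?_, ?_⟩
  · rw [hinv, neg_mul_neg]; exact hq.1
  · rw [hinv]; exact neg_ne_zero.mpr hq.2
  · rintro ρ ⟨c, hc⟩
    rw [hinv] at hc
    apply h.1.1.2.2
    refine ⟨-c, ?_⟩
    rw [hc, smul_neg, neg_smul]
  · intro ρ hρ
    rw [hran]
    exact h.1.2 ρ hρ
  · rw [hinv, LinearMap.ker_neg]; exact h.2.1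
  · rw [hinv, LinearMap.range_neg]; exact h.2.2

theorem s5059_main (hσ : σ ∈ minimalQuadraticElements G) :
    (sameActionSubgroup G σ : Set GLm) = sameActionClass G σ ∪ {1} ∧
    IsMulCommutative ↥(sameActionSubgroup G σ) ∧
    (∀ p : ℕ, p.Prime → ringChar k = p → ∀ x ∈ sameActionSubgroup G σ, x ^ p = 1) := by
  have hset : (sameActionSubgroup G σ : Set GLm) = sameActionClass G σ ∪ {1} := by
    apply Set.Subset.antisymm
    · intro x hx
      induction hx using Subgroup.closure_induction with
      | mem x hx => exact Or.inl hx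
      | one => exact Or.inr rfl
      | mul x y _ _ h1 h2 =>
        rcases h1 with h1 | h1
        · rcases h2 with h2 | h2
          · exact class_mul hσ h1 h2
          · rw [Set.mem_singleton_iff.mp h2, mul_one]
            exact Or.inl h1
        · rw [Set.mem_singleton_iff.mp h1, one_mul]
          exact h2
      | inv x _ h1 =>
        rcases h1 with h1 | h1
        · exact Or.inl (class_inv h1)
        · rw [Set.mem_singleton_iff.mp h1, inv_one]
          exact Or.inr rfl
    · rintro x (hx | hx)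
      · exact Subgroup.subset_closure hx
      · rw [Set.mem_singleton_iff.mp hx]
        exact Subgroup.one_mem _
  have hqσ := hσ.1.2.1
  have hmem : ∀ x ∈ sameActionSubgroup G σ, x ∈ sameActionClass G σ ∨ x = 1 := by
    intro x hx
    have : x ∈ (sameActionSubgroup G σ : Set GLm) := hx
    rw [hset] at this
    exact this
  refine ⟨hset, ?_, ?_⟩
  · apply isMulCommutative_of_comm
    intro x hx y hy
    rcases hmem x hx with h1 | rfl
    · rcases hmem y hy with h2 | rfl
      · apply Units.ext
        have e1 : (x : M →ₗ[k] M) = 1 + ((x : M →ₗ[k] M) - 1) := coe_eq x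
        have e2 : (y : M →ₗ[k] M) = 1 + ((y : M →ₗ[k] M) - 1) := coe_eq y
        rw [Units.val_mul, Units.val_mul, e1, e2]
        set t := (x : M →ₗ[k] M) - 1
        set t' := (y : M →ₗ[k] M) - 1
        have h01 : t * t' = 0 := same_mul_zero hqσ h1.2.1 h2.2.2
        have h10 : t' * t = 0 := same_mul_zero hqσ h2.2.1 h1.2.2
        have a1 : (1 + t) * (1 + t') = 1 + t + t' + t * t' := by noncomm_ring
        have a2 : (1 + t') * (1 + t) = 1 + t' + t + t' * t := by noncomm_ring
        rw [a1, a2, h01, h10]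
        abel
      · simp
    · simp
  · intro p hp hchar x hx
    rcases hmem x hx with h1 | rfl
    · set t := (x : M →ₗ[k] M) - 1 with ht
      have h00 : t * t = 0 := (class_quadratic h1).1
      have hpow : ∀ n : ℕ, ((x ^ n : GLm) : M →ₗ[k] M) = 1 + (n : k) • t := by
        intro n
        induction n with
        | zero => simp
        | succ n ih =>
          rw [pow_succ, Units.val_mul, ih]
          have e1 : (x : M →ₗ[k] M) = 1 + t := coe_eq x
          rw [e1]
          have gen : ∀ u u' : M →ₗ[k] M, (1 + u) * (1 + u') = 1 + u + u' + u * u' := fun u u' => by noncomm_ring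
          rw [gen, smul_mul_assoc, h00, smul_zero, Nat.cast_succ, add_smul, one_smul]
          abel
      apply Units.ext
      rw [hpow]
      have : (p : k) = 0 := by
        have := ringChar.charP k
        rw [hchar] at this
        exact CharP.cast_eq_zero k p
      rw [this]
      simp
    · simp

end fd

end Cfsg.Agent.RootSub
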