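import Cfsg.Agent.RootSub.OddTrans
import Cfsg.Agent.Lib.BaerSuzuki

set_option autoImplicit false

namespace Cfsg.Agent.RootSub

open Cfsg

variable {G : Type*} [Group G] {D : Set G}

lemma order_conj (g x : G) : orderOf (g * x * g⁻¹) = orderOf x := by
  have := orderOf_injective (MulAut.conj g).toMonoidHom (MulAut.conj g).injective x
  simpa using this

lemma order_comm (a b : G) : orderOf (a * b) = orderOf (b * a) := by
  have := order_conj a (b * a)
  rw [← this]
  congr 1
  group

lemma oddAdj_symm {a b : G} (h : OddAdj D a b) : OddAdj D b a :=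
  ⟨h.2.1, h.1, h.2.2.1.symm, by rw [order_comm]; exact h.2.2.2⟩

lemma oddAdj_conj (hD : IsRootInvolutionSet D) (g : G) {a b : G} (h : OddAdj D a b) :
    OddAdj D (g * a * g⁻¹) (g * b * g⁻¹) := by
  refine ⟨hD.conj_mem a h.1 g, hD.conj_mem b h.2.1 g, ?_, ?_⟩
  · intro e
    exact h.2.2.1 (by simpa using e)
  · have e : g * a * g⁻¹ * (g * b * g⁻¹) = g * (a * b) * g⁻¹ := by group
    rw [e, order_conj]
    exact h.2.2.2

/-- The product of a nontrivial odd order element with a commuting involution has order
`2n`, which the trichotomy forbids. -/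
lemma no_big (hD : IsRootInvolutionSet D) {a b x t : G} (ha : a ∈ D) (hb : b ∈ D) (e : a * b = x * t)
    (hc : x * t = t * x) (ho : Odd (orderOf x)) (hx1 : x ≠ 1) (ht2 : t * t = 1) (ht1 : t ≠ 1) : False := by
  have hord2 : orderOf t = 2 := orderOf_eq_prime (by rw [pow_two]; exact ht2) ht1
  have hcx : Commute x t := hc
  have hcop : Nat.Coprime (orderOf x) (orderOf t) := by
    rw [hord2]
    exact Nat.Coprime.symm (Nat.coprime_two_left.mpr ho)
  have hord := hcx.orderOf_mul_eq_mul_orderOf_of_coprime hcop
  rw [← e, hord2] at hord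
  have hx2 : orderOf x ≠ 1 := fun h => hx1 (orderOf_eq_one_iff.mp h)
  obtain ⟨k, hk⟩ := ho
  rcases hD.pair a ha b hb with h1 | h1 | h1
  · have h2 : (a * b) ^ 2 = 1 := by
      rw [pow_two]
      calc a * b * (a * b) = a * (b * a) * b := by group
        _ = a * (a * b) * b := by rw [← h1]
        _ = (a * a) * (b * b) := by group
        _ = 1 := by rw [invol_mul hD ha, invol_mul hD hb, one_mul]
    have h3 : orderOf (a * b) ∣ 2 := orderOf_dvd_of_pow_eq_one h2
    rw [hord] at h3
    have := Nat.le_of_dvd (by norm_num) h3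
    omega
  · rw [hord] at h1
    exact absurd h1 (by simp)
  · rw [hord] at h1
    have := h1.1
    omega

/-- Lemma B: a member commuting with one point of a line and odd on another. -/
lemma no_commute_on_line (hD : IsRootInvolutionSet D) {u e a : G} (hu : u ∈ D) (he : e ∈ D) (ha : a ∈ D)
    (hea : e * a = a * e) (hf : e * a ∈ D) (hue : u * e = e * u) (ho : Odd (orderOf (u * a))) (hne : u ≠ a) : False := by
  have hmul := fun d (hd : d ∈ D) => invol_mul hD hd
  refine no_big hD hu hf (x := u * a) (t := e) (by rw [hea]; group) ?_ ho ?_ (hmul e he) ?_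
  · calc u * a * e = u * (a * e) := by group
      _ = u * (e * a) := by rw [hea]
      _ = (u * e) * a := by group
      _ = (e * u) * a := by rw [hue]
      _ = e * (u * a) := by group
  · intro h
    have h2 : u = a⁻¹ := eq_inv_of_mul_eq_one_left h
    rw [invol_inv hD ha] at h2
    exact hne h2
  · intro h
    have := hD.orderOf_eq e he
    rw [h, orderOf_one] at this
    omega

/-- Lemma A. -/
lemma no_both_four (hD : IsRootInvolutionSet D) {u e f : G} (hu : u ∈ D) (he : e ∈ D) (hf : f ∈ D)
    (hef : e * f = f * e) (ha : e * f ∈ D) (ho : Odd (orderOf (u * (e * f)))) (hne : u ≠ e * f)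
    (h1 : orderOf (u * e) = 4) (h2 : orderOf (u * f) = 4) : False := by
  have hmul := fun d (hd : d ∈ D) => invol_mul hD hd
  have hinv := fun d (hd : d ∈ D) => invol_inv hD hd
  have hv : (u * e) ^ 2 ∈ D := by
    rcases hD.pair u hu e he with h | h | h
    · exfalso
      have h3 : (u * e) ^ 2 = 1 := by
        rw [pow_two]
        calc u * e * (u * e) = u * (e * u) * e := by group
          _ = u * (u * e) * e := by rw [← h]
          _ = (u * u) * (e * e) := by group
          _ = 1 := by rw [hmul u hu, hmul e he, one_mul]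
      have := Nat.le_of_dvd (by norm_num) (orderOf_dvd_of_pow_eq_one h3)
      omega
    · rw [h1] at h
      exact absurd h (by decide)
    · exact h.2
  have hv' : (u * f) ^ 2 ∈ D := by
    rcases hD.pair u hu f hf with h | h | h
    · exfalso
      have h3 : (u * f) ^ 2 = 1 := by
        rw [pow_two]
        calc u * f * (u * f) = u * (f * u) * f := by group
          _ = u * (u * f) * f := by rw [← h]
          _ = (u * u) * (f * f) := by group
          _ = 1 := by rw [hmul u hu, hmul f hf, one_mul]
      have := Nat.le_of_dvd (by norm_num) (orderOf_dvd_of_pow_eq_one h3)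
      omega
    · rw [h2] at h
      exact absurd h (by decide)
    · exact h.2
  obtain ⟨a, hadef⟩ : ∃ a, a = e * f := ⟨_, rfl⟩
  rw [← hadef] at ha ho hne
  set v := (u * e) ^ 2 with hvdef
  set v' := (u * f) ^ 2 with hv'def
  set y := e * v' * e⁻¹ with hydef
  have hyD : y ∈ D := hD.conj_mem v' hv' e
  set c := (u * a) ^ 2 with hcdef
  have he' := hinv e he
  have hu' := hinv u hu
  have hf' := hinv f hf
  have hcvy : c = v * y := by
    rw [hcdef, hvdef, hydef, hv'def, he', pow_two, pow_two, pow_two, hadef]
    calc u * (e * f) * (u * (e * f)) = u * e * f * u * (e * f) := by group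
      _ = u * e * f * u * (f * e) := by rw [hef]
      _ = u * e * 1 * f * u * f * e := by group
      _ = u * e * (u * u) * f * u * f * e := by rw [hmul u hu]
      _ = u * e * u * 1 * u * f * u * f * e := by group
      _ = u * e * u * (e * e) * u * f * u * f * e := by rw [hmul e he]
      _ = _ := by group
  -- `u` commutes with `v`
  have hw4 : (u * e) ^ 4 = 1 := by
    rw [← h1]; exact pow_orderOf_eq_one _
  have huv : u * v = v * u := by
    have h3 : u * (u * e) * u = (u * e)⁻¹ := by
      rw [_root_.mul_inv_rev, hu', he']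
      calc u * (u * e) * u = (u * u) * e * u := by group
        _ = e * u := by rw [hmul u hu, one_mul]
    have h4 : u * v * u = (u * e)⁻¹ ^ 2 := by
      rw [← h3, hvdef, pow_two, pow_two]
      calc u * (u * e * (u * e)) * u = u * (u * e) * 1 * (u * e) * u := by group
        _ = u * (u * e) * (u * u) * (u * e) * u := by rw [hmul u hu]
        _ = _ := by group
    have h5 : (u * e)⁻¹ ^ 2 = v := by
      rw [hvdef, inv_pow]
      apply inv_eq_of_mul_eq_one_left
      rw [← pow_add]
      exact hw4
    rw [h5] at h4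
    calc u * v = (u * v * u) * u := by
          calc u * v = u * v * 1 := by group
            _ = u * v * (u * u) := by rw [hmul u hu]
            _ = _ := by group
      _ = v * u := by rw [h4]
  have hvinv := hinv v hv
  have hyinv := hinv y hyD
  -- `u` and `v` invert `c`
  have huc : u * c * u = c⁻¹ := by
    rw [hcdef, pow_two, _root_.mul_inv_rev, _root_.mul_inv_rev, hu', hinv a ha]
    calc u * (u * a * (u * a)) * u = (u * u) * a * u * a * u := by group
      _ = a * u * a * u := by rw [hmul u hu, one_mul]
      _ = _ := by group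
  have hvc : v * c * v = c⁻¹ := by
    rw [hcvy, _root_.mul_inv_rev, hvinv, hyinv]
    calc v * (v * y) * v = (v * v) * y * v := by group
      _ = y * v := by rw [hmul v hv, one_mul]
  -- `t = u v` commutes with `c`
  obtain ⟨t, htdef⟩ : ∃ t, t = u * v := ⟨_, rfl⟩
  have htc : t * c = c * t := by
    have e1 : t * c * t⁻¹ = c := by
      rw [htdef, _root_.mul_inv_rev, hvinv, hu']
      calc u * v * c * (v * u) = u * (v * c * v) * u := by group
        _ = u * c⁻¹ * u := by rw [hvc]
        _ = (u * c * u)⁻¹ := by
            rw [_root_.mul_inv_rev, _root_.mul_inv_rev, hu']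
            group
        _ = c := by rw [huc, inv_inv]
    calc t * c = (t * c * t⁻¹) * t := by group
      _ = c * t := by rw [e1]
  -- `t` commutes with `u a`
  obtain ⟨k, hk⟩ := ho
  have hpow : ((u * a) ^ 2) ^ (k + 1) = u * a := by
    rw [← pow_mul]
    have : 2 * (k + 1) = orderOf (u * a) + 1 := by omega
    rw [this, pow_succ, pow_orderOf_eq_one, one_mul]
  have htua : t * (u * a) = (u * a) * t := by
    rw [← hpow]
    exact ((Commute.pow_right (show Commute t c from htc) (k + 1)))
  have htu : t * u = u * t := by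
    rw [htdef]
    calc u * v * u = u * (v * u) := by group
      _ = u * (u * v) := by rw [← huv]
  have hta : t * a = a * t := by
    have e1 : a = u * (u * a) := by
      rw [← mul_assoc, hmul u hu, one_mul]
    have : Commute t a := by
      rw [e1]
      exact Commute.mul_right htu htua
    exact this
  -- the contradiction
  refine no_big hD ha hv (x := a * u) (t := t) ?_ ?_ ?_ ?_ ?_ ?_
  · rw [htdef]
    calc a * v = a * 1 * v := by group
      _ = a * (u * u) * v := by rw [hmul u hu]
      _ = _ := by group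
  · have : Commute (a * u) t := by
      exact Commute.mul_left (Commute.symm hta) (Commute.symm htu)
    exact this
  · rw [order_comm]
    exact ⟨k, hk⟩
  · intro h
    apply hne
    have h2 : a = u⁻¹ := eq_inv_of_mul_eq_one_left h
    rw [hu'] at h2
    exact h2.symm
  · rw [htdef]
    calc u * v * (u * v) = u * (v * u) * v := by group
      _ = u * (u * v) * v := by rw [huv]
      _ = (u * u) * (v * v) := by group
      _ = 1 := by rw [hmul u hu, hmul v hv, one_mul]
  · intro h
    rw [htdef] at h
    have h2 : u = v⁻¹ := eq_inv_of_mul_eq_one_left h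
    rw [hvinv, hvdef, pow_two] at h2
    have h3 : e * u * e = 1 := by
      have h4 : u * 1 = u * (e * u * e) := by
        conv_lhs => rw [mul_one, h2]
        group
      exact (mul_left_cancel h4).symm
    have h5 : u = 1 := by
      have h6 : e * (e * u * e) * e = (e * e) * u * (e * e) := by group
      rw [h3, mul_one, hmul e he, one_mul, mul_one] at h6
      exact h6.symm
    have := hD.orderOf_eq u hu
    rw [h5, orderOf_one] at this
    omega

/-- Lemma C: a member odd on a point of a line is odd on a further point. -/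
lemma line_lemma (hD : IsRootInvolutionSet D) {u e f : G} (hu : u ∈ D) (he : e ∈ D) (hf : f ∈ D)
    (hef : e * f = f * e) (ha : e * f ∈ D) (ho : Odd (orderOf (u * (e * f)))) (hne : u ≠ e * f) :
    OddAdj D u e ∨ OddAdj D u f := by
  have hmul := fun d (hd : d ∈ D) => invol_mul hD hd
  have hinv := fun d (hd : d ∈ D) => invol_inv hD hd
  have hue : u ≠ e := by
    rintro rfl
    have e1 : u * (u * f) = f := by
      rw [← mul_assoc, hmul u hu, one_mul]
    rw [e1, hD.orderOf_eq f hf] at ho
    exact absurd ho (by decide)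
  have huf : u ≠ f := by
    rintro rfl
    have e1 : u * (e * u) = e := by
      calc u * (e * u) = u * (u * e) := by rw [← hef]
        _ = (u * u) * e := by group
        _ = e := by rw [hmul u hu, one_mul]
    rw [e1, hD.orderOf_eq e he] at ho
    exact absurd ho (by decide)
  have hfe : f * e = e * f := hef.symm
  rcases hD.pair u hu e he with h | h | h
  · exfalso
    -- `e * (e * f) = f`
    refine no_commute_on_line hD hu he ha (a := e * f) ?_ ?_ h ho hne
    · rw [← mul_assoc, hmul e he, one_mul]
      calc f = f * 1 := by group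
        _ = f * (e * e) := by rw [hmul e he]
        _ = (f * e) * e := by group
        _ = e * f * e := by rw [hfe]
    · rw [← mul_assoc, hmul e he, one_mul]
      exact hf
  · exact Or.inl ⟨hu, he, hue, h⟩
  · rcases hD.pair u hu f hf with h' | h' | h'
    · exfalso
      refine no_commute_on_line hD hu hf ha (a := e * f) ?_ ?_ h' ho hne
      · calc f * (e * f) = (f * e) * f := by group
          _ = (e * f) * f := by rw [hfe]
      · rw [← mul_assoc, hfe, mul_assoc, hmul f hf, mul_one]
        exact he
    · exact Or.inr ⟨hu, hf, huf, h'⟩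
    · exact absurd (no_both_four hD hu he hf hef ha ho hne h.1 h'.1) (by simp)


/-! ### Isolated vertices -/

/-- The isolated vertices. -/
def Iso (D : Set G) : Set G := {w | IsIsolatedElem (OddAdj D) D w}

lemma mem_iso_iff {D : Set G} {w : G} : w ∈ Iso D ↔ w ∈ D ∧ ∀ b, ¬ OddAdj D w b := by
  constructor
  · rintro ⟨h1, h2⟩
    exact ⟨h1, fun b => (h2 b).1⟩
  · rintro ⟨h1, h2⟩
    exact ⟨h1, fun b => ⟨h2 b, fun h => h2 b (oddAdj_symm h)⟩⟩

lemma iso_conj (hD : IsRootInvolutionSet D) {w : G} (hw : w ∈ Iso D) (g : G) : g * w * g⁻¹ ∈ Iso D := by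
  rw [mem_iso_iff] at hw ⊢
  refine ⟨hD.conj_mem w hw.1 g, ?_⟩
  intro b hb
  have := oddAdj_conj hD g⁻¹ hb
  have e : g⁻¹ * (g * w * g⁻¹) * g⁻¹⁻¹ = w := by group
  rw [e] at this
  exact hw.2 _ this

lemma iso_closure_normal (hD : IsRootInvolutionSet D) : (Subgroup.closure (Iso D)).Normal := by
  constructor
  intro n hn g
  induction hn using Subgroup.closure_induction with
  | mem x hx => exact Subgroup.subset_closure (iso_conj hD hx g)
  | one => simp
  | mul x y _ _ hx hy =>
    have : g * (x * y) * g⁻¹ = (g * x * g⁻¹) * (g * y * g⁻¹) := by group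
    rw [this]
    exact Subgroup.mul_mem _ hx hy
  | inv x _ hx =>
    have : g * x⁻¹ * g⁻¹ = (g * x * g⁻¹)⁻¹ := by group
    rw [this]
    exact Subgroup.inv_mem _ hx

/-- Every element of `⟨a, b⟩` is a power of `a b` or such a power times `a`. -/
lemma dihedral_form {a b : G} (ha : a * a = 1) (hb : b * b = 1) {x : G} (hx : x ∈ Subgroup.closure ({a, b} : Set G)) :
    ∃ i : ℤ, x = (a * b) ^ i ∨ x = (a * b) ^ i * a := by
  have hainv : a⁻¹ = a := inv_eq_of_mul_eq_one_left ha
  have hbinv : b⁻¹ = b := inv_eq_of_mul_eq_one_left hb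
  have hconj : ∀ j : ℤ, a * (a * b) ^ j * a = (a * b) ^ (-j) := by
    intro j
    have h1 : a * (a * b) * a⁻¹ = (a * b)⁻¹ := by
      rw [hainv, _root_.mul_inv_rev, hainv, hbinv, ← mul_assoc, ha, one_mul]
    have h2 := conj_zpow (a := a) (b := a * b) (i := j)
    rw [h1, inv_zpow, ← zpow_neg, hainv] at h2
    exact h2.symm
  induction hx using Subgroup.closure_induction with
  | mem x hx =>
    rcases hx with rfl | rfl
    · exact ⟨0, Or.inr (by simp)⟩
    · refine ⟨-1, Or.inr ?_⟩
      rw [zpow_neg_one, _root_.mul_inv_rev, hainv, hbinv, mul_assoc, ha, mul_one]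
  | one => exact ⟨0, Or.inl (by simp)⟩
  | mul x y _ _ hx hy =>
    obtain ⟨i, hi⟩ := hx
    obtain ⟨j, hj⟩ := hy
    rcases hi with rfl | rfl <;> rcases hj with rfl | rfl
    · exact ⟨i + j, Or.inl (zpow_add _ _ _).symm⟩
    · exact ⟨i + j, Or.inr (by rw [zpow_add]; group)⟩
    · refine ⟨i - j, Or.inr ?_⟩
      have h1 : a * (a * b) ^ j = (a * b) ^ (-j) * a := by
        rw [← hconj j, mul_assoc _ a a, ha, mul_one]
      rw [mul_assoc, h1, ← mul_assoc, ← zpow_add, sub_eq_add_neg]
    · refine ⟨i - j, Or.inl ?_⟩
      have h1 := hconj j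
      calc (a * b) ^ i * a * ((a * b) ^ j * a) = (a * b) ^ i * (a * (a * b) ^ j * a) := by group
        _ = (a * b) ^ (i - j) := by rw [h1, ← zpow_add, sub_eq_add_neg]
  | inv x _ hx =>
    obtain ⟨i, hi⟩ := hx
    rcases hi with rfl | rfl
    · exact ⟨-i, Or.inl (zpow_neg _ _).symm⟩
    · refine ⟨i, Or.inr ?_⟩
      have h1 := hconj (-i)
      rw [neg_neg] at h1
      rw [_root_.mul_inv_rev, hainv, ← zpow_neg]
      calc a * (a * b) ^ (-i) = (a * (a * b) ^ (-i) * a) * a := by
            rw [mul_assoc _ a a, ha, mul_one]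
        _ = _ := by rw [h1]

lemma dihedral_two_group {a b : G} (ha : a * a = 1) (hb : b * b = 1) (h4 : (a * b) ^ 4 = 1) :
    IsPGroup 2 ↥(Subgroup.closure ({a, b} : Set G)) := by
  have hainv : a⁻¹ = a := inv_eq_of_mul_eq_one_left ha
  have hbinv : b⁻¹ = b := inv_eq_of_mul_eq_one_left hb
  rintro ⟨x, hx⟩
  refine ⟨2, ?_⟩
  apply Subtype.ext
  simp only [Subgroup.coe_pow, Subgroup.coe_one]
  obtain ⟨i, hi⟩ := dihedral_form ha hb hx
  rcases hi with rfl | rfl
  · rw [← zpow_natCast, ← zpow_mul, mul_comm, zpow_mul]
    have : ((a * b) ^ ((2 ^ 2 : ℕ) : ℤ)) = 1 := by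
      rw [zpow_natCast]
      exact h4
    rw [this, one_zpow]
  · have h2 : ((a * b) ^ i * a) * ((a * b) ^ i * a) = 1 := by
      have h1 : a * (a * b) * a⁻¹ = (a * b)⁻¹ := by
        rw [hainv, _root_.mul_inv_rev, hainv, hbinv, ← mul_assoc, ha, one_mul]
      have h3 := conj_zpow (a := a) (b := a * b) (i := i)
      rw [h1, inv_zpow, hainv] at h3
      calc (a * b) ^ i * a * ((a * b) ^ i * a) = (a * b) ^ i * (a * (a * b) ^ i * a) := by group
        _ = 1 := by rw [← h3]; group
    have e : (2 : ℕ) ^ 2 = 2 * 2 := by norm_num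
    have h2' : ((a * b) ^ i * a) ^ 2 = 1 := by
      rw [pow_two]; exact h2
    rw [e, pow_mul, h2', one_pow]

section finiteThm

variable [Finite G]

lemma iso_two_group (hD : IsRootInvolutionSet D) : IsPGroup 2 ↥(Subgroup.closure (Iso D)) := by
  have : Fact (Nat.Prime 2) := ⟨Nat.prime_two⟩
  let Ω : Set (Subgroup G) := {Y | ∃ w ∈ Iso D, Y = Subgroup.zpowers w}
  have h1 := Lib.BaerSuzuki.isPGroup_sSup (p := 2) Ω ?_ ?_
  · refine h1.to_le ?_
    rw [Subgroup.closure_le]
    intro w hw
    have h2 : Subgroup.zpowers w ≤ sSup Ω := le_sSup ⟨w, hw, rfl⟩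
    exact h2 (Subgroup.mem_zpowers w)
  · rintro Y ⟨w, hw, rfl⟩ g
    refine ⟨g * w * g⁻¹, iso_conj hD hw g, ?_⟩
    rw [MonoidHom.map_zpowers]
    rfl
  · rintro Y ⟨w, hw, rfl⟩ Z ⟨w', hw', rfl⟩
    have e : Subgroup.zpowers w ⊔ Subgroup.zpowers w' = Subgroup.closure ({w, w'} : Set G) := by
      rw [Subgroup.zpowers_eq_closure, Subgroup.zpowers_eq_closure, ← Subgroup.closure_union]
      rfl
    rw [e]
    have hw1 := (mem_iso_iff.mp hw)
    have hw2 := (mem_iso_iff.mp hw')
    apply dihedral_two_group (invol_mul hD hw1.1) (invol_mul hD hw2.1)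
    rcases hD.pair w hw1.1 w' hw2.1 with h | h | h
    · have h2 : (w * w') ^ 2 = 1 := by
        rw [pow_two]
        calc w * w' * (w * w') = w * (w' * w) * w' := by group
          _ = w * (w * w') * w' := by rw [← h]
          _ = (w * w) * (w' * w') := by group
          _ = 1 := by rw [invol_mul hD hw1.1, invol_mul hD hw2.1, one_mul]
      calc (w * w') ^ 4 = ((w * w') ^ 2) ^ 2 := by rw [← pow_mul]
        _ = 1 := by rw [h2, one_pow]
    · by_cases hne : w = w'
      · rw [← hne, invol_mul hD hw1.1, one_pow]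
      · exact absurd ⟨hw1.1, hw2.1, hne, h⟩ (hw1.2 w')
    · rw [← h.1]
      exact pow_orderOf_eq_one _

/-- An element of a normal 2-subgroup belonging to `D` is isolated. -/
lemma mem_iso_of_mem_normal (hD : IsRootInvolutionSet D) {N : Subgroup G} (hN : N.Normal) (hP : IsPGroup 2 N)
    {d : G} (hd : d ∈ D) (hdN : d ∈ N) : d ∈ Iso D := by
  rw [mem_iso_iff]
  refine ⟨hd, ?_⟩
  rintro b ⟨_, hb, hne, ho⟩
  have h1 : (d * b) ^ 2 ∈ N := by
    have e : (d * b) ^ 2 = d * (b * d * b⁻¹) := by
      rw [pow_two, invol_inv hD hb]; group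
    rw [e]
    exact N.mul_mem hdN (hN.conj_mem d hdN b)
  have h2 : Odd (orderOf ((d * b) ^ 2)) := by
    have hd2 : orderOf ((d * b) ^ 2) ∣ orderOf (d * b) := orderOf_dvd_of_pow_eq_one (by
      rw [← pow_mul, mul_comm, pow_mul, pow_orderOf_eq_one, one_pow])
    exact Odd.of_dvd_nat ho hd2
  obtain ⟨k, hk⟩ := hP ⟨_, h1⟩
  have h3 : ((d * b) ^ 2) ^ 2 ^ k = 1 := by
    have := congrArg Subtype.val hk
    simpa using this
  have h4 : orderOf ((d * b) ^ 2) ∣ 2 ^ k := orderOf_dvd_of_pow_eq_one h3
  obtain ⟨j, _, hj⟩ := (Nat.dvd_prime_pow Nat.prime_two).mp h4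
  have h5 : (d * b) ^ 2 = 1 := by
    rcases j with _ | j
    · simp only [pow_zero] at hj
      exact orderOf_eq_one_iff.mp hj
    · exfalso
      rw [hj, pow_succ, Nat.odd_iff] at h2
      omega
  have h6 : orderOf (d * b) ∣ 2 := orderOf_dvd_of_pow_eq_one h5
  have h7 : orderOf (d * b) = 1 := by
    rcases (Nat.dvd_prime Nat.prime_two).mp h6 with h9 | h9
    · exact h9
    · rw [h9] at ho
      exact absurd ho (by decide)
  have h8 : d * b = 1 := orderOf_eq_one_iff.mp h7
  apply hne
  have := eq_inv_of_mul_eq_one_left h8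
  rwa [invol_inv hD hb] at this

lemma iso_inter (hD : IsRootInvolutionSet D) : (Subgroup.closure (Iso D) : Set G) ∩ D = Iso D := by
  ext d
  constructor
  · rintro ⟨h1, h2⟩
    exact mem_iso_of_mem_normal hD (iso_closure_normal hD) (iso_two_group hD) h2 h1
  · intro h
    exact ⟨Subgroup.subset_closure h, (mem_iso_iff.mp h).1⟩

end finiteThm

/-- neighbour extraction -/
lemma exists_neighbor_of_comp {a a' : G} (h : a' ∈ elemComponentOf (OddAdj D) D a) (hne : a' ≠ a) :
    ∃ u, OddAdj D a u := by
  obtain ⟨_, h2⟩ := h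
  rcases Relation.ReflTransGen.cases_head h2 with h3 | ⟨c, h3, _⟩
  · exact absurd h3.symm hne
  · exact ⟨c, h3⟩

lemma comp_symm {a b : G} (h : Relation.ReflTransGen (OddAdj D) a b) : Relation.ReflTransGen (OddAdj D) b a := by
  induction h with
  | refl => exact Relation.ReflTransGen.refl
  | tail _ hbc ih => exact Relation.ReflTransGen.head (oddAdj_symm hbc) ih

/-- A point of a line through a nonisolated point is in the component or isolated. -/
lemma line_comp (hD : IsRootInvolutionSet D) {a e : G} (ha : a ∈ D) (hu : ∃ u, OddAdj D a u)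
    (he : e ∈ productPartners D a) : e ∈ elemComponentOf (OddAdj D) D a ∪ Iso D := by
  obtain ⟨⟨heD, hea, hne⟩, hf⟩ := he
  by_cases hiso : e ∈ Iso D
  · exact Or.inr hiso
  left
  refine ⟨heD, ?_⟩
  obtain ⟨u, hu⟩ := hu
  have hinva := invol_mul hD ha
  have hinve := invol_mul hD heD
  -- `e * (e * a)= a`
  have e1 : e * (e * a) = a := by rw [← mul_assoc, hinve, one_mul]
  have hlineU : OddAdj D u e ∨ OddAdj D u (e * a) := by
    apply line_lemma hD hu.2.1 heD hf
    · calc e * (e * a) = e * (a * e) := by rw [hea]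
        _ = e * a * e := by group
    · rw [e1]; exact ha
    · rw [e1, order_comm]
      exact hu.2.2.2
    · rw [e1]; exact hu.2.2.1.symm
  have haU : Relation.ReflTransGen (OddAdj D) a u := Relation.ReflTransGen.single hu
  rcases hlineU with h | h
  · exact haU.tail h
  · have hf' : Relation.ReflTransGen (OddAdj D) a (e * a) := haU.tail h
    rw [mem_iso_iff] at hiso
    push Not at hiso
    obtain ⟨u', hu'⟩ := hiso heD
    -- `a * (e * a) = e`
    have e2 : a * (e * a) = e := by
      calc a * (e * a) = a * (a * e) := by rw [hea]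
        _ = (a * a) * e := by group
        _ = e := by rw [hinva, one_mul]
    have hline' : OddAdj D u' a ∨ OddAdj D u' (e * a) := by
      apply line_lemma hD hu'.2.1 ha hf
      · calc a * (e * a) = e := e2
          _ = e * a * a := by rw [mul_assoc, hinva, mul_one]
      · rw [e2]; exact heD
      · rw [e2, order_comm]
        exact hu'.2.2.2
      · rw [e2]; exact hu'.2.2.1.symm
    have hu'e : Relation.ReflTransGen (OddAdj D) u' e := Relation.ReflTransGen.single (oddAdj_symm hu')
    rcases hline' with h2 | h2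
    · exact Relation.ReflTransGen.trans (Relation.ReflTransGen.single (oddAdj_symm h2)) hu'e
    · exact Relation.ReflTransGen.trans (hf'.tail (oddAdj_symm h2)) hu'e

/-- Commutators across different nontrivial components. -/
lemma comm_iso_across (hD : IsRootInvolutionSet D) {a b : G} (ha : a ∈ D) (hb : b ∈ D)
    (hua : ∃ u, OddAdj D a u) (hub : ∃ u, OddAdj D b u)
    (hne : elemComponentOf (OddAdj D) D a ≠ elemComponentOf (OddAdj D) D b) :
    a * b * a⁻¹ * b⁻¹ ∈ Subgroup.closure (Iso D) := by
  have hinva := invol_mul hD ha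
  have hinvb := invol_mul hD hb
  have hsame : ¬ Relation.ReflTransGen (OddAdj D) a b := by
    intro h
    apply hne
    ext c
    constructor
    · rintro ⟨hc, h2⟩
      exact ⟨hc, (comp_symm h).trans h2⟩
    · rintro ⟨hc, h2⟩
      exact ⟨hc, h.trans h2⟩
  rw [invol_inv hD ha, invol_inv hD hb]
  rcases hD.pair a ha b hb with h | h | h
  · have e : a * b * a * b = 1 := by
      calc a * b * a * b = a * (b * a) * b := by group
        _ = a * (a * b) * b := by rw [← h]
        _ = (a * a) * (b * b) := by group
        _ = 1 := by rw [hinva, hinvb, one_mul]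
    rw [e]
    exact Subgroup.one_mem _
  · exfalso
    by_cases hab : a = b
    · rw [hab] at hsame
      exact hsame Relation.ReflTransGen.refl
    · exact hsame (Relation.ReflTransGen.single ⟨ha, hb, hab, h⟩)
  · set z := (a * b) ^ 2 with hz
    have hzD : z ∈ D := h.2
    have e : a * b * a * b = z := by rw [hz, pow_two]; group
    rw [e]
    apply Subgroup.subset_closure
    have h4 : (a * b) ^ 4 = 1 := by
      rw [← h.1]; exact pow_orderOf_eq_one _
    have hz1 : z ≠ 1 := by
      intro h1
      have := orderOf_dvd_of_pow_eq_one h1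
      rw [h.1] at this
      exact absurd this (by decide)
    have hzinv : z⁻¹ = z := invol_inv hD hzD
    have hba : b * a * b * a = z := by
      rw [← hzinv, hz, pow_two, _root_.mul_inv_rev, _root_.mul_inv_rev, invol_inv hD ha, invol_inv hD hb]
      group
    have hab' : a * b * a * b = z := e
    have hza : z * a = a * z := by
      calc z * a = (a * b * a * b) * a := by rw [hab']
        _ = a * (b * a * b * a) := by group
        _ = a * z := by rw [hba]
    have hzb : z * b = b * z := by
      calc z * b = (b * a * b * a) * b := by rw [hba]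
        _ = b * (a * b * a * b) := by group
        _ = b * z := by rw [hab']
    have hza' : z * a ∈ D := by
      have e1 : z * a = b * a * b⁻¹ := by
        rw [invol_inv hD hb, ← hba]
        calc b * a * b * a * a = b * a * b * (a * a) := by group
          _ = b * a * b := by rw [hinva, mul_one]
      rw [e1]
      exact hD.conj_mem a ha b
    have hzb' : z * b ∈ D := by
      have e1 : z * b = a * b * a⁻¹ := by
        rw [invol_inv hD ha, ← hab']
        calc a * b * a * b * b = a * b * a * (b * b) := by group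
          _ = a * b * a := by rw [hinvb, mul_one]
      rw [e1]
      exact hD.conj_mem b hb a
    have hzne : z ≠ a := by
      intro h1
      rw [h1] at hab'
      have h2 : b * a * b = 1 := by
        have : a * (b * a * b) = a * 1 := by
          rw [mul_one]
          calc a * (b * a * b) = a * b * a * b := by group
            _ = a := hab'
        exact mul_left_cancel this
      have h3 : a = 1 := by
        have h4 : b * (b * a * b) * b = (b * b) * a * (b * b) := by group
        rw [h2, mul_one, hinvb, one_mul, mul_one] at h4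
        exact h4.symm
      have := hD.orderOf_eq a ha
      rw [h3, orderOf_one] at this
      omega
    have hzne' : z ≠ b := by
      intro h1
      rw [h1] at hba
      have h2 : a * b * a = 1 := by
        have : b * (a * b * a) = b * 1 := by
          rw [mul_one]
          calc b * (a * b * a) = b * a * b * a := by group
            _ = b := hba
        exact mul_left_cancel this
      have h3 : b = 1 := by
        have h4 : a * (a * b * a) * a = (a * a) * b * (a * a) := by group
        rw [h2, mul_one, hinva, one_mul, mul_one] at h4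
        exact h4.symm
      have := hD.orderOf_eq b hb
      rw [h3, orderOf_one] at this
      omega
    have h1 := line_comp hD ha hua (e := z) ⟨⟨hzD, hza, hzne⟩, hza'⟩
    have h2 := line_comp hD hb hub (e := z) ⟨⟨hzD, hzb, hzne'⟩, hzb'⟩
    rcases h1 with h1 | h1
    · rcases h2 with h2 | h2
      · exfalso
        exact hsame (h1.2.trans (comp_symm h2.2))
      · exact h2
    · exact h1

section finiteMain

variable [Finite G]

theorem s5045_main (hD : IsRootInvolutionSet D) :
    (∀ w ∈ {w | IsIsolatedElem (OddAdj D) D w}, ∀ g : G, g * w * g⁻¹ ∈ {w | IsIsolatedElem (OddAdj D) D w}) ∧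
    (Subgroup.closure {w | IsIsolatedElem (OddAdj D) D w}).Normal ∧
    IsPGroup 2 ↥(Subgroup.closure {w | IsIsolatedElem (OddAdj D) D w}) ∧
    (Subgroup.closure {w | IsIsolatedElem (OddAdj D) D w} : Set G) ∩ D = {w | IsIsolatedElem (OddAdj D) D w} ∧
    (∀ a ∈ D, ∀ b ∈ D, (∃ a' ∈ elemComponentOf (OddAdj D) D a, a' ≠ a) →
      (∃ b' ∈ elemComponentOf (OddAdj D) D b, b' ≠ b) →
      elemComponentOf (OddAdj D) D a ≠ elemComponentOf (OddAdj D) D b →
        a * b * a⁻¹ * b⁻¹ ∈ Subgroup.closure {w | IsIsolatedElem (OddAdj D) D w}) ∧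
    (∀ a ∈ D, (∃ a' ∈ elemComponentOf (OddAdj D) D a, a' ≠ a) →
      productPartners D a ⊆ elemComponentOf (OddAdj D) D a ∪ {w | IsIsolatedElem (OddAdj D) D w}) := by
  refine ⟨fun w hw g => iso_conj hD hw g, iso_closure_normal hD, iso_two_group hD, iso_inter hD, ?_, ?_⟩
  · rintro a ha b hb ⟨a', ha', hne⟩ ⟨b', hb', hne'⟩ hcomp
    exact comm_iso_across hD ha hb (exists_neighbor_of_comp ha' hne) (exists_neighbor_of_comp hb' hne') hcomp
  · rintro a ha ⟨a', ha', hne⟩ e he
    exact line_comp hD ha (exists_neighbor_of_comp ha' hne) he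

end finiteMain

end Cfsg.Agent.RootSub
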