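import Cfsg.Agent.RootSub.RootInv
import Cfsg.Agent.RootSub.Basic
import Cfsg.Prelude.Def_QuasithinSetup

set_option autoImplicit false

namespace Cfsg.Agent.RootSub

open Cfsg

variable {G : Type*} [Group G] {D : Set G}

/-- Members with odd product are conjugate. -/
lemma conj_of_oddAdj (hD : IsRootInvolutionSet D) {a b : G} (h : OddAdj D a b) : ∃ g : G, b = g * a * g⁻¹ := by
  obtain ⟨ha, hb, _, k, hk⟩ := h
  have hinva := invol_inv hD ha
  have hinvb := invol_inv hD hb
  have hma := invol_mul hD ha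
  have hmb := invol_mul hD hb
  set r := a * b with hr
  have hconj : ∀ i : ℕ, a * r ^ i * a = (r⁻¹) ^ i := by
    intro i
    have h1 : a * r * a⁻¹ = r⁻¹ := by
      rw [hr, hinva, _root_.mul_inv_rev, hinva, hinvb, ← mul_assoc, hma, one_mul]
    have h2 := conj_pow (a := a) (b := r) (i := i)
    rw [h1, hinva] at h2
    exact h2.symm
  refine ⟨r ^ k, ?_⟩
  have hrn : r ^ (2 * k + 1) = 1 := by
    rw [← hk]; exact pow_orderOf_eq_one r
  have h2k : r ^ k * r ^ k = r⁻¹ := by
    apply eq_inv_of_mul_eq_one_left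
    rw [← pow_add, ← pow_succ, show k + k + 1 = 2 * k + 1 by omega, hrn]
  have e1 : a * (r ^ k)⁻¹ = r ^ k * a := by
    have h3 := hconj k
    rw [inv_pow] at h3
    have h4 : a * r ^ k * a = (r ^ k)⁻¹ := h3
    rw [← h4]
    calc a * (a * r ^ k * a) = (a * a) * r ^ k * a := by group
      _ = r ^ k * a := by rw [hma, one_mul]
  calc b = r⁻¹ * a := by
        rw [hr, _root_.mul_inv_rev, hinva, hinvb, mul_assoc, hma, mul_one]
    _ = r ^ k * (r ^ k * a) := by rw [← mul_assoc, h2k]
    _ = r ^ k * (a * (r ^ k)⁻¹) := by rw [e1]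
    _ = _ := by group

lemma class_of_connected (hD : IsRootInvolutionSet D) (hc : IsConnectedSet (OddAdj D) D) {a b : G} (ha : a ∈ D) (hb : b ∈ D) :
    ∃ g : G, b = g * a * g⁻¹ := by
  have h := hc a ha b hb
  induction h with
  | refl => exact ⟨1, by simp⟩
  | tail _ hbc ih =>
    obtain ⟨g, rfl⟩ := ih hbc.1
    obtain ⟨g', rfl⟩ := conj_of_oddAdj hD hbc
    exact ⟨g' * g, by group⟩

lemma neighbor_of_ne (hc : IsConnectedSet (OddAdj D) D) {a b : G} (ha : a ∈ D) (hb : b ∈ D) (hne : a ≠ b) :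
    ∃ u, OddAdj D a u :=
  exists_neighbor_of_comp (a' := b) ⟨hb, hc a ha b hb⟩ hne.symm

/-- A line through `a`. -/
structure OnLine (D : Set G) (a b : G) : Prop where
  ha : a ∈ D
  hb : b ∈ D
  hab : a * b ∈ D
  comm : a * b = b * a

lemma onLine_conj (hD : IsRootInvolutionSet D) {a b : G} (h : OnLine D a b) (g : G) :
    OnLine D (g * a * g⁻¹) (g * b * g⁻¹) := by
  refine ⟨hD.conj_mem a h.ha g, hD.conj_mem b h.hb g, ?_, ?_⟩
  · have e : g * a * g⁻¹ * (g * b * g⁻¹) = g * (a * b) * g⁻¹ := by group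
    rw [e]
    exact hD.conj_mem _ h.hab g
  · calc g * a * g⁻¹ * (g * b * g⁻¹) = g * (a * b) * g⁻¹ := by group
      _ = g * (b * a) * g⁻¹ := by rw [h.comm]
      _ = _ := by group

/-- The two-fold power in a quotient. -/
lemma not_odd_of_image {N : Subgroup G} [N.Normal] {x y : G} (hxy : (x : G ⧸ N) = (y : G ⧸ N)) (hy : y * y = 1)
    (hyN : y ∉ N) : ¬ Odd (orderOf x) := by
  rintro ⟨k, hk⟩
  have h1 : x ^ (2 * k + 1) = 1 := by
    rw [← hk]; exact pow_orderOf_eq_one x
  have h2 : ((y : G ⧸ N)) ^ (2 * k + 1) = 1 := by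
    rw [← hxy, ← QuotientGroup.mk_pow, h1]
    rfl
  have h3 : ((y : G ⧸ N)) ^ 2 = 1 := by
    rw [← QuotientGroup.mk_pow, pow_two, hy]
    rfl
  have h4 : ((y : G ⧸ N)) = 1 := by
    rw [pow_succ, pow_mul, h3, one_pow, one_mul] at h2
    exact h2
  exact hyN ((QuotientGroup.eq_one_iff y).mp h4)

/-- The key commuting statement. -/
lemma comm_conj_of_normal (hD : IsRootInvolutionSet D) {N : Subgroup G} (hN : N.Normal) (hND : ∀ d ∈ D, d ∉ N) {a b : G}
    (hl : OnLine D a b) {n : G} (hn : n ∈ N) : a * (n * a * n⁻¹) = (n * a * n⁻¹) * a := by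
  have hma := invol_mul hD hl.ha
  have hmb := invol_mul hD hl.hb
  have hinva := invol_inv hD hl.ha
  set u := n * a * n⁻¹ with hu
  have huD : u ∈ D := hD.conj_mem a hl.ha n
  set e := n * b * n⁻¹ with he
  set f := n * (a * b) * n⁻¹ with hf
  have heD : e ∈ D := hD.conj_mem b hl.hb n
  have hfD : f ∈ D := hD.conj_mem _ hl.hab n
  have hef : e * f = u := by
    have e1 : b * (a * b) = a := by
      calc b * (a * b) = (b * a) * b := by group
        _ = (a * b) * b := by rw [hl.comm]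
        _ = a := by rw [mul_assoc, hmb, mul_one]
    calc e * f = n * (b * (a * b)) * n⁻¹ := by rw [he, hf]; group
      _ = u := by rw [e1]
  have hfe : f * e = u := by
    have e1 : (a * b) * b = a := by
      rw [mul_assoc, hmb, mul_one]
    calc f * e = n * ((a * b) * b) * n⁻¹ := by rw [he, hf]; group
      _ = u := by rw [e1]
  have := hN
  have hnq : ((n : G) : G ⧸ N) = 1 := (QuotientGroup.eq_one_iff n).mpr hn
  have hae : ((a * e : G) : G ⧸ N) = ((a * b : G) : G ⧸ N) := by
    rw [he, QuotientGroup.mk_mul, QuotientGroup.mk_mul, QuotientGroup.mk_mul, QuotientGroup.mk_mul, hnq, QuotientGroup.mk_inv, hnq]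
    simp
  have haf : ((a * f : G) : G ⧸ N) = ((b : G) : G ⧸ N) := by
    have e2 : a * (a * b) = b := by rw [← mul_assoc, hma, one_mul]
    have e3 : ((a * f : G) : G ⧸ N) = ((a * (a * b) : G) : G ⧸ N) := by
      rw [hf]
      simp only [QuotientGroup.mk_mul, QuotientGroup.mk_inv, hnq]
      simp
    rw [e3, e2]
  have hab2 : (a * b) * (a * b) = 1 := invol_mul hD hl.hab
  have hnot1 : ¬ Odd (orderOf (a * e)) := not_odd_of_image hae hab2 (hND _ hl.hab)
  have hnot2 : ¬ Odd (orderOf (a * f)) := not_odd_of_image haf hmb (hND _ hl.hb)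
  rcases hD.pair a hl.ha u huD with h | h | h
  · exact h
  · by_cases hau : a = u
    · rw [← hau]
    · exfalso
      have := line_lemma hD hl.ha heD hfD (by rw [hef, hfe]) (by rw [hef]; exact huD) (by rw [hef]; exact h)
        (by rw [hef]; exact hau)
      rcases this with h1 | h1
      · exact hnot1 h1.2.2.2
      · exact hnot2 h1.2.2.2
  · exfalso
    apply hND _ h.2
    have h3 : a * u ∈ N := by
      have e3 : a * u = (a * n * a⁻¹) * n⁻¹ := by rw [hu, hinva]; group
      rw [e3]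
      exact N.mul_mem (hN.conj_mem n hn a) (N.inv_mem hn)
    exact N.pow_mem h3 2

section finiteMain

variable [Finite G]

/-- The orbit group. -/
def orbGrp (N : Subgroup G) (a : G) : Subgroup G := Subgroup.closure {x | ∃ n ∈ N, x = n * a * n⁻¹}

lemma orbGrp_two (hD : IsRootInvolutionSet D) {N : Subgroup G} (hN : N.Normal) (hND : ∀ d ∈ D, d ∉ N) {a b : G}
    (hl : OnLine D a b) : IsPGroup 2 (orbGrp N a) := by
  have hcomm : ∀ x ∈ {x | ∃ n ∈ N, x = n * a * n⁻¹}, ∀ y ∈ {x | ∃ n ∈ N, x = n * a * n⁻¹}, x * y = y * x := by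
    rintro _ ⟨n, hn, rfl⟩ _ ⟨m, hm, rfl⟩
    have h1 := comm_conj_of_normal hD hN hND hl (n := n⁻¹ * m) (N.mul_mem (N.inv_mem hn) hm)
    have e : n * a * n⁻¹ * (m * a * m⁻¹) = n * (a * ((n⁻¹ * m) * a * (n⁻¹ * m)⁻¹)) * n⁻¹ := by group
    have e' : m * a * m⁻¹ * (n * a * n⁻¹) = n * (((n⁻¹ * m) * a * (n⁻¹ * m)⁻¹) * a) * n⁻¹ := by group
    rw [e, e', h1]
  have hgen2 : ∀ x ∈ {x | ∃ n ∈ N, x = n * a * n⁻¹}, x * x = 1 := by
    rintro _ ⟨n, _, rfl⟩
    exact invol_mul hD (hD.conj_mem a hl.ha n)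
  have hc2 : ∀ x ∈ orbGrp N a, ∀ y ∈ orbGrp N a, x * y = y * x := by
    intro x hx y hy
    exact comm_of_isMulCommutative (Subgroup.isMulCommutative_closure hcomm) hx hy
  have hsq : ∀ x ∈ orbGrp N a, x * x = 1 := by
    intro x hx
    induction hx using Subgroup.closure_induction with
    | mem y hy => exact hgen2 y hy
    | one => simp
    | mul x y hx' hy' hx2 hy2 =>
      have hc := hc2 x hx' y hy'
      calc x * y * (x * y) = x * (y * x) * y := by group
        _ = x * (x * y) * y := by rw [hc]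
        _ = (x * x) * (y * y) := by group
        _ = 1 := by rw [hx2, hy2, one_mul]
    | inv x hx' hx2 =>
      have e : x⁻¹ = x := inv_eq_of_mul_eq_one_left hx2
      rw [e]
      exact hx2
  rintro ⟨x, hx⟩
  refine ⟨1, Subtype.ext ?_⟩
  simp only [pow_one, Subgroup.coe_pow, Subgroup.coe_one]
  rw [pow_two]
  exact hsq x hx

/-- A 2-subgroup of a normal subgroup `N` normalised by `N` lies in `O₂(G)`. -/
lemma le_core_of_normalized {N Y : Subgroup G} (hN : N.Normal) (hYN : Y ≤ N)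
    (hNY : N ≤ Subgroup.normalizer (Y : Set G)) (hY : IsPGroup 2 Y) : Y ≤ pCore 2 G := by
  have : Fact (Nat.Prime 2) := ⟨Nat.prime_two⟩
  let Ω : Set (Subgroup G) := {Y | Y ≤ N ∧ N ≤ Subgroup.normalizer (Y : Set G) ∧ IsPGroup 2 Y}
  have hconj : ∀ Y ∈ Ω, ∀ g : G, Y.map (MulAut.conj g).toMonoidHom ∈ Ω := by
    rintro Y ⟨h1, h2, h3⟩ g
    refine ⟨?_, ?_, h3.map _⟩
    · rintro _ ⟨y, hy, rfl⟩
      exact hN.conj_mem y (h1 hy) g
    · intro m hm
      rw [Subgroup.mem_normalizer_iff]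
      have hm' : g⁻¹ * m * g ∈ N := by
        have := hN.conj_mem m hm g⁻¹
        simpa using this
      have hnorm := Subgroup.mem_normalizer_iff.mp (h2 hm')
      intro x
      rw [show (x ∈ Y.map (MulAut.conj g).toMonoidHom) = (x ∈ Cfsg.conjBy Y g) from rfl,
        show (m * x * m⁻¹ ∈ Y.map (MulAut.conj g).toMonoidHom) = (m * x * m⁻¹ ∈ Cfsg.conjBy Y g) from rfl,
        mem_conj, mem_conj]
      have e : g⁻¹ * (m * x * m⁻¹) * g = (g⁻¹ * m * g) * (g⁻¹ * x * g) * (g⁻¹ * m * g)⁻¹ := by group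
      rw [e]
      exact hnorm _
  have hpair : ∀ Y ∈ Ω, ∀ Z ∈ Ω, IsPGroup 2 ↥(Y ⊔ Z) := by
    rintro Y ⟨_, h2, h3⟩ Z ⟨h1', _, h3'⟩
    exact h3.to_sup_of_normal_left' h3' (h1'.trans h2)
  have hS := Lib.BaerSuzuki.isPGroup_sSup (p := 2) Ω hconj hpair
  have hnorm : (sSup Ω).Normal := by
    constructor
    intro n hn g
    have hle : sSup Ω ≤ (sSup Ω).comap (MulAut.conj g).toMonoidHom := by
      apply sSup_le
      intro Y hY
      rw [← Subgroup.map_le_iff_le_comap]
      exact le_sSup (hconj Y hY g)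
    exact hle hn
  have h1 : Y ≤ sSup Ω := le_sSup ⟨hYN, hNY, hY⟩
  exact h1.trans (Lib.PCore.le_pCore hnorm hS)

lemma comm_in_core (hD : IsRootInvolutionSet D) {N : Subgroup G} (hN : N.Normal) (hND : ∀ d ∈ D, d ∉ N) {a b : G}
    (hl : OnLine D a b) {n : G} (hn : n ∈ N) : a * n * a⁻¹ * n⁻¹ ∈ pCore 2 G := by
  have hinv := invol_inv hD hl.ha
  have h1 := orbGrp_two hD hN hND hl
  let Y := orbGrp N a ⊓ N
  have hYle : Y ≤ orbGrp N a := inf_le_left
  have hY2 : IsPGroup 2 Y := h1.to_le hYle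
  have hNY : N ≤ Subgroup.normalizer (Y : Set G) := by
    intro m hm
    have key : ∀ m ∈ N, ∀ x ∈ orbGrp N a, m * x * m⁻¹ ∈ orbGrp N a := by
      intro m hm x hx
      induction hx using Subgroup.closure_induction with
      | mem x hx =>
        obtain ⟨n, hn, rfl⟩ := hx
        apply Subgroup.subset_closure
        exact ⟨m * n, N.mul_mem hm hn, by group⟩
      | one => simp [Subgroup.one_mem]
      | mul x y _ _ hx hy =>
        have e : m * (x * y) * m⁻¹ = (m * x * m⁻¹) * (m * y * m⁻¹) := by group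
        rw [e]
        exact Subgroup.mul_mem _ hx hy
      | inv x _ hx =>
        have e : m * x⁻¹ * m⁻¹ = (m * x * m⁻¹)⁻¹ := by group
        rw [e]
        exact Subgroup.inv_mem _ hx
    rw [Subgroup.mem_normalizer_iff]
    intro x
    constructor
    · rintro ⟨h2, h3⟩
      exact ⟨key m hm x h2, N.mul_mem (N.mul_mem hm h3) (N.inv_mem hm)⟩
    · rintro ⟨h2, h3⟩
      constructor
      · have := key m⁻¹ (N.inv_mem hm) _ h2
        have e : m⁻¹ * (m * x * m⁻¹) * m⁻¹⁻¹ = x := by group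
        rwa [e] at this
      · have h4 : m⁻¹ * (m * x * m⁻¹) * m = x := by group
        rw [← h4]
        exact N.mul_mem (N.mul_mem (N.inv_mem hm) h3) hm
  have hle := le_core_of_normalized hN (inf_le_right : Y ≤ N) hNY hY2
  apply hle
  have e : a * n * a⁻¹ * n⁻¹ = a * (n * a * n⁻¹) := by rw [hinv]; group
  constructor
  · rw [e]
    apply Subgroup.mul_mem
    · apply Subgroup.subset_closure
      exact ⟨1, N.one_mem, by simp⟩
    · apply Subgroup.subset_closure
      exact ⟨n, hn, rfl⟩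
  · have e2 : a * n * a⁻¹ * n⁻¹ = (a * n * a⁻¹) * n⁻¹ := by group
    rw [e2]
    exact N.mul_mem (hN.conj_mem n hn a) (N.inv_mem hn)

variable (hD : IsRootInvolutionSet D) (hc : IsConnectedSet (OddAdj D) D)
  (hDD : (D ∩ commutingProducts D).Nonempty)

include hD hc hDD in
lemma line_through {a : G} (ha : a ∈ D) : ∃ b, OnLine D a b := by
  obtain ⟨x, hx, a₀, ha₀, b₀, hb₀, hcomm, _, rfl⟩ := hDD
  have hl : OnLine D a₀ b₀ := ⟨ha₀, hb₀, hx, hcomm⟩
  obtain ⟨g, rfl⟩ := class_of_connected hD hc ha₀ ha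
  exact ⟨_, onLine_conj hD hl g⟩

include hD in
lemma onLine_ne {a b : G} (hl : OnLine D a b) : a ≠ b := by
  rintro rfl
  have := hD.orderOf_eq _ hl.hab
  rw [invol_mul hD hl.ha, orderOf_one] at this
  omega

include hD hc in
lemma normal_eq_top {N : Subgroup G} (hN : N.Normal) {d : G} (hd : d ∈ D) (hdN : d ∈ N) : N = ⊤ := by
  rw [eq_top_iff, ← hD.generates, Subgroup.closure_le]
  intro a ha
  obtain ⟨g, rfl⟩ := class_of_connected hD hc hd ha
  exact hN.conj_mem d hdN g

include hD hc hDD in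
lemma le_twoZ {N : Subgroup G} (hN : N.Normal) (hND : ∀ d ∈ D, d ∉ N) : N ≤ twoZCore G := by
  intro n hn
  show QuotientGroup.mk' (pCore 2 G) n ∈ Subgroup.center (G ⧸ pCore 2 G)
  rw [Subgroup.mem_center_iff]
  intro x
  obtain ⟨g, rfl⟩ := QuotientGroup.mk'_surjective (pCore 2 G) x
  have hg : g ∈ Subgroup.closure D := by
    rw [hD.generates]; trivial
  induction hg using Subgroup.closure_induction with
  | mem a ha =>
    obtain ⟨b, hl⟩ := line_through hD hc hDD ha
    have h1 := comm_in_core hD hN hND hl hn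
    have h2 : (QuotientGroup.mk' (pCore 2 G)) (a * n * a⁻¹ * n⁻¹) = 1 := by
      rw [QuotientGroup.mk'_apply]
      exact (QuotientGroup.eq_one_iff _).mpr h1
    simp only [map_mul, map_inv] at h2
    have h3 : (QuotientGroup.mk' (pCore 2 G)) a * (QuotientGroup.mk' (pCore 2 G)) n *
        ((QuotientGroup.mk' (pCore 2 G)) a)⁻¹ = (QuotientGroup.mk' (pCore 2 G)) n := mul_inv_eq_one.mp h2
    exact mul_inv_eq_iff_eq_mul.mp h3
  | one => simp
  | mul x y _ _ hx hy =>
    rw [map_mul]
    calc _ = QuotientGroup.mk' (pCore 2 G) x * (QuotientGroup.mk' (pCore 2 G) y * QuotientGroup.mk' (pCore 2 G) n) := by group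
      _ = QuotientGroup.mk' (pCore 2 G) x * (QuotientGroup.mk' (pCore 2 G) n * QuotientGroup.mk' (pCore 2 G) y) := by rw [hy]
      _ = (QuotientGroup.mk' (pCore 2 G) x * QuotientGroup.mk' (pCore 2 G) n) * QuotientGroup.mk' (pCore 2 G) y := by group
      _ = (QuotientGroup.mk' (pCore 2 G) n * QuotientGroup.mk' (pCore 2 G) x) * QuotientGroup.mk' (pCore 2 G) y := by rw [hx]
      _ = _ := by group
  | inv x _ hx =>
    rw [map_inv]
    exact (Commute.inv_left (show Commute (QuotientGroup.mk' (pCore 2 G) x) (QuotientGroup.mk' (pCore 2 G) n) from hx))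

include hD hc hDD in
lemma not_mem_twoZ {a : G} (ha : a ∈ D) : a ∉ twoZCore G := by
  intro hT
  obtain ⟨b, hl⟩ := line_through hD hc hDD ha
  obtain ⟨u, hu⟩ := neighbor_of_ne hc ha hl.hb (onLine_ne hD hl)
  have h1 : QuotientGroup.mk' (pCore 2 G) a ∈ Subgroup.center (G ⧸ pCore 2 G) := hT
  rw [Subgroup.mem_center_iff] at h1
  have h2 := h1 (QuotientGroup.mk' (pCore 2 G) u)
  have hinva := invol_inv hD ha
  have hinvu := invol_inv hD hu.2.1
  have h3 : (a * u) ^ 2 ∈ pCore 2 G := by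
    have e : (a * u) ^ 2 = a * u * a⁻¹ * u⁻¹ := by
      rw [pow_two, hinva, hinvu]
      group
    have h4 : (a * u * a⁻¹ * u⁻¹ : G) = (u * a)⁻¹⁻¹ * ((u * a)⁻¹ * (a * u)) * (a⁻¹ * u⁻¹) := by group
    have h5 : ((u * a)⁻¹ * (a * u)) ∈ pCore 2 G := by
      apply (QuotientGroup.eq (s := pCore 2 G)).mp
      exact (show ((u * a : G) : G ⧸ pCore 2 G) = ((a * u : G) : G ⧸ pCore 2 G) from by
        simpa using h2)
    have h6 : (a * u * a⁻¹ * u⁻¹ : G) = (u * a) * ((u * a)⁻¹ * (a * u)) * (u * a)⁻¹ := by group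
    rw [e, h6]
    exact (Lib.PCore.pCore_normal 2).conj_mem _ h5 _
  have h7 : Odd (orderOf ((a * u) ^ 2)) := by
    have hd2 : orderOf ((a * u) ^ 2) ∣ orderOf (a * u) := orderOf_dvd_of_pow_eq_one (by
      rw [← pow_mul, mul_comm, pow_mul, pow_orderOf_eq_one, one_pow])
    exact Odd.of_dvd_nat hu.2.2.2 hd2
  have h8 := odd_in_core h3 h7
  have h9 : orderOf (a * u) ∣ 2 := orderOf_dvd_of_pow_eq_one h8
  have h10 : orderOf (a * u) = 1 := by
    rcases (Nat.dvd_prime Nat.prime_two).mp h9 with h | h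
    · exact h
    · have := hu.2.2.2
      rw [h] at this
      exact absurd this (by decide)
  have h11 : a * u = 1 := orderOf_eq_one_iff.mp h10
  apply hu.2.2.1
  have := eq_inv_of_mul_eq_one_left h11
  rwa [hinvu] at this

include hD hc hDD in
lemma simple_quot : IsSimpleGroup (G ⧸ twoZCore G) := by
  obtain ⟨x, hx, _⟩ := hDD
  have hnt : Nontrivial (G ⧸ twoZCore G) := by
    rw [QuotientGroup.nontrivial_iff]
    intro h
    apply not_mem_twoZ hD hc ⟨x, hx, ‹_›⟩ hx
    rw [h]; trivial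
  refine ⟨?_⟩
  intro H hH
  have hN : (H.comap (QuotientGroup.mk' (twoZCore G))).Normal := hH.comap _
  by_cases hd : ∃ d ∈ D, d ∈ H.comap (QuotientGroup.mk' (twoZCore G))
  · right
    obtain ⟨d, hd, hdN⟩ := hd
    have h1 := normal_eq_top hD hc hN hd hdN
    rw [eq_top_iff]
    intro y _
    obtain ⟨g, rfl⟩ := QuotientGroup.mk'_surjective (twoZCore G) y
    have : g ∈ H.comap (QuotientGroup.mk' (twoZCore G)) := by rw [h1]; trivial
    exact this
  · left
    push Not at hd
    have h1 := le_twoZ hD hc ⟨x, hx, ‹_›⟩ hN hd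
    rw [eq_bot_iff]
    intro y hy
    obtain ⟨g, rfl⟩ := QuotientGroup.mk'_surjective (twoZCore G) y
    have h2 : g ∈ twoZCore G := h1 hy
    rw [Subgroup.mem_bot]
    exact (QuotientGroup.eq_one_iff g).mpr h2

lemma twoZ_solvable : Group.IsSolvable (twoZCore G) := by
  have : Fact (Nat.Prime 2) := ⟨Nat.prime_two⟩
  have hQT : pCore 2 G ≤ twoZCore G := by
    intro x hx
    show QuotientGroup.mk' (pCore 2 G) x ∈ Subgroup.center (G ⧸ pCore 2 G)
    have : QuotientGroup.mk' (pCore 2 G) x = 1 := (QuotientGroup.eq_one_iff x).mpr hx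
    rw [this]
    exact Subgroup.one_mem _
  let f : pCore 2 G →* twoZCore G := Subgroup.inclusion hQT
  let φ : twoZCore G →* Subgroup.center (G ⧸ pCore 2 G) :=
    ((QuotientGroup.mk' (pCore 2 G)).comp (twoZCore G).subtype).codRestrict _ (fun x => x.2)
  have h1 : Group.IsSolvable (pCore 2 G) := by
    have := (Lib.PCore.isPGroup_pCore (G := G) 2).isNilpotent
    infer_instance
  have h2 : φ.ker ≤ f.range := by
    intro x hx
    have h3 : QuotientGroup.mk' (pCore 2 G) (x : G) = 1 := congrArg Subtype.val (MonoidHom.mem_ker.mp hx)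
    have h4 : (x : G) ∈ pCore 2 G := (QuotientGroup.eq_one_iff _).mp h3
    exact ⟨⟨x, h4⟩, rfl⟩
  have h5 : Group.IsSolvable (Subgroup.center (G ⧸ pCore 2 G)) :=
    Group.isSolvable_of_comm (fun a b => Subtype.ext (Subgroup.mem_center_iff.mp b.2 a.1))
  exact Group.isSolvable_of_ker_le_range f φ h2

include hD hc hDD in
theorem s5048_main : solvableRadical G = twoZCore G ∧ IsSimpleGroup (G ⧸ twoZCore G) := by
  have hsimple := simple_quot hD hc hDD
  refine ⟨?_, hsimple⟩
  apply le_antisymm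
  · apply sSup_le
    rintro N ⟨hN, hS⟩
    by_cases hd : ∃ d ∈ D, d ∈ N
    · exfalso
      obtain ⟨d, hd, hdN⟩ := hd
      have h1 := normal_eq_top hD hc hN hd hdN
      subst h1
      have hGs : Group.IsSolvable G := by
        exact Group.isSolvable_of_isSolvable_injective (f := (Subgroup.topEquiv (G := G)).symm.toMonoidHom) (MulEquiv.injective _)
      have hQs : Group.IsSolvable (G ⧸ twoZCore G) := inferInstance
      have hcomm := IsSimpleGroup.comm_iff_isSolvable.mpr hQs
      obtain ⟨b, hl⟩ := line_through hD hc hDD hd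
      have hbar : ∀ c ∈ D, ((c : G) : G ⧸ twoZCore G) ≠ 1 := fun c hc' h =>
        not_mem_twoZ hD hc hDD hc' ((QuotientGroup.eq_one_iff c).mp h)
      -- the cyclic group generated by the image of `d`
      let a' : G ⧸ twoZCore G := (d : G)
      have hnorm : (Subgroup.zpowers a').Normal := by
        constructor
        intro n hn g
        have : g * n * g⁻¹ = n := by
          rw [hcomm g n]; group
        rw [this]; exact hn
      rcases IsSimpleGroup.eq_bot_or_eq_top_of_normal _ hnorm with h | h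
      · exact hbar d hd (Subgroup.zpowers_eq_bot.mp h)
      · have h2 : ((b : G) : G ⧸ twoZCore G) ∈ Subgroup.zpowers a' := by rw [h]; trivial
        obtain ⟨k, hk⟩ := h2
        have hk' : a' ^ k = ((b : G) : G ⧸ twoZCore G) := hk
        have hsq : a' * a' = 1 := by
          show ((d : G) : G ⧸ twoZCore G) * ((d : G) : G ⧸ twoZCore G) = 1
          rw [← QuotientGroup.mk_mul, invol_mul hD hd]
          rfl
        have h3 : a' ^ k = 1 ∨ a' ^ k = a' := by
          have ha2 : a' ^ (2 : ℤ) = 1 := by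
            rw [zpow_two]; exact hsq
          rcases Int.even_or_odd' k with ⟨j, rfl | rfl⟩
          · left; rw [zpow_mul, ha2, one_zpow]
          · right; rw [zpow_add, zpow_mul, ha2, one_zpow, one_mul, zpow_one]
        rcases h3 with h3 | h3
        · apply hbar b hl.hb
          rw [← hk']
          exact h3
        · apply hbar (d * b) hl.hab
          rw [QuotientGroup.mk_mul, ← hk', h3]
          exact hsq
    · push Not at hd
      exact le_twoZ hD hc hDD hN hd
  · exact le_sSup ⟨inferInstance, twoZ_solvable⟩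

end finiteMain

end Cfsg.Agent.RootSub
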