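import Cfsg.Agent.RootSub.RootInv2

set_option autoImplicit false

namespace Cfsg.Agent.RootSub

open Cfsg

variable {G : Type*} [Group G] {D : Set G}

/-! ### Elementary facts -/

lemma odd_sq_inj {x y : G} (hx : Odd (orderOf x)) (hy : Odd (orderOf y)) (h : x ^ 2 = y ^ 2) : x = y := by
  obtain ⟨k, hk⟩ : Odd (orderOf x * orderOf y) := hx.mul hy
  have h1 : x ^ (2 * k + 1) = 1 := by
    rw [← hk, pow_mul, pow_orderOf_eq_one, one_pow]
  have h2 : y ^ (2 * k + 1) = 1 := by
    rw [← hk, mul_comm, pow_mul, pow_orderOf_eq_one, one_pow]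
  calc x = x ^ (2 * k + 1) * x := by rw [h1, one_mul]
    _ = (x ^ 2) ^ (k + 1) := by rw [← pow_mul, ← pow_succ]; congr 1
    _ = (y ^ 2) ^ (k + 1) := by rw [h]
    _ = y ^ (2 * k + 1) * y := by rw [← pow_mul, ← pow_succ]; congr 1
    _ = y := by rw [h2, one_mul]

/-- Lemma Q. -/
lemma lemma_Q (hD : IsRootInvolutionSet D) {d p p' : G} (hd : d ∈ D) (hp : p ∈ D) (hp' : p' ∈ D)
    (h1 : Odd (orderOf (d * p))) (h2 : Odd (orderOf (d * p')))
    (hc : (p * p') * d = d * (p * p')) : p = p' := by
  have hmd := invol_mul hD hd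
  have hmp := invol_mul hD hp
  have hmp' := invol_mul hD hp'
  have key : d * (p * p') * d = p * p' := by
    rw [← hc, mul_assoc, hmd, mul_one]
  have h3 : p * d * p = p' * d * p' := by
    have h4 : (p * d * p) * (p' * d * p') = 1 := by
      calc (p * d * p) * (p' * d * p') = p * (d * (p * p') * d) * p' := by group
        _ = p * (p * p') * p' := by rw [key]
        _ = (p * p) * (p' * p') := by group
        _ = 1 := by rw [hmp, hmp', one_mul]
    have h5 : (p' * d * p') * (p' * d * p') = 1 := by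
      calc (p' * d * p') * (p' * d * p') = p' * d * (p' * p') * d * p' := by group
        _ = p' * (d * d) * p' := by rw [hmp']; group
        _ = 1 := by rw [hmd, mul_one, hmp']
    calc p * d * p = (p * d * p) * ((p' * d * p') * (p' * d * p')) := by rw [h5, mul_one]
      _ = ((p * d * p) * (p' * d * p')) * (p' * d * p') := by group
      _ = _ := by rw [h4, one_mul]
  have h6 : (p * d) ^ 2 = (p' * d) ^ 2 := by
    rw [pow_two, pow_two]
    calc p * d * (p * d) = (p * d * p) * d := by group
      _ = (p' * d * p') * d := by rw [h3]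
      _ = _ := by group
  have h7 := odd_sq_inj (by rw [order_comm]; exact h1) (by rw [order_comm]; exact h2) h6
  exact mul_right_cancel h7

lemma not_comm_of_odd (hD : IsRootInvolutionSet D) {a b : G} (h : OddAdj D a b) : a * b ≠ b * a := by
  intro hc
  have hma := invol_mul hD h.1
  have hmb := invol_mul hD h.2.1
  have h2 : (a * b) ^ 2 = 1 := by
    rw [pow_two]
    calc a * b * (a * b) = a * (b * a) * b := by group
      _ = a * (a * b) * b := by rw [← hc]
      _ = (a * a) * (b * b) := by group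
      _ = 1 := by rw [hma, hmb, one_mul]
  have h3 : orderOf (a * b) ∣ 2 := orderOf_dvd_of_pow_eq_one h2
  have h4 : orderOf (a * b) = 1 := by
    have := Nat.le_of_dvd (by norm_num) h3
    obtain ⟨k, hk⟩ := h.2.2.2
    omega
  have h5 : a * b = 1 := orderOf_eq_one_iff.mp h4
  apply h.2.2.1
  have := eq_inv_of_mul_eq_one_left h5
  rwa [invol_inv hD h.2.1] at this

/-- The trichotomy, with the `≠` in the odd case. -/
lemma trich (hD : IsRootInvolutionSet D) {a b : G} (ha : a ∈ D) (hb : b ∈ D) :
    a * b = b * a ∨ OddAdj D a b ∨ orderOf (a * b) = 4 := by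
  rcases hD.pair a ha b hb with h | h | h
  · exact Or.inl h
  · by_cases e : a = b
    · left; rw [e]
    · exact Or.inr (Or.inl ⟨ha, hb, e, h⟩)
  · exact Or.inr (Or.inr h.1)

lemma four_of_not (hD : IsRootInvolutionSet D) {a b : G} (ha : a ∈ D) (hb : b ∈ D) (h1 : a * b ≠ b * a)
    (h2 : ¬ OddAdj D a b) : orderOf (a * b) = 4 := by
  rcases trich hD ha hb with h | h | h
  · exact absurd h h1
  · exact absurd h h2
  · exact h

lemma not_comm_of_four (hD : IsRootInvolutionSet D) {a b : G} (ha : a ∈ D) (hb : b ∈ D) (h : orderOf (a * b) = 4) :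
    a * b ≠ b * a := by
  intro hc
  have hma := invol_mul hD ha
  have hmb := invol_mul hD hb
  have h2 : (a * b) ^ 2 = 1 := by
    rw [pow_two]
    calc a * b * (a * b) = a * (b * a) * b := by group
      _ = a * (a * b) * b := by rw [← hc]
      _ = (a * a) * (b * b) := by group
      _ = 1 := by rw [hma, hmb, one_mul]
  have := Nat.le_of_dvd (by norm_num) (orderOf_dvd_of_pow_eq_one h2)
  omega

lemma not_odd_of_four {D : Set G} {a b : G} (h : orderOf (a * b) = 4) : ¬ OddAdj D a b := by
  rintro ⟨_, _, _, h1⟩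
  rw [h] at h1
  exact absurd h1 (by decide)

lemma sq_mem_of_four (hD : IsRootInvolutionSet D) {a b : G} (ha : a ∈ D) (hb : b ∈ D) (h : orderOf (a * b) = 4) :
    (a * b) ^ 2 ∈ D := by
  rcases hD.pair a ha b hb with h1 | h1 | h1
  · exact absurd h1 (not_comm_of_four hD ha hb h)
  · rw [h] at h1
    exact absurd h1 (by decide)
  · exact h1.2

lemma sq_ne_one_of_four {a b : G} (h : orderOf (a * b) = 4) : (a * b) ^ 2 ≠ 1 := by
  intro h1
  have := Nat.le_of_dvd (by norm_num) (orderOf_dvd_of_pow_eq_one h1)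
  omega

/-- The identities in a dihedral group of order 8. -/
lemma four_rel {a b : G} (ha : a * a = 1) (hb : b * b = 1) (h : orderOf (a * b) = 4) :
    a * b * a * b * a = b * a * b := by
  have h4 : (a * b) ^ 4 = 1 := by rw [← h]; exact pow_orderOf_eq_one _
  have e1 : (a * b * a * b * a) * (b * a * b) = 1 := by
    rw [← h4]
    simp only [pow_succ, pow_zero, one_mul]
    group
  have e2 : (b * a * b) * (b * a * b) = 1 := by
    calc (b * a * b) * (b * a * b) = b * a * (b * b) * a * b := by group
      _ = b * (a * a) * b := by rw [hb]; group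
      _ = 1 := by rw [ha, mul_one, hb]
  calc a * b * a * b * a = (a * b * a * b * a) * ((b * a * b) * (b * a * b)) := by rw [e2, mul_one]
    _ = ((a * b * a * b * a) * (b * a * b)) * (b * a * b) := by group
    _ = _ := by rw [e1, one_mul]

lemma four_symm {a b : G} (h : orderOf (a * b) = 4) : orderOf (b * a) = 4 := by
  rw [order_comm]; exact h

/-- The square is symmetric. -/
lemma sq_symm {a b : G} (ha : a * a = 1) (hb : b * b = 1) (h : orderOf (a * b) = 4) : (a * b) ^ 2 = (b * a) ^ 2 := by
  have r := four_rel ha hb h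
  rw [pow_two, pow_two]
  calc a * b * (a * b) = a * b * a * b * a * a := by
        rw [mul_assoc (a * b * a * b) a a, ha]; group
    _ = b * a * b * a := by rw [r]
    _ = _ := by group

lemma sq_comm_left {a b : G} (ha : a * a = 1) (hb : b * b = 1) (h : orderOf (a * b) = 4) :
    (a * b) ^ 2 * a = a * (a * b) ^ 2 := by
  have r := four_rel ha hb h
  rw [pow_two]
  calc a * b * (a * b) * a = a * b * a * b * a := by group
    _ = b * a * b := r
    _ = (a * a) * (b * a * b) := by rw [ha, one_mul]
    _ = _ := by group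

lemma sq_comm_right {a b : G} (ha : a * a = 1) (hb : b * b = 1) (h : orderOf (a * b) = 4) :
    (a * b) ^ 2 * b = b * (a * b) ^ 2 := by
  rw [sq_symm ha hb h]
  exact sq_comm_left hb ha (four_symm h)

/-- `a * y = b a b` for `y = (ab)^2`. -/
lemma left_mul_sq {a b : G} (ha : a * a = 1) (h : True) : a * (a * b) ^ 2 = b * a * b := by
  rw [pow_two]
  calc a * (a * b * (a * b)) = (a * a) * b * a * b := by group
    _ = _ := by rw [ha, one_mul]

/-- `b * y = a b a` for `y = (ab)^2`. -/
lemma right_mul_sq {a b : G} (ha : a * a = 1) (hb : b * b = 1) (h : orderOf (a * b) = 4) :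
    b * (a * b) ^ 2 = a * b * a := by
  rw [sq_symm ha hb h]
  exact left_mul_sq hb trivial

/-- the two reflections of a dihedral group of order eight commute. -/
lemma comm_conj_of_four {a b : G} (ha : a * a = 1) (hb : b * b = 1) (h : orderOf (a * b) = 4) :
    a * (b * a * b) = (b * a * b) * a := by
  have e1 := left_mul_sq (b := b) ha trivial
  rw [← e1]
  have e2 := sq_comm_left ha hb h
  calc a * (a * (a * b) ^ 2) = a * ((a * b) ^ 2 * a) := by rw [e2]
    _ = _ := by group

lemma eq_conj_of_sq {y a b : G} (ha : a * a = 1) (hb : b * b = 1) (hy : (a * b) ^ 2 = y) : a * y = b * a * b := by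
  rw [← hy]
  exact left_mul_sq ha trivial

/-! ### Periodicity -/

/-- The data of the periodicity lemma. -/
def PV (D : Set G) (a u z : G) : Prop :=
  z ∈ D ∧ z ≠ a ∧ z * a = a * z ∧ z * a ∈ D ∧ orderOf (u * z) = 4

lemma pv_step (hD : IsRootInvolutionSet D) {a u z : G} (hau : OddAdj D a u) (hz : PV D a u z) :
    PV D u a ((u * z) ^ 2) := by
  obtain ⟨hzD, hza, hzc, hzm, h4⟩ := hz
  have ha := hau.1
  have hu := hau.2.1
  have hma := invol_mul hD ha
  have hmu := invol_mul hD hu
  have hmz := invol_mul hD hzD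
  set w := (u * z) ^ 2 with hw
  have hwD : w ∈ D := sq_mem_of_four hD hu hzD h4
  have hwu : w * u = u * w := sq_comm_left hmu hmz h4
  have hwz : w * z = z * w := sq_comm_right hmu hmz h4
  have hw1 : w ≠ 1 := sq_ne_one_of_four h4
  have huw : u * w = z * u * z := left_mul_sq hmu trivial
  have huwD : u * w ∈ D := by
    rw [huw]
    have := hD.conj_mem u hu z
    rwa [invol_inv hD hzD] at this
  have hmw := invol_mul hD hwD
  have hnc : a * u ≠ u * a := not_comm_of_odd hD hau
  have hwa : w ≠ a := by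
    intro e
    rw [e] at hwu
    exact hnc hwu
  have hwne : w ≠ u := by
    intro e
    have h2 : z * u * z = 1 := by rw [← huw, e, hmu]
    have h3 : u = 1 := by
      calc u = z * (z * u * z) * z := by
            calc u = (z * z) * u * (z * z) := by rw [hmz, one_mul, mul_one]
              _ = _ := by group
        _ = 1 := by rw [h2, mul_one, hmz]
    have h5 := hD.orderOf_eq u hu
    rw [h3, orderOf_one] at h5
    omega
  refine ⟨hwD, hwne, hwu, by rw [hwu]; exact huwD, ?_⟩
  rcases trich hD ha hwD with h | h | h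
  · exfalso
    -- `a * (u * w) = (a * u) * w` has order `2 n`.
    refine no_big hD ha huwD (x := a * u) (t := w) (by group) ?_ hau.2.2.2 ?_ hmw hw1
    · calc a * u * w = a * (u * w) := by group
        _ = a * (w * u) := by rw [hwu]
        _ = (a * w) * u := by group
        _ = (w * a) * u := by rw [h]
        _ = _ := by group
    · intro h1
      apply hau.2.2.1
      have := eq_inv_of_mul_eq_one_left h1
      rwa [invol_inv hD hu] at this
  · exfalso
    exact no_commute_on_line hD hwD hzD ha hzc hzm hwz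
      (by rw [order_comm]; exact h.2.2.2) hwa
  · exact h

lemma pv_inj (hD : IsRootInvolutionSet D) {a u z z' : G} (hau : OddAdj D a u) (hz : PV D a u z) (hz' : PV D a u z')
    (h : (u * z) ^ 2 = (u * z') ^ 2) : z = z' := by
  obtain ⟨hzD, hza, hzc, hzm, h4⟩ := hz
  obtain ⟨hzD', hza', hzc', hzm', h4'⟩ := hz'
  have ha := hau.1
  have hu := hau.2.1
  have hma := invol_mul hD ha
  have hmu := invol_mul hD hu
  have hmz := invol_mul hD hzD
  have hmz' := invol_mul hD hzD'
  have h1 : z * u * z = z' * u * z' := by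
    rw [← left_mul_sq (b := z) hmu trivial, ← left_mul_sq (b := z') hmu trivial, h]
  -- odd on the other points
  have hp : OddAdj D u (z * a) := by
    have hl := line_lemma hD hu hzm hzD (e := z * a) (f := z)
      (by
        have e1 : z * a * z = a := by rw [hzc, mul_assoc, hmz, mul_one]
        have e2 : z * (z * a) = a := by rw [← mul_assoc, hmz, one_mul]
        rw [e1, e2])
      (by
        have : z * a * z = a := by rw [hzc, mul_assoc, hmz, mul_one]
        rwa [this])
      (by
        have : z * a * z = a := by rw [hzc, mul_assoc, hmz, mul_one]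
        rw [this, order_comm]
        exact hau.2.2.2)
      (by
        have : z * a * z = a := by rw [hzc, mul_assoc, hmz, mul_one]
        rw [this]
        exact hau.2.2.1.symm)
    rcases hl with h2 | h2
    · exact h2
    · exact absurd h2 (not_odd_of_four h4)
  have hp' : OddAdj D u (z' * a) := by
    have hl := line_lemma hD hu hzm' hzD' (e := z' * a) (f := z')
      (by
        have e1 : z' * a * z' = a := by rw [hzc', mul_assoc, hmz', mul_one]
        have e2 : z' * (z' * a) = a := by rw [← mul_assoc, hmz', one_mul]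
        rw [e1, e2])
      (by
        have : z' * a * z' = a := by rw [hzc', mul_assoc, hmz', mul_one]
        rwa [this])
      (by
        have : z' * a * z' = a := by rw [hzc', mul_assoc, hmz', mul_one]
        rw [this, order_comm]
        exact hau.2.2.2)
      (by
        have : z' * a * z' = a := by rw [hzc', mul_assoc, hmz', mul_one]
        rw [this]
        exact hau.2.2.1.symm)
    rcases hl with h2 | h2
    · exact h2
    · exact absurd h2 (not_odd_of_four h4')
  have e2 : (z * a) * (z' * a) = z * z' := by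
    calc (z * a) * (z' * a) = z * (a * z') * a := by group
      _ = z * (z' * a) * a := by rw [hzc']
      _ = z * z' * (a * a) := by group
      _ = _ := by rw [hma, mul_one]
  have e3 : (z * z') * u = u * (z * z') := by
    -- `z u z = z' u z'` gives `z z' u = u z z'`
    calc (z * z') * u = z * (z' * u * z') * z' := by
          calc (z * z') * u = z * z' * u * (z' * z') := by rw [hmz', mul_one]
            _ = _ := by group
      _ = z * (z * u * z) * z' := by rw [h1]
      _ = (z * z) * u * (z * z') := by group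
      _ = _ := by rw [hmz, one_mul]
  have hQ := lemma_Q hD hu hzm hzm' hp.2.2.2 hp'.2.2.2 (by rw [e2]; exact e3)
  exact mul_right_cancel hQ

lemma periodicity [Finite G] (hD : IsRootInvolutionSet D) {a u b : G} (hau : OddAdj D a u) (hb : PV D a u b) :
    ∃ y, PV D u a y ∧ (a * y) ^ 2 = b := by
  let S : Type _ := {z : G // PV D a u z}
  have hua : OddAdj D u a := oddAdj_symm hau
  let f : S → S := fun z => ⟨(a * (u * z.1) ^ 2) ^ 2, pv_step hD hua (pv_step hD hau z.2)⟩
  have hf : Function.Injective f := by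
    intro z z' hzz
    have h1 : (a * (u * z.1) ^ 2) ^ 2 = (a * (u * z'.1) ^ 2) ^ 2 := congrArg Subtype.val hzz
    have h2 := pv_inj hD hua (pv_step hD hau z.2) (pv_step hD hau z'.2) h1
    exact Subtype.ext (pv_inj hD hau z.2 z'.2 h2)
  have hs := Finite.injective_iff_surjective.mp hf
  obtain ⟨z, hz⟩ := hs ⟨b, hb⟩
  have h3 : (a * (u * z.1) ^ 2) ^ 2 = b := congrArg Subtype.val hz
  exact ⟨_, pv_step hD hau z.2, h3⟩

/-! ### The sets `A_d` -/

lemma mem_odd_iff {d x : G} (hd : d ∈ D) : x ∈ oddPartners D d ↔ OddAdj D d x :=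
  ⟨fun h => ⟨hd, h.1, h.2.1.symm, h.2.2⟩, fun h => ⟨h.2.1, h.2.2.1.symm, h.2.2.2⟩⟩

lemma odd_mem_conj (hD : IsRootInvolutionSet D) (g : G) {t x : G} (h : x ∈ oddPartners D t) :
    g * x * g⁻¹ ∈ oddPartners D (g * t * g⁻¹) := by
  refine ⟨hD.conj_mem x h.1 g, ?_, ?_⟩
  · intro e
    exact h.2.1 (by simpa using e)
  · have e : g * t * g⁻¹ * (g * x * g⁻¹) = g * (t * x) * g⁻¹ := by group
    rw [e, order_conj]
    exact h.2.2

lemma odd_conj_eq (hD : IsRootInvolutionSet D) (g t : G) :
    oddPartners D (g * t * g⁻¹) = (fun x => g * x * g⁻¹) '' oddPartners D t := by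
  ext y
  constructor
  · intro h
    refine ⟨g⁻¹ * y * g, ?_, by group⟩
    have := odd_mem_conj hD g⁻¹ h
    have e1 : g⁻¹ * (g * t * g⁻¹) * g⁻¹⁻¹ = t := by group
    have e2 : g⁻¹ * y * g⁻¹⁻¹ = g⁻¹ * y * g := by group
    rwa [e1, e2] at this
  · rintro ⟨x, hx, rfl⟩
    exact odd_mem_conj hD g hx

lemma odd_conj_congr (hD : IsRootInvolutionSet D) (g : G) {a b : G} (h : oddPartners D a = oddPartners D b) :
    oddPartners D (g * a * g⁻¹) = oddPartners D (g * b * g⁻¹) := by
  rw [odd_conj_eq hD, odd_conj_eq hD, h]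

section conn

variable [Finite G]

lemma ncard_odd (hD : IsRootInvolutionSet D) (hc : IsConnectedSet (OddAdj D) D) {a b : G} (ha : a ∈ D) (hb : b ∈ D) :
    (oddPartners D a).ncard = (oddPartners D b).ncard := by
  obtain ⟨g, rfl⟩ := class_of_connected hD hc ha hb
  rw [odd_conj_eq hD]
  refine (Set.ncard_image_of_injective _ ?_).symm
  intro x y h
  simpa using h

lemma odd_eq_of_subset (hD : IsRootInvolutionSet D) (hc : IsConnectedSet (OddAdj D) D) {a b : G} (ha : a ∈ D)
    (hb : b ∈ D) (h : oddPartners D a ⊆ oddPartners D b) : oddPartners D a = oddPartners D b :=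
  Set.eq_of_subset_of_ncard_le h (le_of_eq (ncard_odd hD hc hb ha)) (Set.toFinite _)

/-- A member of `D` in `A_{ef}` is in `A_e` or `A_f`. -/
lemma line_cover (hD : IsRootInvolutionSet D) {e f u : G} (he : e ∈ D) (hf : f ∈ D) (hef : e * f = f * e)
    (hp : e * f ∈ D) (hu : u ∈ oddPartners D (e * f)) : u ∈ oddPartners D e ∨ u ∈ oddPartners D f := by
  have h := line_lemma hD hu.1 he hf hef hp (by rw [order_comm]; exact hu.2.2) hu.2.1
  rcases h with h | h
  · left
    exact (mem_odd_iff he).mpr (oddAdj_symm h)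
  · right
    exact (mem_odd_iff hf).mpr (oddAdj_symm h)

/-- A gate. -/
lemma exists_gate (hD : IsRootInvolutionSet D) (hc : IsConnectedSet (OddAdj D) D) {a b : G} (ha : a ∈ D) (hb : b ∈ D)
    (hab : a * b = b * a) (hm : a * b ∈ D) (hne : oddPartners D a ≠ oddPartners D b) :
    ∃ u, OddAdj D a u ∧ orderOf (u * b) = 4 := by
  have h1 : ¬ oddPartners D a ⊆ oddPartners D b := fun h => hne (odd_eq_of_subset hD hc ha hb h)
  obtain ⟨u, hu, hub⟩ := Set.not_subset.mp h1
  have hua := (mem_odd_iff ha).mp hu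
  refine ⟨u, hua, ?_⟩
  have hub2 : u * b ≠ b * u := by
    intro h2
    refine no_commute_on_line hD hua.2.1 hb ha hab.symm (by rw [← hab]; exact hm) h2 ?_ hua.2.2.1.symm
    rw [order_comm]
    exact hua.2.2.2
  have hub3 : ¬ OddAdj D u b := by
    intro h2
    exact hub ((mem_odd_iff hb).mpr (oddAdj_symm h2))
  exact four_of_not hD hua.2.1 hb hub2 hub3

end conn

/-! ### Abelian blocks -/

open scoped commutatorElement

lemma closure_two_group [Finite G] {T : Set G} (hinv : ∀ t ∈ T, t * t = 1)
    (hconj : ∀ s ∈ T, ∀ t ∈ T, s * t * s⁻¹ ∈ T) (hpair : ∀ s ∈ T, ∀ t ∈ T, (s * t) ^ 4 = 1) :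
    IsPGroup 2 ↥(Subgroup.closure T) := by
  have : Fact (Nat.Prime 2) := ⟨Nat.prime_two⟩
  set K := Subgroup.closure T with hK
  have hKconj : ∀ g ∈ K, ∀ t ∈ T, g * t * g⁻¹ ∈ T := by
    intro g hg
    induction hg using Subgroup.closure_induction with
    | mem s hs => exact fun t ht => hconj s hs t ht
    | one => intro t ht; simpa using ht
    | mul x y _ _ hx hy =>
      intro t ht
      have := hx _ (hy t ht)
      convert this using 1
      group
    | inv x hx' hx =>
      intro t ht
      -- finite: the map is a bijection on `T`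
      have hinj : Function.Injective (fun t : T => (⟨x * t.1 * x⁻¹, hx t.1 t.2⟩ : T)) := by
        intro a b hab
        have h1 : x * a.1 * x⁻¹ = x * b.1 * x⁻¹ := congrArg Subtype.val hab
        exact Subtype.ext (by simpa using h1)
      obtain ⟨a, ha⟩ := Finite.injective_iff_surjective.mp hinj ⟨t, ht⟩
      have h1 : x * a.1 * x⁻¹ = t := congrArg Subtype.val ha
      have h2 : x⁻¹ * t * x⁻¹⁻¹ = a.1 := by rw [← h1]; group
      rw [h2]
      exact a.2
  let Ω : Set (Subgroup ↥K) := {Y | ∃ t, ∃ ht : t ∈ T, Y = Subgroup.zpowers (⟨t, Subgroup.subset_closure ht⟩ : ↥K)}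
  have h1 := Lib.BaerSuzuki.isPGroup_sSup (p := 2) Ω ?_ ?_
  · have htop : sSup Ω = ⊤ := by
      rw [eq_top_iff]
      rintro ⟨x, hx⟩ _
      have hmem : ∀ (x : G) (hx : x ∈ K), (⟨x, hx⟩ : ↥K) ∈ sSup Ω := by
        intro x hx
        induction hx using Subgroup.closure_induction with
        | mem s hs =>
          have h2 : Subgroup.zpowers (⟨s, Subgroup.subset_closure hs⟩ : ↥K) ≤ sSup Ω := le_sSup ⟨s, hs, rfl⟩
          exact h2 (Subgroup.mem_zpowers _)
        | one => exact (sSup Ω).one_mem
        | mul x y hx hy h1 h2 => exact (sSup Ω).mul_mem h1 h2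
        | inv x hx h1 => exact (sSup Ω).inv_mem h1
      exact hmem x hx
    rw [htop] at h1
    rintro ⟨x, hx⟩
    obtain ⟨n, hn⟩ := h1 ⟨⟨x, hx⟩, Subgroup.mem_top _⟩
    refine ⟨n, ?_⟩
    have h2 := congrArg (fun z : ↥(⊤ : Subgroup ↥K) => ((z : ↥K))) hn
    exact h2
  · rintro Y ⟨t, ht, rfl⟩ g
    refine ⟨g.1 * t * g.1⁻¹, hKconj g.1 g.2 t ht, ?_⟩
    rw [MonoidHom.map_zpowers]
    rfl
  · rintro Y ⟨s, hs, rfl⟩ Z ⟨t, ht, rfl⟩
    have e : Subgroup.zpowers (⟨s, Subgroup.subset_closure hs⟩ : ↥K) ⊔ Subgroup.zpowers (⟨t, Subgroup.subset_closure ht⟩ : ↥K)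
        = Subgroup.closure ({⟨s, Subgroup.subset_closure hs⟩, ⟨t, Subgroup.subset_closure ht⟩} : Set ↥K) := by
      rw [Subgroup.zpowers_eq_closure, Subgroup.zpowers_eq_closure, ← Subgroup.closure_union]
      rfl
    rw [e]
    apply dihedral_two_group
    · exact Subtype.ext (hinv s hs)
    · exact Subtype.ext (hinv t ht)
    · exact Subtype.ext (hpair s hs t ht)

lemma block_abelian [Finite G] {T : Set G} (hinv : ∀ t ∈ T, t * t = 1) (hne : ∀ t ∈ T, t ≠ 1)
    (hconj : ∀ s ∈ T, ∀ t ∈ T, s * t * s⁻¹ ∈ T)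
    (hpair : ∀ s ∈ T, ∀ t ∈ T, s * t = t * s ∨ (orderOf (s * t) = 4 ∧ (s * t) ^ 2 ∈ T))
    (htrans : ∀ s ∈ T, ∀ t ∈ T, ∃ g : G, t = g * s * g⁻¹ ∧ ∀ r ∈ T, g⁻¹ * r * g ∈ T) :
    ∀ s ∈ T, ∀ t ∈ T, s * t = t * s := by
  have h4 : ∀ s ∈ T, ∀ t ∈ T, (s * t) ^ 4 = 1 := by
    intro s hs t ht
    rcases hpair s hs t ht with h | h
    · have h2 : (s * t) ^ 2 = 1 := by
        rw [pow_two]
        calc s * t * (s * t) = s * (t * s) * t := by group
          _ = s * (s * t) * t := by rw [← h]
          _ = (s * s) * (t * t) := by group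
          _ = 1 := by rw [hinv s hs, hinv t ht, one_mul]
      calc (s * t) ^ 4 = ((s * t) ^ 2) ^ 2 := by rw [← pow_mul]
        _ = 1 := by rw [h2, one_pow]
    · rw [← h.1]
      exact pow_orderOf_eq_one _
  have hP := closure_two_group hinv hconj h4
  have : Fact (Nat.Prime 2) := ⟨Nat.prime_two⟩
  set K := Subgroup.closure T with hK
  have hnil : Group.IsNilpotent ↥K := hP.isNilpotent
  obtain ⟨n, hn⟩ := (Subgroup.isNilpotent_iff_lowerCentralSeries K).mp hnil
  intro s₀ hs₀ t₀ ht₀
  -- the largest term of the series meeting `T`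
  have hex : ∃ k, (∃ t ∈ T, t ∈ K.lowerCentralSeries k) ∧ ¬ ∃ t ∈ T, t ∈ K.lowerCentralSeries (k + 1) := by
    by_contra hcon
    have hcon' : ∀ k, (∃ t ∈ T, t ∈ K.lowerCentralSeries k) → ∃ t ∈ T, t ∈ K.lowerCentralSeries (k + 1) := by
      intro k hk
      by_contra h
      exact hcon ⟨k, hk, h⟩
    have hall : ∀ k, ∃ t ∈ T, t ∈ K.lowerCentralSeries k := by
      intro k
      induction k with
      | zero => exact ⟨s₀, hs₀, Subgroup.subset_closure hs₀⟩
      | succ k ih => exact hcon' k ih
    obtain ⟨t, ht, htn⟩ := hall n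
    rw [hn] at htn
    exact hne t ht ((Subgroup.mem_bot).mp htn)
  obtain ⟨k, ⟨t, ht, htk⟩, hmax⟩ := hex
  have hcentral : ∀ s ∈ T, t * s = s * t := by
    intro s hs
    rcases hpair t ht s hs with h | h
    · exact h
    · exfalso
      apply hmax
      refine ⟨_, h.2, ?_⟩
      rw [Subgroup.lowerCentralSeries_succ]
      have h5 : (t * s) ^ 2 = ⁅t, s⁆ := by
        rw [commutatorElement_def, pow_two, inv_eq_of_mul_eq_one_left (hinv t ht),
          inv_eq_of_mul_eq_one_left (hinv s hs)]
        group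
      rw [h5]
      exact Subgroup.commutator_mem_commutator htk (Subgroup.subset_closure hs)
  obtain ⟨g, hg, hgT⟩ := htrans t ht s₀ hs₀
  have h6 := hcentral _ (hgT t₀ ht₀)
  rw [hg]
  calc g * t * g⁻¹ * t₀ = g * (t * (g⁻¹ * t₀ * g)) * g⁻¹ := by group
    _ = g * ((g⁻¹ * t₀ * g) * t) * g⁻¹ := by rw [h6]
    _ = _ := by group

/-! ### The block of `d` -/

section mainpart

variable [Finite G]

/-- The members with the same `A`. -/
def Blk (D : Set G) (d : G) : Set G := {t | t ∈ D ∧ oddPartners D t = oddPartners D d}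

omit [Finite G] in
lemma odd_conj_self (hD : IsRootInvolutionSet D) {s t : G} (h : oddPartners D s = oddPartners D t) :
    oddPartners D (s * t * s⁻¹) = oddPartners D s := by
  have h1 := odd_conj_congr hD s h.symm
  have e : s * s * s⁻¹ = s := by group
  rw [e] at h1
  exact h1

lemma blk_mem_of_line (hD : IsRootInvolutionSet D) (hc : IsConnectedSet (OddAdj D) D) {d t y : G} (hd : d ∈ D)
    (ht : t ∈ Blk D d) (hy : y ∈ D) (hty : t * y = y * t) (hm : t * y ∈ Blk D d) : y ∈ Blk D d := by
  have hmt := invol_mul hD ht.1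
  have e : t * (t * y) = y := by rw [← mul_assoc, hmt, one_mul]
  have hsub : oddPartners D y ⊆ oddPartners D d := by
    intro u hu
    have h1 := line_cover hD ht.1 hm.1 (e := t) (f := t * y) (u := u)
      (by
        rw [e, hty, mul_assoc, hmt, mul_one])
      (by rw [e]; exact hy) (by rw [e]; exact hu)
    rcases h1 with h1 | h1
    · rw [← ht.2]; exact h1
    · rw [← hm.2]; exact h1
  exact ⟨hy, odd_eq_of_subset hD hc hy hd hsub⟩

lemma blk_abelian (hD : IsRootInvolutionSet D) (hc : IsConnectedSet (OddAdj D) D) {d : G} (hd : d ∈ D) :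
    ∀ s ∈ Blk D d, ∀ t ∈ Blk D d, s * t = t * s := by
  have hcj : ∀ s ∈ Blk D d, ∀ t ∈ Blk D d, s * t * s⁻¹ ∈ Blk D d := by
    intro s hs t ht
    refine ⟨hD.conj_mem t ht.1 s, ?_⟩
    rw [odd_conj_self hD (hs.2.trans ht.2.symm)]
    exact hs.2
  apply block_abelian
  · exact fun t ht => invol_mul hD ht.1
  · intro t ht e
    have := hD.orderOf_eq t ht.1
    rw [e, orderOf_one] at this
    omega
  · exact hcj
  · intro s hs t ht
    rcases trich hD hs.1 ht.1 with h | h | h
    · exact Or.inl h
    · exfalso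
      have h1 : t ∈ oddPartners D s := (mem_odd_iff hs.1).mpr h
      rw [hs.2, ← ht.2] at h1
      exact h1.2.1 rfl
    · right
      refine ⟨h, ?_⟩
      have hms := invol_mul hD hs.1
      have hmt := invol_mul hD ht.1
      apply blk_mem_of_line hD hc hd ht (sq_mem_of_four hD hs.1 ht.1 h)
      · exact (sq_comm_right hms hmt h).symm
      · rw [right_mul_sq hms hmt h]
        have := hcj s hs t ht
        rwa [invol_inv hD hs.1] at this
  · intro s hs t ht
    obtain ⟨g, hg⟩ := class_of_connected hD hc hs.1 ht.1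
    refine ⟨g, hg, ?_⟩
    intro r hr
    refine ⟨?_, ?_⟩
    · have := hD.conj_mem r hr.1 g⁻¹
      rwa [inv_inv] at this
    · have h1 := odd_conj_congr hD g⁻¹ (hr.2.trans ht.2.symm)
      have e1 : g⁻¹ * t * g⁻¹⁻¹ = s := by rw [hg]; group
      have e2 : g⁻¹ * r * g⁻¹⁻¹ = g⁻¹ * r * g := by group
      rw [e1, e2] at h1
      exact h1.trans hs.2

lemma odd_imp_comm (hD : IsRootInvolutionSet D) (hc : IsConnectedSet (OddAdj D) D) {d e x : G} (hd : d ∈ D) (he : e ∈ D)
    (hA : oddPartners D d = oddPartners D e) (hxD : x ∈ D) (hxd : x * d = d * x) : x * e = e * x := by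
  by_contra hxe
  have hmx := invol_mul hD hxD
  have hme := invol_mul hD he
  have hmd := invol_mul hD hd
  have hab := blk_abelian hD hc hd
  have heT : e ∈ Blk D d := ⟨he, hA.symm⟩
  have hxA : x ∉ oddPartners D e := by
    rw [← hA]
    intro h
    exact not_comm_of_odd hD ((mem_odd_iff hd).mp h) hxd.symm
  have h4 : orderOf (x * e) = 4 :=
    four_of_not hD hxD he hxe (fun h => hxA ((mem_odd_iff he).mpr (oddAdj_symm h)))
  set y := (x * e) ^ 2 with hy
  have hyD : y ∈ D := sq_mem_of_four hD hxD he h4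
  have hmy := invol_mul hD hyD
  have hyx : y * x = x * y := sq_comm_left hmx hme h4
  have hye : y * e = e * y := sq_comm_right hmx hme h4
  have hxy : x * y = e * x * e := left_mul_sq hmx trivial
  have hey : e * y = x * e * x := right_mul_sq hmx hme h4
  have hinvx : x⁻¹ = x := invol_inv hD hxD
  have hinve : e⁻¹ = e := invol_inv hD he
  have heyT : e * y ∈ Blk D d := by
    refine ⟨by rw [hey]; have := hD.conj_mem e he x; rwa [hinvx] at this, ?_⟩
    have h1 := odd_conj_congr hD x hA
    have e1 : x * d * x⁻¹ = d := by rw [hinvx, hxd, mul_assoc, hmx, mul_one]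
    have e2 : x * e * x⁻¹ = e * y := by rw [hinvx, hey]
    rw [e1, e2] at h1
    exact h1.symm
  have hyT : y ∈ Blk D d := blk_mem_of_line hD hc hd heT hyD hye.symm heyT
  have hxT : x ∉ Blk D d := fun h => hxe (hab x h e heT)
  have hxyD : x * y ∈ D := by
    rw [hxy]
    have := hD.conj_mem x hxD e
    rwa [hinve] at this
  have e3 : x * (x * y) = y := by rw [← mul_assoc, hmx, one_mul]
  have e4 : (x * y) * y = x := by rw [mul_assoc, hmy, mul_one]
  have hcxy : x * (x * y) = (x * y) * x := by
    rw [e3, mul_assoc, hyx, ← mul_assoc, hmx, one_mul]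
  have hne : oddPartners D x ≠ oddPartners D (x * y) := by
    intro h
    apply hxT
    have hy1 : oddPartners D y ⊆ oddPartners D x := by
      intro u hu
      have h5 := line_cover hD hxD hxyD hcxy (by rw [e3]; exact hyD) (u := u) (by rw [e3]; exact hu)
      rcases h5 with h1 | h1
      · exact h1
      · rw [h]; exact h1
    have h6 := odd_eq_of_subset hD hc hyD hxD hy1
    exact ⟨hxD, h6.symm.trans hyT.2⟩
  obtain ⟨v, hv, hv4⟩ := exists_gate hD hc hxD hxyD hcxy (by rw [e3]; exact hyD) hne
  have hcyb : (x * y) * y = y * (x * y) := by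
    rw [e4, ← mul_assoc, hyx, mul_assoc, hmy, mul_one]
  have hvy : OddAdj D v y := by
    have h5 := line_lemma hD hv.2.1 hxyD hyD hcyb (by rw [e4]; exact hxD)
      (by rw [e4, order_comm]; exact hv.2.2.2) (by rw [e4]; exact hv.2.2.1.symm)
    rcases h5 with h5 | h5
    · exact absurd h5 (not_odd_of_four hv4)
    · exact h5
  have hx1 : x ≠ 1 := by
    intro h
    have := hD.orderOf_eq x hxD
    rw [h, orderOf_one] at this
    omega
  have hPV : PV D y v (x * y) := by
    refine ⟨hxyD, ?_, hcyb, by rw [e4]; exact hxD, hv4⟩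
    intro h
    exact hx1 (by simpa using h)
  obtain ⟨w, hw, hw2⟩ := periodicity hD (oddAdj_symm hvy) hPV
  obtain ⟨hwD, _, _, _, hw4⟩ := hw
  have hmw := invol_mul hD hwD
  have hinvw : w⁻¹ = w := invol_inv hD hwD
  have hwyw : w * y * w = x := by
    have h1 : y * (y * w) ^ 2 = w * y * w := left_mul_sq hmy trivial
    rw [← h1, hw2, ← mul_assoc, hyx, mul_assoc, hmy, mul_one]
  have hAey : oddPartners D e = oddPartners D y := heT.2.trans hyT.2.symm
  have hAe2 : oddPartners D (w * e * w⁻¹) = oddPartners D x := by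
    have h1 := odd_conj_congr hD w hAey
    rw [h1, hinvw, hwyw]
  have hwA : w ∉ oddPartners D e := by
    rw [hAey]
    intro h
    exact not_odd_of_four hw4 ((mem_odd_iff hyD).mp h)
  have hce2 : e * (w * e * w) = (w * e * w) * e := by
    rcases trich hD he hwD with h | h | h
    · have e5 : w * e * w = e := by rw [← h, mul_assoc, hmw, mul_one]
      rw [e5]
    · exact absurd ((mem_odd_iff he).mpr h) hwA
    · exact comm_conj_of_four hme hmw h
  apply hne
  have h7 := odd_conj_congr hD e hAe2.symm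
  have e6 : e * x * e⁻¹ = x * y := by rw [hinve, hxy]
  have e7 : e * (w * e * w⁻¹) * e⁻¹ = w * e * w⁻¹ := by
    rw [hinve, hinvw, hce2, mul_assoc, hme, mul_one]
  rw [e6, e7, hAe2] at h7
  exact h7.symm

omit [Finite G] in
lemma comm_imp_odd (hD : IsRootInvolutionSet D) {d e x : G} (hd : d ∈ D) (he : e ∈ D)
    (h : commutingMembers D d = commutingMembers D e) (hx : x ∈ oddPartners D d) : x ∈ oddPartners D e := by
  by_contra hxe
  have hmd := invol_mul hD hd
  have hme := invol_mul hD he
  have hxD : x ∈ D := hx.1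
  have hmx := invol_mul hD hxD
  have hdc : d * e = e * d := by
    have h1 : d ∈ commutingMembers D e := by
      rw [← h]
      exact ⟨hd, rfl⟩
    exact h1.2
  have hdx := (mem_odd_iff hd).mp hx
  have hxC : x ∉ commutingMembers D e := by
    rw [← h]
    intro h1
    exact not_comm_of_odd hD hdx h1.2.symm
  have hxnc : x * e ≠ e * x := fun h1 => hxC ⟨hxD, h1⟩
  have h4 : orderOf (x * e) = 4 :=
    four_of_not hD hxD he hxnc (fun h1 => hxe ((mem_odd_iff he).mpr (oddAdj_symm h1)))
  set y := (x * e) ^ 2 with hy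
  have hyD : y ∈ D := sq_mem_of_four hD hxD he h4
  have hmy := invol_mul hD hyD
  have hyx : y * x = x * y := sq_comm_left hmx hme h4
  have hye : y * e = e * y := sq_comm_right hmx hme h4
  have hxy : x * y = e * x * e := left_mul_sq hmx trivial
  have hyd : y * d = d * y := by
    have h1 : y ∈ commutingMembers D d := by
      rw [h]
      exact ⟨hyD, hye⟩
    exact h1.2
  have hcm : Commute (d * x) y := by
    show d * x * y = y * (d * x)
    rw [mul_assoc, ← hyx, ← mul_assoc, ← hyd, mul_assoc]
  obtain ⟨k, hk⟩ := hdx.2.2.2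
  have hord : orderOf (d * x * y) = orderOf (d * x) := by
    have e1 : d * x * y = e * (d * x) * e⁻¹ := by
      rw [invol_inv hD he, mul_assoc d x y, hxy]
      calc d * (e * x * e) = (d * e) * x * e := by group
        _ = (e * d) * x * e := by rw [hdc]
        _ = _ := by group
    rw [e1, order_conj]
  have h5 : (d * x * y) ^ (2 * k + 1) = 1 := by
    rw [← hk, ← hord]
    exact pow_orderOf_eq_one _
  rw [hcm.mul_pow] at h5
  have h6 : (d * x) ^ (2 * k + 1) = 1 := by
    rw [← hk]
    exact pow_orderOf_eq_one _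
  have h7 : y ^ (2 * k + 1) = y := by
    rw [pow_succ, pow_mul, pow_two, hmy, one_pow, one_mul]
  rw [h6, h7, one_mul] at h5
  have h8 := sq_ne_one_of_four h4
  exact h8 h5

omit [Finite G] in
lemma mem_H_iff (hD : IsRootInvolutionSet D) {d x : G} (hd : d ∈ D) :
    x ∈ commutingMembers D d ∪ fourPartners D d ↔ x ∈ D ∧ x ∉ oddPartners D d := by
  constructor
  · rintro (h | h)
    · refine ⟨h.1, fun h1 => ?_⟩
      exact not_comm_of_odd hD ((mem_odd_iff hd).mp h1) h.2.symm
    · refine ⟨h.1, fun h1 => ?_⟩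
      exact not_odd_of_four h.2 ((mem_odd_iff hd).mp h1)
  · rintro ⟨h1, h2⟩
    rcases trich hD hd h1 with h | h | h
    · exact Or.inl ⟨h1, h.symm⟩
    · exact absurd ((mem_odd_iff hd).mpr h) h2
    · exact Or.inr ⟨h1, h⟩

omit [Finite G] in
lemma H_eq_iff (hD : IsRootInvolutionSet D) {d e : G} (hd : d ∈ D) (he : e ∈ D) :
    commutingMembers D d ∪ fourPartners D d = commutingMembers D e ∪ fourPartners D e ↔
      oddPartners D d = oddPartners D e := by
  constructor
  · intro h
    ext x
    have h1 : x ∈ commutingMembers D d ∪ fourPartners D d ↔ x ∈ commutingMembers D e ∪ fourPartners D e := by rw [h]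
    rw [mem_H_iff hD hd, mem_H_iff hD he] at h1
    constructor
    · intro h2
      by_contra h3
      exact (h1.mpr ⟨h2.1, h3⟩).2 h2
    · intro h2
      by_contra h3
      exact (h1.mp ⟨h2.1, h3⟩).2 h2
  · intro h
    ext x
    rw [mem_H_iff hD hd, mem_H_iff hD he, h]

theorem s5046_main (hD : IsRootInvolutionSet D) (hc : IsConnectedSet (OddAdj D) D) {d : G} (hd : d ∈ D) :
    sameCommutingClass D d =
      {e | e ∈ D ∧ commutingMembers D d ∪ fourPartners D d = commutingMembers D e ∪ fourPartners D e} := by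
  ext e
  constructor
  · rintro ⟨he, h⟩
    refine ⟨he, (H_eq_iff hD hd he).mpr (Set.Subset.antisymm ?_ ?_)⟩
    · exact fun x hx => comm_imp_odd hD hd he h hx
    · exact fun x hx => comm_imp_odd hD he hd h.symm hx
  · rintro ⟨he, h⟩
    have hA := (H_eq_iff hD hd he).mp h
    refine ⟨he, ?_⟩
    ext x
    constructor
    · rintro ⟨h1, h2⟩
      exact ⟨h1, odd_imp_comm hD hc hd he hA h1 h2⟩
    · rintro ⟨h1, h2⟩
      exact ⟨h1, odd_imp_comm hD hc he hd hA.symm h1 h2⟩

omit [Finite G] in
/-- Lemma Order3. -/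
lemma order_three (hD : IsRootInvolutionSet D) {a b x y : G} (ha : a ∈ D) (hb : b ∈ D) (hx : x ∈ D) (hy : y ∈ D)
    (hab : a * b = b * a) (habD : a * b ∈ D) (h1 : (a * y) ^ 2 = b) (h14 : orderOf (a * y) = 4)
    (h2 : (b * x) ^ 2 = y) (h24 : orderOf (b * x) = 4) : orderOf (a * x) = 3 := by
  have hma := invol_mul hD ha
  have hmb := invol_mul hD hb
  have hmx := invol_mul hD hx
  have hmy := invol_mul hD hy
  have hinva := invol_inv hD ha
  have hinvx := invol_inv hD hx
  have hby : y * b = b * y := by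
    have := sq_comm_left hmb hmx h24
    rw [h2] at this
    exact this
  have hxy : y * x = x * y := by
    have := sq_comm_right hmb hmx h24
    rw [h2] at this
    exact this
  have hay1 : y * b = a * y * a := by
    have := right_mul_sq hma hmy h14
    rwa [h1] at this
  have hxbx : b * y = x * b * x := by
    have := left_mul_sq (a := b) (b := x) hmb trivial
    rwa [h2] at this
  have hb1 : b ≠ 1 := by
    intro e
    have := hD.orderOf_eq b hb
    rw [e, orderOf_one] at this
    omega
  have hy1 : y ≠ 1 := by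
    rw [← h2]
    exact sq_ne_one_of_four h24
  have hyb : y ≠ b := by
    intro e
    rw [e] at h1
    apply hb1
    rw [← h1, pow_two]
    calc a * b * (a * b) = a * (b * a) * b := by group
      _ = a * (a * b) * b := by rw [← hab]
      _ = (a * a) * (b * b) := by group
      _ = 1 := by rw [hma, hmb, one_mul]
  set g := a * x with hg
  have hginv : g⁻¹ = x * a := by
    rw [hg, _root_.mul_inv_rev, hinva, hinvx]
  -- the action of `g`
  have f1 : g * b = y * g := by
    have e1 : g * b * g⁻¹ = y := by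
      rw [hginv, hg]
      calc a * x * b * (x * a) = a * (x * b * x) * a := by group
        _ = a * (b * y) * a := by rw [hxbx]
        _ = (a * b) * y * a := by group
        _ = (b * a) * y * a := by rw [hab]
        _ = b * (a * y * a) := by group
        _ = b * (b * y) := by rw [← hay1, hby]
        _ = (b * b) * y := by group
        _ = y := by rw [hmb, one_mul]
    rw [← e1]; group
  have f2 : g * y = (y * b) * g := by
    have e1 : g * y * g⁻¹ = y * b := by
      rw [hginv, hg]
      calc a * x * y * (x * a) = a * (x * y) * x * a := by group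
        _ = a * (y * x) * x * a := by rw [hxy]
        _ = a * y * (x * x) * a := by group
        _ = a * y * a := by rw [hmx, mul_one]
        _ = y * b := hay1.symm
    rw [← e1]; group
  have g2b : g ^ 2 * b = (y * b) * g ^ 2 := by
    rw [pow_two]
    calc g * g * b = g * (g * b) := by group
      _ = g * (y * g) := by rw [f1]
      _ = (g * y) * g := by group
      _ = (y * b) * g * g := by rw [f2]
      _ = _ := by group
  have g3b : g ^ 3 * b = b * g ^ 3 := by
    have e2 : g * (y * b) = b * g := by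
      calc g * (y * b) = (g * y) * b := by group
        _ = (y * b) * g * b := by rw [f2]
        _ = (y * b) * (g * b) := by group
        _ = (y * b) * (y * g) := by rw [f1]
        _ = (y * (b * y)) * g := by group
        _ = (y * (y * b)) * g := by rw [hby]
        _ = (y * y) * b * g := by group
        _ = b * g := by rw [hmy, one_mul]
    calc g ^ 3 * b = g * (g ^ 2 * b) := by rw [pow_succ' g 2]; group
      _ = g * ((y * b) * g ^ 2) := by rw [g2b]
      _ = (g * (y * b)) * g ^ 2 := by group
      _ = (b * g) * g ^ 2 := by rw [e2]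
      _ = _ := by rw [pow_succ' g 2]; group
  have g4b : g ^ 4 * b = y * g ^ 4 := by
    calc g ^ 4 * b = g * (g ^ 3 * b) := by rw [pow_succ' g 3]; group
      _ = g * (b * g ^ 3) := by rw [g3b]
      _ = (g * b) * g ^ 3 := by group
      _ = (y * g) * g ^ 3 := by rw [f1]
      _ = _ := by rw [pow_succ' g 3]; group
  have hg2 : g ^ 2 ≠ 1 := by
    intro e
    rw [e, one_mul, mul_one] at g2b
    apply hy1
    exact mul_right_cancel (g2b.symm.trans (one_mul b).symm)
  have hg4 : g ^ 4 ≠ 1 := by
    intro e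
    rw [e, one_mul, mul_one] at g4b
    exact hyb g4b.symm
  have hodd : Odd (orderOf g) := by
    rcases trich hD ha hx with h | h | h
    · exfalso
      apply hg2
      rw [hg, pow_two]
      calc a * x * (a * x) = a * (x * a) * x := by group
        _ = a * (a * x) * x := by rw [← h]
        _ = (a * a) * (x * x) := by group
        _ = 1 := by rw [hma, hmx, one_mul]
    · exact h.2.2.2
    · exfalso
      apply hg4
      rw [hg, ← h]
      exact pow_orderOf_eq_one _
  -- `g⁶ = 1`
  have hinvert : a * g * a⁻¹ = g⁻¹ := by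
    rw [hginv, hg, hinva]
    calc a * (a * x) * a = (a * a) * x * a := by group
      _ = _ := by rw [hma, one_mul]
  have hinv3 : a * g ^ 3 * a = (g ^ 3)⁻¹ := by
    have h3 := conj_pow (a := a) (b := g) (i := 3)
    rw [hinvert, hinva, inv_pow] at h3
    exact h3.symm
  have hg6 : g ^ 6 = 1 := by
    by_contra hne
    have hr : g ^ 3 * a * (g ^ 3)⁻¹ ∈ D := hD.conj_mem a ha _
    have e1 : (g ^ 3 * a * (g ^ 3)⁻¹) * (a * b) = g ^ 6 * b := by
      rw [← hinv3]
      calc g ^ 3 * a * (a * g ^ 3 * a) * (a * b) = g ^ 3 * (a * a) * g ^ 3 * (a * a) * b := by group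
        _ = g ^ 3 * g ^ 3 * b := by rw [hma]; group
        _ = _ := by rw [← pow_add]
    refine no_big hD hr habD e1 ?_ ?_ hne hmb hb1
    · calc g ^ 6 * b = g ^ 3 * (g ^ 3 * b) := by rw [← mul_assoc, ← pow_add]
        _ = g ^ 3 * (b * g ^ 3) := by rw [g3b]
        _ = (g ^ 3 * b) * g ^ 3 := by group
        _ = (b * g ^ 3) * g ^ 3 := by rw [g3b]
        _ = b * (g ^ 3 * g ^ 3) := by group
        _ = _ := by rw [← pow_add]
    · exact Odd.of_dvd_nat hodd (orderOf_pow_dvd 6)
  have hd6 : orderOf g ∣ 6 := orderOf_dvd_of_pow_eq_one hg6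
  have hcop : Nat.Coprime (orderOf g) 2 := by
    exact Nat.Coprime.symm (Nat.coprime_two_left.mpr hodd)
  have hd3 : orderOf g ∣ 3 := hcop.dvd_of_dvd_mul_right (by simpa using hd6)
  have hcases := (Nat.dvd_prime Nat.prime_three).mp hd3
  rcases hcases with h | h
  · exfalso
    have h3 : g = 1 := orderOf_eq_one_iff.mp h
    apply hg2
    rw [h3, one_pow]
  · exact h

theorem s5047_main (hD : IsRootInvolutionSet D) (hc : IsConnectedSet (OddAdj D) D) {a b : G} (ha : a ∈ D)
    (hb : b ∈ productPartners D a) (hbE : b ∉ sameCommutingClass D a) :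
    ∃ x ∈ fourPartners D b, orderOf (a * x) = 3 := by
  obtain ⟨⟨hbD, hba, hne⟩, hbm⟩ := hb
  have hma := invol_mul hD ha
  have hmb := invol_mul hD hbD
  have hne1 : oddPartners D a ≠ oddPartners D b := by
    intro h
    apply hbE
    rw [s5046_main hD hc ha]
    exact ⟨hbD, (H_eq_iff hD ha hbD).mpr h⟩
  have habm : a * b ∈ D := by rw [← hba]; exact hbm
  obtain ⟨u, hu, hu4⟩ := exists_gate hD hc ha hbD hba.symm habm hne1
  have hPV : PV D a u b := ⟨hbD, hne, hba, hbm, hu4⟩
  obtain ⟨y, hy, hy2⟩ := periodicity hD hu hPV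
  obtain ⟨hyD, _, _, _, hy4⟩ := hy
  have hmy := invol_mul hD hyD
  -- `y` commutes with `b`
  have hyb : y * b = b * y := by
    rw [← hy2]
    exact (sq_comm_right hma hmy hy4).symm
  have hyb2 : y * b = a * y * a := by
    have := right_mul_sq hma hmy hy4
    rwa [hy2] at this
  have hybD : y * b ∈ D := by
    rw [hyb2]
    have := hD.conj_mem y hyD a
    rwa [invol_inv hD ha] at this
  have hby4 : b * y = y * b := hyb.symm
  have hb1 : b ≠ 1 := by
    intro e
    have := hD.orderOf_eq b hbD
    rw [e, orderOf_one] at this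
    omega
  have hyne : y ≠ b := by
    intro e
    apply hb1
    rw [← hy2, e, pow_two]
    calc a * b * (a * b) = a * (b * a) * b := by group
      _ = a * (a * b) * b := by rw [hba]
      _ = (a * a) * (b * b) := by group
      _ = 1 := by rw [hma, hmb, one_mul]
  have hyE : y ∉ sameCommutingClass D b := by
    rintro ⟨_, h⟩
    have h1 : a ∈ commutingMembers D b := ⟨ha, hba.symm⟩
    rw [h] at h1
    exact not_comm_of_four hD ha hyD hy4 h1.2
  have hne2 : oddPartners D b ≠ oddPartners D y := by
    intro h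
    apply hyE
    rw [s5046_main hD hc hbD]
    exact ⟨hyD, (H_eq_iff hD hbD hyD).mpr h⟩
  obtain ⟨q, hq, hq4⟩ := exists_gate hD hc hbD hyD hby4 (by rw [hby4]; exact hybD) hne2
  have hPV2 : PV D b q y := ⟨hyD, hyne, hyb, hybD, hq4⟩
  obtain ⟨x, hx, hx2⟩ := periodicity hD hq hPV2
  obtain ⟨hxD, _, _, _, hx4⟩ := hx
  exact ⟨x, ⟨hxD, hx4⟩, order_three hD ha hbD hxD hyD hba.symm habm hy2 hy4 hx2 hx4⟩

end mainpart

end Cfsg.Agent.RootSub
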