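import Mathlib

/-!
# Lanczos recursion (S-fractions) for a primitive element.

The linear algebra behind the generation of `SL₂(k[α])` by `up(k)` and `lo(kα)` for infinite `k`.
-/

set_option autoImplicit false
set_option linter.unusedSectionVars false

namespace Cfsg.Agent.RootSub.SF

variable {k L : Type*} [Field k] [Field L] [Algebra k L]

/-- span of the first `j` powers of `α` -/
def V (k : Type*) {L : Type*} [Field k] [Field L] [Algebra k L] (α : L) : ℕ → Submodule k L
  | 0 => ⊥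
  | j + 1 => V k α j ⊔ Submodule.span k {α ^ j}

variable {α : L}

lemma mem_V_zero {z : L} : z ∈ V k α 0 ↔ z = 0 := by
  simp [V]

lemma mem_V_succ {j : ℕ} {z : L} : z ∈ V k α (j + 1) ↔ ∃ z' ∈ V k α j, ∃ c : k, z = z' + c • α ^ j := by
  simp only [V, Submodule.mem_sup, Submodule.mem_span_singleton]
  constructor
  · rintro ⟨z', hz', _, ⟨c, rfl⟩, rfl⟩
    exact ⟨z', hz', c, rfl⟩
  · rintro ⟨z', hz', c, rfl⟩
    exact ⟨z', hz', _, ⟨c, rfl⟩, rfl⟩

lemma V_le_succ (j : ℕ) : V k α j ≤ V k α (j + 1) := le_sup_left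

lemma pow_mem_V_succ (j : ℕ) : α ^ j ∈ V k α (j + 1) :=
  (le_sup_right : _ ≤ V k α (j + 1)) (Submodule.mem_span_singleton_self _)

lemma V_mono {j j' : ℕ} (h : j ≤ j') : V k α j ≤ V k α j' := by
  induction h with
  | refl => exact le_rfl
  | step _ ih => exact ih.trans (V_le_succ _)

lemma pow_mem_V {i j : ℕ} (h : i < j) : α ^ i ∈ V k α j :=
  V_mono h (pow_mem_V_succ i)

lemma mul_mem_V {j : ℕ} {z : L} (hz : z ∈ V k α j) : α * z ∈ V k α (j + 1) := by
  induction j generalizing z with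
  | zero =>
    rw [mem_V_zero] at hz
    subst hz
    simp
  | succ j ih =>
    obtain ⟨z', hz', c, rfl⟩ := mem_V_succ.mp hz
    rw [mem_V_succ]
    refine ⟨α * z', ih hz', c, ?_⟩
    rw [mul_add, mul_smul_comm, pow_succ' α j]

lemma exists_coeffs {j : ℕ} {z : L} (hz : z ∈ V k α j) : ∃ c : Fin j → k, z = ∑ i, c i • α ^ (i : ℕ) := by
  induction j generalizing z with
  | zero =>
    rw [mem_V_zero] at hz
    exact ⟨fun _ => 0, by simp [hz]⟩
  | succ j ih =>
    obtain ⟨z', hz', c, rfl⟩ := mem_V_succ.mp hz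
    obtain ⟨c', rfl⟩ := ih hz'
    refine ⟨Fin.snoc c' c, ?_⟩
    rw [Fin.sum_univ_castSucc]
    simp

/-- a functional is non-degenerate on `V j`. -/
def NonDeg (α : L) (ℓ : L →ₗ[k] k) (j : ℕ) : Prop :=
  ∀ z ∈ V k α j, (∀ v ∈ V k α j, ℓ (z * v) = 0) → z = 0

/-- the twisted functional -/
def tw (α : L) (ℓ : L →ₗ[k] k) : L →ₗ[k] k := ℓ ∘ₗ LinearMap.mulLeft k α

@[simp] lemma tw_apply (ℓ : L →ₗ[k] k) (z : L) : tw α ℓ z = ℓ (α * z) := rfl

/-- `ℓ` is good when both Gram forms are non-degenerate on all `V j`. -/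
def Good (α : L) (n : ℕ) (ℓ : L →ₗ[k] k) : Prop :=
  ∀ j ≤ n, NonDeg α ℓ j ∧ NonDeg α (tw α ℓ) j

/-- the invariant of the recursion -/
def Inv (R : L → L → Prop) (α : L) (ℓ : L →ₗ[k] k) (m : ℕ) (p e : L) : Prop :=
  R p (α * e) ∧ p ∈ V k α (m + 1) ∧ e ∈ V k α (m + 1) ∧ p ∉ V k α m ∧ e ∉ V k α m ∧
    (∀ v ∈ V k α m, ℓ (p * v) = 0) ∧ (∀ v ∈ V k α m, ℓ (α * e * v) = 0)

section Lanczos

variable {R : L → L → Prop} {n : ℕ} {ℓ : L →ₗ[k] k}

lemma pi_ne {m : ℕ} {p : L} (hm : m + 1 ≤ n) (hg : Good α n ℓ) (hp : p ∈ V k α (m + 1)) (hp' : p ∉ V k α m)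
    (h : ∀ v ∈ V k α m, ℓ (p * v) = 0) : ℓ (p * α ^ m) ≠ 0 := by
  intro h0
  have : p = 0 := by
    refine (hg _ hm).1 p hp ?_
    intro v hv
    obtain ⟨v', hv', c, rfl⟩ := mem_V_succ.mp hv
    rw [mul_add, map_add, h v' hv', mul_smul_comm, map_smul, h0]
    simp
  exact hp' (this ▸ Submodule.zero_mem _)

lemma kappa_ne {m : ℕ} {e : L} (hm : m + 1 ≤ n) (hg : Good α n ℓ) (he : e ∈ V k α (m + 1)) (he' : e ∉ V k α m)
    (h : ∀ v ∈ V k α m, ℓ (α * e * v) = 0) : ℓ (α * e * α ^ m) ≠ 0 := by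
  intro h0
  have : e = 0 := by
    refine (hg _ hm).2 e he ?_
    intro v hv
    obtain ⟨v', hv', c, rfl⟩ := mem_V_succ.mp hv
    rw [tw_apply, ← mul_assoc, mul_add, map_add, h v' hv', mul_smul_comm, map_smul, h0]
    simp
  exact he' (this ▸ Submodule.zero_mem _)

/-- the orthogonality of `p + a α e` -/
lemma orth_p {m : ℕ} {p e : L} (hp : ∀ v ∈ V k α m, ℓ (p * v) = 0) (he : ∀ v ∈ V k α m, ℓ (α * e * v) = 0)
    {a : k} (ha : ℓ (p * α ^ m) + a * ℓ (α * e * α ^ m) = 0) :
    ∀ v ∈ V k α (m + 1), ℓ ((p + a • (α * e)) * v) = 0 := by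
  intro v hv
  obtain ⟨v', hv', c, rfl⟩ := mem_V_succ.mp hv
  have e1 : (p + a • (α * e)) * (v' + c • α ^ m) =
      p * v' + a • (α * e * v') + c • (p * α ^ m + a • (α * e * α ^ m)) := by
    simp only [Algebra.smul_def]
    ring
  rw [e1, map_add, map_add, hp v' hv', map_smul, he v' hv', map_smul, map_add, map_smul]
  simp only [smul_eq_mul]
  rw [ha]
  simp

/-- The main step of the recursion -/
lemma inv_step (hup : ∀ p q (c : k), R p q → R (p + c • q) q)
    (hlo : ∀ p q (c : k), R p q → R p (q + c • (α * p)))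
    {m : ℕ} (hm : m + 2 ≤ n) (hind : ∀ j < n, α ^ j ∉ V k α j) (hg : Good α n ℓ) {p e : L}
    (h : Inv R α ℓ m p e) : ∃ p' e', Inv R α ℓ (m + 1) p' e' := by
  obtain ⟨hR, hp, he, hp', he', horp, hore⟩ := h
  have hm1 : m + 1 ≤ n := by omega
  have hπ := pi_ne hm1 hg hp hp' horp
  have hκ := kappa_ne hm1 hg he he' hore
  set π := ℓ (p * α ^ m) with hπd
  set κ := ℓ (α * e * α ^ m) with hκd
  set a : k := -π / κ with ha
  have ha0 : a ≠ 0 := by
    rw [ha]
    exact div_ne_zero (neg_ne_zero.mpr hπ) hκ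
  have haeq : π + a * κ = 0 := by
    rw [ha, div_mul_cancel₀ _ hκ]
    ring
  set p₁ := p + a • (α * e) with hp₁
  have hαe : α * e ∈ V k α (m + 2) := mul_mem_V he
  have hp₁V : p₁ ∈ V k α (m + 2) :=
    Submodule.add_mem _ (V_le_succ _ hp) (Submodule.smul_mem _ _ hαe)
  have hαe' : α * e ∉ V k α (m + 1) := by
    intro hc
    obtain ⟨e₀, he₀, c, rfl⟩ := mem_V_succ.mp he
    have hc0 : c ≠ 0 := by
      rintro rfl
      apply he'
      simpa using he₀
    have h1 : c • α ^ (m + 1) ∈ V k α (m + 1) := by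
      have h2 : c • α ^ (m + 1) = α * (e₀ + c • α ^ m) - α * e₀ := by
        rw [mul_add, mul_smul_comm, pow_succ' α m]
        abel
      rw [h2]
      exact Submodule.sub_mem _ hc (mul_mem_V he₀)
    exact hind (m + 1) (by omega) ((Submodule.smul_mem_iff _ hc0).mp h1)
  have hp₁' : p₁ ∉ V k α (m + 1) := by
    intro hc
    have h1 : a • (α * e) ∈ V k α (m + 1) := by
      have : a • (α * e) = p₁ - p := by rw [hp₁]; abel
      rw [this]
      exact Submodule.sub_mem _ hc hp
    exact hαe' ((Submodule.smul_mem_iff _ ha0).mp h1)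
  have horp₁ : ∀ v ∈ V k α (m + 1), ℓ (p₁ * v) = 0 := orth_p horp hore haeq
  have hπ₁ : ℓ (p₁ * α ^ (m + 1)) ≠ 0 := pi_ne (m := m + 1) hm hg hp₁V hp₁' horp₁
  set π₁ := ℓ (p₁ * α ^ (m + 1)) with hπ₁d
  set c : k := -κ / π₁ with hc
  have hc0 : c ≠ 0 := by
    rw [hc]
    exact div_ne_zero (neg_ne_zero.mpr hκ) hπ₁
  have hceq : κ + c * π₁ = 0 := by
    rw [hc, div_mul_cancel₀ _ hπ₁]
    ring
  refine ⟨p₁, e + c • p₁, ?_, hp₁V, ?_, hp₁', ?_, horp₁, ?_⟩
  · have h1 := hlo _ _ c (hup p (α * e) a hR)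
    have h2 : ∀ z : L, α * e + c • (α * z) = α * (e + c • z) := fun z => by
      rw [mul_add, mul_smul_comm]
    rw [h2] at h1
    exact h1
  · exact Submodule.add_mem _ (V_le_succ _ he) (Submodule.smul_mem _ _ hp₁V)
  · intro hcon
    have h1 : c • p₁ ∈ V k α (m + 1) := by
      have : c • p₁ = (e + c • p₁) - e := by abel
      rw [this]
      exact Submodule.sub_mem _ hcon he
    exact hp₁' ((Submodule.smul_mem_iff _ hc0).mp h1)
  · intro v hv
    obtain ⟨v', hv', d, rfl⟩ := mem_V_succ.mp hv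
    have e1 : α * (e + c • p₁) * (v' + d • α ^ m) =
        α * e * v' + d • (α * e * α ^ m) + c • (p₁ * (α * v')) + (c * d) • (p₁ * α ^ (m + 1)) := by
      simp only [Algebra.smul_def, map_mul, pow_succ]
      ring
    rw [e1, map_add, map_add, map_add, hore v' hv', map_smul, map_smul, map_smul, horp₁ _ (mul_mem_V hv')]
    rw [← hκd, ← hπ₁d]
    simp only [smul_eq_mul]
    linear_combination d * hceq

theorem lanczos (h0 : R 1 0) (hup : ∀ p q (c : k), R p q → R (p + c • q) q)
    (hlo : ∀ p q (c : k), R p q → R p (q + c • (α * p)))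
    (hn : 0 < n) (hind : ∀ j < n, α ^ j ∉ V k α j) (htop : V k α n = ⊤) (hg : Good α n ℓ) :
    ∃ v, R 0 v ∧ ∀ w ∈ V k α (n - 1), ℓ (v * w) = 0 := by
  have key : ∀ m, m + 1 ≤ n → ∃ p e, Inv R α ℓ m p e := by
    intro m
    induction m with
    | zero =>
      intro _
      refine ⟨1, 1, ?_, ?_, ?_, ?_, ?_, ?_, ?_⟩
      · have := hlo 1 0 1 h0
        simpa using this
      · have := pow_mem_V_succ (k := k) (α := α) 0
        simpa using this
      · have := pow_mem_V_succ (k := k) (α := α) 0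
        simpa using this
      · rw [mem_V_zero]; exact one_ne_zero
      · rw [mem_V_zero]; exact one_ne_zero
      · intro v hv
        rw [mem_V_zero] at hv
        simp [hv]
      · intro v hv
        rw [mem_V_zero] at hv
        simp [hv]
    | succ m ih =>
      intro hm
      obtain ⟨p, e, h⟩ := ih (by omega)
      exact inv_step hup hlo hm hind hg h
  obtain ⟨m, rfl⟩ : ∃ m, n = m + 1 := ⟨n - 1, by omega⟩
  obtain ⟨p, e, hR, hp, he, hp', he', horp, hore⟩ := key m le_rfl
  have hπ := pi_ne le_rfl hg hp hp' horp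
  have hκ := kappa_ne le_rfl hg he he' hore
  set a : k := -ℓ (p * α ^ m) / ℓ (α * e * α ^ m) with ha
  have haeq : ℓ (p * α ^ m) + a * ℓ (α * e * α ^ m) = 0 := by
    rw [ha, div_mul_cancel₀ _ hκ]
    ring
  have horp₁ := orth_p horp hore haeq
  have hzero : p + a • (α * e) = 0 := by
    have hmem : p + a • (α * e) ∈ V k α (m + 1) := by rw [htop]; trivial
    exact (hg _ le_rfl).1 _ hmem horp₁
  refine ⟨α * e, ?_, ?_⟩
  · have := hup p (α * e) a hR
    rwa [hzero] at this
  · exact hore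

end Lanczos

section Dens

variable {ι : Type*} [Fintype ι] [DecidableEq ι] (b : Module.Basis ι k L)

/-- polynomial function in coordinates -/
def IsPF (f : L → k) : Prop :=
  ∃ P : MvPolynomial ι k, ∀ u, f u = MvPolynomial.eval (fun i => b.repr u i) P

variable {b}

lemma IsPF.linear (φ : L →ₗ[k] k) : IsPF b φ := by
  refine ⟨∑ i, MvPolynomial.C (φ (b i)) * MvPolynomial.X i, fun u => ?_⟩
  have h := congrArg φ (b.sum_repr u)
  rw [map_sum] at h
  simp only [map_smul, smul_eq_mul] at h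
  simp only [map_sum, map_mul, MvPolynomial.eval_C, MvPolynomial.eval_X]
  rw [← h]
  exact Finset.sum_congr rfl fun i _ => mul_comm _ _

lemma IsPF.mul {f g : L → k} (hf : IsPF b f) (hg : IsPF b g) : IsPF b (fun u => f u * g u) := by
  obtain ⟨P, hP⟩ := hf
  obtain ⟨Q, hQ⟩ := hg
  exact ⟨P * Q, fun u => by simp only [map_mul, ← hP, ← hQ]⟩

lemma IsPF.sum {X : Type*} (s : Finset X) {f : X → L → k} (hf : ∀ x ∈ s, IsPF b (f x)) :
    IsPF b (fun u => ∑ x ∈ s, f x u) := by
  classical
  induction s using Finset.induction_on with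
  | empty => exact ⟨0, fun u => by simp⟩
  | insert a s ha ih =>
    obtain ⟨P, hP⟩ := hf a (Finset.mem_insert_self _ _)
    obtain ⟨Q, hQ⟩ := ih (fun x hx => hf x (Finset.mem_insert_of_mem hx))
    refine ⟨P + Q, fun u => ?_⟩
    change ∑ x ∈ insert a s, f x u = _
    rw [Finset.sum_insert ha, map_add, ← hP, ← hQ]

lemma IsPF.det {j : ℕ} {M : L → Matrix (Fin j) (Fin j) k} (h : ∀ i i', IsPF b (fun u => M u i i')) :
    IsPF b (fun u => (M u).det) := by
  choose P hP using h
  refine ⟨(Matrix.of P).det, fun u => ?_⟩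
  rw [RingHom.map_det]
  change (M u).det = _
  have : M u = (MvPolynomial.eval fun i => b.repr u i).mapMatrix (Matrix.of P) := by
    ext i i'
    simp [hP]
  rw [← this]

lemma IsPF.mul_ne [Infinite k] {f g : L → k} (hf : IsPF b f) (hg : IsPF b g) (h1 : ∃ u, f u ≠ 0) (h2 : ∃ u, g u ≠ 0) :
    ∃ u, f u * g u ≠ 0 := by
  obtain ⟨P, hP⟩ := hf
  obtain ⟨Q, hQ⟩ := hg
  have hP0 : P ≠ 0 := by
    rintro rfl
    obtain ⟨u, hu⟩ := h1
    exact hu (by rw [hP]; simp)
  have hQ0 : Q ≠ 0 := by
    rintro rfl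
    obtain ⟨u, hu⟩ := h2
    exact hu (by rw [hQ]; simp)
  have hPQ : P * Q ≠ 0 := mul_ne_zero hP0 hQ0
  have : ∃ y : ι → k, MvPolynomial.eval y (P * Q) ≠ 0 := by
    by_contra hc
    apply hPQ
    apply MvPolynomial.funext
    intro y
    by_contra hy
    apply hc
    exact ⟨y, by simpa using hy⟩
  obtain ⟨y, hy⟩ := this
  refine ⟨b.equivFun.symm y, ?_⟩
  rw [hP, hQ, ← map_mul]
  have : (fun i => b.repr (b.equivFun.symm y) i) = y := by
    ext i
    have := congrFun (b.equivFun.apply_symm_apply y) i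
    simpa only [Module.Basis.equivFun_apply] using this
  rw [this]
  exact hy

lemma exists_all_ne [Infinite k] {X : Type*} (s : Finset X) (f : X → L → k) (hf : ∀ x ∈ s, IsPF b (f x))
    (hne : ∀ x ∈ s, ∃ u, f x u ≠ 0) : ∃ u, ∀ x ∈ s, f x u ≠ 0 := by
  classical
  have key : ∃ F : L → k, IsPF b F ∧ (∃ u, F u ≠ 0) ∧ ∀ u, F u ≠ 0 → ∀ x ∈ s, f x u ≠ 0 := by
    induction s using Finset.induction_on with
    | empty => exact ⟨fun _ => 1, ⟨1, fun u => by simp⟩, ⟨0, one_ne_zero⟩, fun _ _ _ h => by simp at h⟩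
    | insert a s ha ih =>
      obtain ⟨F, hF, hF1, hF2⟩ := ih (fun x hx => hf x (Finset.mem_insert_of_mem hx))
        (fun x hx => hne x (Finset.mem_insert_of_mem hx))
      refine ⟨fun u => f a u * F u, (hf a (Finset.mem_insert_self _ _)).mul hF,
        IsPF.mul_ne (hf a (Finset.mem_insert_self _ _)) hF (hne a (Finset.mem_insert_self _ _)) hF1, ?_⟩
      intro u hu x hx
      rcases Finset.mem_insert.mp hx with rfl | hx
      · exact left_ne_zero_of_mul hu
      · exact hF2 u (right_ne_zero_of_mul hu) x hx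
  obtain ⟨F, -, ⟨u, hu⟩, hF⟩ := key
  exact ⟨u, hF u hu⟩

end Dens

section Gram

/-- the Gram (Hankel) matrix of a functional -/
def gram (α : L) (ℓ : L →ₗ[k] k) (j : ℕ) : Matrix (Fin j) (Fin j) k :=
  Matrix.of fun i i' => ℓ (α ^ ((i : ℕ) + (i' : ℕ)))

lemma nonDeg_of_det {ℓ : L →ₗ[k] k} {j : ℕ} (h : (gram α ℓ j).det ≠ 0) : NonDeg α ℓ j := by
  intro z hz horth
  obtain ⟨c, rfl⟩ := exists_coeffs hz
  have hc : (gram α ℓ j).mulVec c = 0 := by
    ext i'
    have h1 := horth _ (pow_mem_V (k := k) (α := α) i'.2)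
    rw [Finset.sum_mul, map_sum] at h1
    simp only [Matrix.mulVec, dotProduct, gram, Matrix.of_apply, Pi.zero_apply]
    rw [← h1]
    refine Finset.sum_congr rfl fun i _ => ?_
    rw [smul_mul_assoc, map_smul, smul_eq_mul, mul_comm, ← pow_add, add_comm]
  have hc0 := Matrix.eq_zero_of_mulVec_eq_zero h hc
  simp [hc0]

lemma det_gram_ne {g : L →ₗ[k] k} {j : ℕ} (hj : 0 < j) (h0 : ∀ m, m + 1 < j → g (α ^ m) = 0)
    (h1 : g (α ^ (j - 1)) = 1) : (gram α g j).det ≠ 0 := by
  intro hc
  have h2 := Matrix.det_permute' (Fin.revPerm) (gram α g j)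
  rw [hc, mul_zero] at h2
  have h3 : ((gram α g j).submatrix id Fin.revPerm).det = 1 := by
    rw [Matrix.det_of_isLowerTriangular]
    · refine Finset.prod_eq_one fun i _ => ?_
      simp only [Matrix.submatrix_apply, id, gram, Matrix.of_apply, Fin.revPerm_apply, Fin.val_rev]
      have : (i : ℕ) + (j - ((i : ℕ) + 1)) = j - 1 := by
        have := i.2
        omega
      rw [this, h1]
    · intro i i' hii
      have hlt : (i : ℕ) < i' := hii
      simp only [Matrix.submatrix_apply, id, gram, Matrix.of_apply, Fin.revPerm_apply, Fin.val_rev]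
      apply h0
      have := i'.2
      omega
  rw [h3] at h2
  exact one_ne_zero h2

end Gram

section Generic

variable {n : ℕ} {ξ : L →ₗ[k] k}

/-- the functional `z ↦ ξ (u z)` -/
def lu (ξ : L →ₗ[k] k) (u : L) : L →ₗ[k] k := ξ ∘ₗ LinearMap.mulLeft k u

@[simp] lemma lu_apply (u z : L) : lu ξ u z = ξ (u * z) := rfl

lemma pow_mul_mem_V {i t : ℕ} {y : L} (hy : y ∈ V k α i) : y * α ^ t ∈ V k α (i + t) := by
  induction t with
  | zero => simpa using hy
  | succ t ih =>
    have := mul_mem_V ih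
    rw [pow_succ', mul_left_comm]
    exact this

lemma mem_V_one_of_orth (hn : 0 < n) (hξ0 : ∀ z ∈ V k α (n - 1), ξ z = 0) (hξ1 : ξ (α ^ (n - 1)) = 1)
    (htop : V k α n = ⊤) {y : L} (hy : ∀ w ∈ V k α (n - 1), ξ (y * w) = 0) : y ∈ V k α 1 := by
  have key : ∀ t, t + 1 ≤ n → y ∈ V k α (n - t) := by
    intro t
    induction t with
    | zero =>
      intro _
      simp [htop]
    | succ t ih =>
      intro ht
      have h1 := ih (by omega)
      have e1 : n - t = (n - (t + 1)) + 1 := by omega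
      rw [e1] at h1
      obtain ⟨y', hy', c, hyc⟩ := mem_V_succ.mp h1
      set i := n - (t + 1) with hi
      have hw : α ^ t ∈ V k α (n - 1) := pow_mem_V (by omega)
      have h2 := hy _ hw
      have h3 : y * α ^ t = y' * α ^ t + c • α ^ (n - 1) := by
        rw [hyc, add_mul, smul_mul_assoc, ← pow_add]
        congr 3
        omega
      rw [h3, map_add, map_smul, hξ1] at h2
      have h4 : y' * α ^ t ∈ V k α (n - 1) := by
        have := pow_mul_mem_V (t := t) hy'
        have e2 : i + t = n - 1 := by omega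
        rwa [e2] at this
      rw [hξ0 _ h4] at h2
      have hc : c = 0 := by simpa using h2
      rw [hyc, hc]
      simpa using hy'
  have := key (n - 1) (by omega)
  have e : n - (n - 1) = 1 := by omega
  rwa [e] at this

lemma exists_scalar_of_mem_V_one {y : L} (h : y ∈ V k α 1) : ∃ c : k, y = algebraMap k L c := by
  obtain ⟨y', hy', c, rfl⟩ := mem_V_succ.mp h
  rw [mem_V_zero] at hy'
  subst hy'
  exact ⟨c, by simp [Algebra.smul_def]⟩

/-- Index set of the determinants -/
private def detFam (α : L) (ξ : L →ₗ[k] k) : Bool × ℕ → L → k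
  | (false, j), u => (gram α (lu ξ u) j).det
  | (true, j), u => (gram α (tw α (lu ξ u)) j).det

/-- generic good element -/
theorem exists_good [Infinite k] [FiniteDimensional k L] (h2 : (2 : L) ≠ 0) (hα : α ≠ 0)
    (hξ0 : ∀ z ∈ V k α (n - 1), ξ z = 0) (hξ1 : ξ (α ^ (n - 1)) = 1)
    (lam : L →ₗ[k] k) (hlam : lam ≠ 0) :
    ∃ u : L, u ≠ 0 ∧ Good α n (lu ξ u) ∧ lam (α * (u * u)) ≠ 0 := by
  classical
  let b := Module.finBasis k L
  -- the family
  let s : Finset (Option (Bool × ℕ)) :=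
    insert none (((Finset.univ : Finset Bool) ×ˢ (Finset.range (n + 1))).image some)
  let f : Option (Bool × ℕ) → L → k
    | none, u => lam (α * (u * u))
    | some x, u => detFam α ξ x u
  have hf : ∀ x ∈ s, IsPF b (f x) := by
    intro x _
    rcases x with _ | ⟨_ | _, j⟩
    · have h3 : (fun u => lam (α * (u * u))) =
          fun u => ∑ i, (b.repr u i) * (lam ∘ₗ LinearMap.mulLeft k (α * b i) ∘ₗ LinearMap.id) (LinearMap.mulLeft k (1 : L) u) := by
        funext u
        conv_lhs => rw [show α * (u * u) = α * ((∑ i, b.repr u i • b i) * u) by rw [b.sum_repr]]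
        rw [Finset.sum_mul, Finset.mul_sum, map_sum]
        refine Finset.sum_congr rfl fun i _ => ?_
        simp only [smul_mul_assoc, mul_smul_comm, map_smul, smul_eq_mul, LinearMap.comp_apply,
          LinearMap.mulLeft_apply, LinearMap.id_apply, one_mul, mul_assoc]
      change IsPF b (fun u => lam (α * (u * u)))
      rw [h3]
      refine IsPF.sum _ fun i _ => IsPF.mul (IsPF.linear (b.coord i)) ?_
      exact IsPF.linear ((lam ∘ₗ LinearMap.mulLeft k (α * b i) ∘ₗ LinearMap.id) ∘ₗ LinearMap.mulLeft k (1 : L))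
    · refine IsPF.det fun i i' => ?_
      exact IsPF.linear (ξ ∘ₗ LinearMap.mulRight k (α ^ ((i : ℕ) + (i' : ℕ))))
    · refine IsPF.det fun i i' => ?_
      exact IsPF.linear (ξ ∘ₗ LinearMap.mulRight k (α * α ^ ((i : ℕ) + (i' : ℕ))))
  have hne : ∀ x ∈ s, ∃ u, f x u ≠ 0 := by
    intro x hx
    rcases x with _ | ⟨_ | _, j⟩
    · -- polarisation
      by_contra hc
      have hc' : ∀ u, lam (α * (u * u)) = 0 := by
        intro u
        by_contra hu
        exact hc ⟨u, hu⟩
      apply hlam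
      ext z
      have e1 : lam (α * ((1 + α⁻¹ * z) * (1 + α⁻¹ * z))) =
          lam (α * (1 * 1)) + (2 : k) • lam z + lam (α * ((α⁻¹ * z) * (α⁻¹ * z))) := by
        rw [← map_smul, ← map_add, ← map_add]
        congr 1
        have : α * α⁻¹ = 1 := mul_inv_cancel₀ hα
        have e2 : ((2 : k) • z) = 2 * z := by
          rw [Algebra.smul_def, map_ofNat]
        rw [e2]
        linear_combination (2 * z) * this
      rw [hc', hc', hc'] at e1
      have h2k : (2 : k) ≠ 0 := by
        intro h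
        apply h2
        rw [← map_ofNat (algebraMap k L) 2, h, map_zero]
      simpa [h2k] using e1.symm
    · -- upper determinants
      have hj : j ≤ n := by
        simp only [s, Finset.mem_insert, reduceCtorEq, false_or, Finset.mem_image, Finset.mem_product,
          Finset.mem_range, Option.some.injEq] at hx
        obtain ⟨a, ha, rfl⟩ := hx
        simp at ha ⊢
        omega
      refine ⟨α ^ (n - j), ?_⟩
      change (gram α (lu ξ (α ^ (n - j))) j).det ≠ 0
      rcases Nat.eq_zero_or_pos j with rfl | hj0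
      · simp
      refine det_gram_ne hj0 ?_ ?_
      · intro m hm
        rw [lu_apply, ← pow_add]
        exact hξ0 _ (pow_mem_V (by omega))
      · rw [lu_apply, ← pow_add, ← hξ1]
        congr 2
        omega
    · have hj : j ≤ n := by
        simp only [s, Finset.mem_insert, reduceCtorEq, false_or, Finset.mem_image, Finset.mem_product,
          Finset.mem_range, Option.some.injEq] at hx
        obtain ⟨a, ha, rfl⟩ := hx
        simp at ha ⊢
        omega
      refine ⟨α⁻¹ * α ^ (n - j), ?_⟩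
      change (gram α (tw α (lu ξ (α⁻¹ * α ^ (n - j)))) j).det ≠ 0
      have e3 : ∀ m, tw α (lu ξ (α⁻¹ * α ^ (n - j))) (α ^ m) = ξ (α ^ (n - j + m)) := by
        intro m
        rw [tw_apply, lu_apply, pow_add]
        congr 1
        field_simp
      rcases Nat.eq_zero_or_pos j with rfl | hj0
      · simp
      refine det_gram_ne hj0 ?_ ?_
      · intro m hm
        rw [e3]
        exact hξ0 _ (pow_mem_V (by omega))
      · rw [e3, ← hξ1]
        congr 2
        omega
  obtain ⟨u, hu⟩ := exists_all_ne s f hf hne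
  have hmem : ∀ (t : Bool) (j : ℕ), j ≤ n → (some (t, j)) ∈ s := by
    intro t j hj
    simp only [s, Finset.mem_insert, reduceCtorEq, false_or, Finset.mem_image, Finset.mem_product,
      Finset.mem_range, Option.some.injEq, Finset.mem_univ, true_and]
    exact ⟨(t, j), by omega, rfl⟩
  have hg : Good α n (lu ξ u) := by
    intro j hj
    exact ⟨nonDeg_of_det (hu _ (hmem false j hj)), nonDeg_of_det (hu _ (hmem true j hj))⟩
  have hl : lam (α * (u * u)) ≠ 0 := hu none (Finset.mem_insert_self _ _)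
  refine ⟨u, ?_, hg, hl⟩
  rintro rfl
  simp at hl

end Generic

section Minpoly

lemma mem_V_iff {j : ℕ} {z : L} :
    z ∈ V k α j ↔ ∃ f : Polynomial k, f.degree < j ∧ Polynomial.aeval α f = z := by
  induction j generalizing z with
  | zero =>
    rw [mem_V_zero]
    constructor
    · rintro rfl
      exact ⟨0, by simp, by simp⟩
    · rintro ⟨f, hf, rfl⟩
      have : f = 0 := by simpa using hf
      simp [this]
  | succ j ih =>
    rw [mem_V_succ]
    constructor
    · rintro ⟨z', hz', c, rfl⟩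
      obtain ⟨f, hf, rfl⟩ := ih.mp hz'
      refine ⟨f + Polynomial.C c * Polynomial.X ^ j, ?_, ?_⟩
      · refine lt_of_le_of_lt (Polynomial.degree_add_le _ _) (max_lt ?_ ?_)
        · refine lt_trans hf ?_
          exact_mod_cast Nat.lt_succ_self j
        · refine lt_of_le_of_lt (Polynomial.degree_C_mul_X_pow_le _ _) ?_
          exact_mod_cast Nat.lt_succ_self j
      · simp [Algebra.smul_def]
    · rintro ⟨f, hf, rfl⟩
      refine ⟨Polynomial.aeval α (f - Polynomial.C (f.coeff j) * Polynomial.X ^ j), ?_, f.coeff j, ?_⟩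
      · refine ih.mpr ⟨_, ?_, rfl⟩
        rw [Polynomial.degree_lt_iff_coeff_zero]
        intro m hm
        rcases hm.lt_or_eq with hlt | rfl
        · have : f.coeff m = 0 := by
            apply Polynomial.coeff_eq_zero_of_degree_lt
            refine lt_of_lt_of_le hf ?_
            exact_mod_cast hlt
          simp [Polynomial.coeff_X_pow, this, hlt.ne']
        · simp
      · simp [Algebra.smul_def]

lemma pow_notMem_V (hα : IsIntegral k α) {j : ℕ} (hj : j < (minpoly k α).natDegree) : α ^ j ∉ V k α j := by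
  intro h
  obtain ⟨f, hf, hfe⟩ := mem_V_iff.mp h
  have hm : (Polynomial.X ^ j - f).Monic := Polynomial.monic_X_pow_sub hf
  have hd : (Polynomial.X ^ j - f : Polynomial k).degree = (j : WithBot ℕ) := by
    rw [Polynomial.degree_sub_eq_left_of_degree_lt] <;> simpa using hf
  have h1 := minpoly.min k α hm (by simp [hfe])
  rw [hd, Polynomial.degree_eq_natDegree (minpoly.ne_zero hα)] at h1
  have : (minpoly k α).natDegree ≤ j := by exact_mod_cast h1
  omega

lemma V_eq_top (hα : IsIntegral k α) (hgen : ∀ z : L, z ∈ Algebra.adjoin k ({α} : Set L)) :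
    V k α (minpoly k α).natDegree = ⊤ := by
  rw [eq_top_iff]
  intro z _
  have hz := hgen z
  rw [Algebra.adjoin_singleton_eq_range_aeval] at hz
  obtain ⟨f, rfl⟩ := hz
  rw [mem_V_iff]
  refine ⟨f %ₘ minpoly k α, ?_, ?_⟩
  · have := Polynomial.degree_modByMonic_lt f (minpoly.monic hα)
    rwa [Polynomial.degree_eq_natDegree (minpoly.ne_zero hα)] at this
  · exact Polynomial.aeval_modByMonic_eq_self_of_root (minpoly.aeval k α)

end Minpoly

end Cfsg.Agent.RootSub.SF
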