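import Cfsg.Agent.RootSub.SF
import Cfsg.Agent.RootSub.SL2

/-!
# `⟨up(k), lo(kα)⟩`: the subspace of upper unitriangular elements, the case of infinite `k`.
-/

set_option autoImplicit false
set_option linter.unusedSectionVars false

namespace Cfsg.Agent.RootSub

open Matrix

section

variable {k L : Type*} [Field k] [Field L] [Algebra k L]

/-- the generating set of the group `⟨up(k), lo(kα)⟩` -/
def genSet (k : Type*) {L : Type*} [Field k] [Field L] [Algebra k L] (α : L) :
    Set (SpecialLinearGroup (Fin 2) L) :=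
  {g | ∃ c : k, g = upM (algebraMap k L c)} ∪ {g | ∃ c : k, g = loM (algebraMap k L c * α)}

/-- the group `⟨up(k), lo(kα)⟩` -/
def HH (k : Type*) {L : Type*} [Field k] [Field L] [Algebra k L] (α : L) :
    Subgroup (SpecialLinearGroup (Fin 2) L) := Subgroup.closure (genSet k α)

variable {α : L}

lemma up_mem_HH (c : k) : upM (algebraMap k L c) ∈ HH k α :=
  Subgroup.subset_closure (Or.inl ⟨c, rfl⟩)

lemma lo_mem_HH (c : k) : loM (algebraMap k L c * α) ∈ HH k α :=
  Subgroup.subset_closure (Or.inr ⟨c, rfl⟩)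

/-- diagonal matrix -/
def ddM (s : L) (hs : s ≠ 0) : SpecialLinearGroup (Fin 2) L :=
  ⟨!![s, 0; 0, s⁻¹], by simp [det_fin_two, hs]⟩

@[simp] lemma ddM_val (s : L) (hs : s ≠ 0) :
    (ddM s hs : Matrix (Fin 2) (Fin 2) L) = !![s, 0; 0, s⁻¹] := rfl

lemma ddM_up (s : L) (hs : s ≠ 0) (r : L) : ddM s hs * upM r = upM (s * s * r) * ddM s hs := by
  apply sl2_ext <;> simp [Matrix.mul_apply, Fin.sum_univ_two]
  field_simp

lemma ddM_lo (s : L) (hs : s ≠ 0) (r : L) : ddM s hs * loM r = loM (s⁻¹ * s⁻¹ * r) * ddM s hs := by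
  apply sl2_ext <;> simp [Matrix.mul_apply, Fin.sum_univ_two]
  field_simp

lemma conj_dd_mem {t : k} (ht : t ≠ 0) {g : SpecialLinearGroup (Fin 2) L} (hg : g ∈ HH k α)
    (hs : algebraMap k L t ≠ 0) :
    ddM (algebraMap k L t) hs * g * (ddM (algebraMap k L t) hs)⁻¹ ∈ HH k α := by
  induction hg using Subgroup.closure_induction with
  | mem x hx =>
    rcases hx with ⟨c, rfl⟩ | ⟨c, rfl⟩
    · rw [ddM_up, mul_inv_cancel_right, ← map_mul, ← map_mul]
      exact up_mem_HH _
    · rw [ddM_lo, mul_inv_cancel_right, ← map_inv₀, ← mul_assoc, ← map_mul, ← map_mul]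
      exact lo_mem_HH _
  | one => simp [Subgroup.one_mem]
  | mul x y _ _ ihx ihy =>
    have : ddM (algebraMap k L t) hs * (x * y) * (ddM (algebraMap k L t) hs)⁻¹ =
      (ddM (algebraMap k L t) hs * x * (ddM (algebraMap k L t) hs)⁻¹) *
        (ddM (algebraMap k L t) hs * y * (ddM (algebraMap k L t) hs)⁻¹) := by group
    rw [this]
    exact Subgroup.mul_mem _ ihx ihy
  | inv x _ ih =>
    have : ddM (algebraMap k L t) hs * x⁻¹ * (ddM (algebraMap k L t) hs)⁻¹ =
      (ddM (algebraMap k L t) hs * x * (ddM (algebraMap k L t) hs)⁻¹)⁻¹ := by group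
    rw [this]
    exact Subgroup.inv_mem _ ih

lemma up_sq_mem {a : L} (ha : upM a ∈ HH k α) (t : k) : upM (algebraMap k L (t * t) * a) ∈ HH k α := by
  by_cases ht : t = 0
  · subst ht
    simp [upM_zero, Subgroup.one_mem]
  · have hs : algebraMap k L t ≠ 0 := by
      simpa using ht
    have := conj_dd_mem ht ha hs
    rwa [ddM_up, mul_inv_cancel_right, ← map_mul] at this

/-- the swap twisted by `α` -/
noncomputable def psiFun (α : L) (hα : α ≠ 0) (g : SpecialLinearGroup (Fin 2) L) : SpecialLinearGroup (Fin 2) L :=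
  ⟨!![(g : Matrix (Fin 2) (Fin 2) L) 1 1, (g : Matrix (Fin 2) (Fin 2) L) 1 0 / α;
      α * (g : Matrix (Fin 2) (Fin 2) L) 0 1, (g : Matrix (Fin 2) (Fin 2) L) 0 0], by
        have h := g.2
        rw [det_fin_two] at h ⊢
        simp only [of_apply, cons_val', cons_val_zero, cons_val_one]
        have : (g : Matrix (Fin 2) (Fin 2) L) 1 0 / α * (α * (g : Matrix (Fin 2) (Fin 2) L) 0 1) =
            (g : Matrix (Fin 2) (Fin 2) L) 1 0 * (g : Matrix (Fin 2) (Fin 2) L) 0 1 := by
          field_simp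
        rw [this]
        linear_combination h⟩

@[simp] lemma psiFun_val (α : L) (hα : α ≠ 0) (g : SpecialLinearGroup (Fin 2) L) :
    (psiFun α hα g : Matrix (Fin 2) (Fin 2) L) = !![(g : Matrix (Fin 2) (Fin 2) L) 1 1, (g : Matrix (Fin 2) (Fin 2) L) 1 0 / α;
      α * (g : Matrix (Fin 2) (Fin 2) L) 0 1, (g : Matrix (Fin 2) (Fin 2) L) 0 0] := rfl

/-- the swap twisted by `α` as a homomorphism -/
noncomputable def psiHom (α : L) (hα : α ≠ 0) : SpecialLinearGroup (Fin 2) L →* SpecialLinearGroup (Fin 2) L :=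
  MonoidHom.mk' (psiFun α hα) (by
      intro g h
      apply sl2_ext <;> simp [Matrix.mul_apply, Fin.sum_univ_two] <;> field_simp <;> ring)

lemma psiHom_apply (hα : α ≠ 0) (g : SpecialLinearGroup (Fin 2) L) : psiHom α hα g = psiFun α hα g := rfl

lemma psi_up (hα : α ≠ 0) (a : L) : psiHom α hα (upM a) = loM (α * a) := by
  rw [psiHom_apply]
  apply sl2_ext <;> simp

lemma psi_lo (hα : α ≠ 0) (b : L) : psiHom α hα (loM b) = upM (b / α) := by
  rw [psiHom_apply]
  apply sl2_ext <;> simp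

lemma psi_mem (hα : α ≠ 0) {g : SpecialLinearGroup (Fin 2) L} (hg : g ∈ HH k α) :
    psiHom α hα g ∈ HH k α := by
  induction hg using Subgroup.closure_induction with
  | mem x hx =>
    rcases hx with ⟨c, rfl⟩ | ⟨c, rfl⟩
    · rw [psi_up, mul_comm]
      exact lo_mem_HH _
    · rw [psi_lo, mul_div_assoc, div_self hα, mul_one]
      exact up_mem_HH _
  | one => simp [Subgroup.one_mem]
  | mul x y _ _ ihx ihy =>
    rw [map_mul]
    exact Subgroup.mul_mem _ ihx ihy
  | inv x _ ih =>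
    rw [map_inv]
    exact Subgroup.inv_mem _ ih

lemma up_iff_lo (hα : α ≠ 0) {a : L} : upM a ∈ HH k α ↔ loM (α * a) ∈ HH k α := by
  constructor
  · intro h
    have := psi_mem hα h
    rwa [psi_up] at this
  · intro h
    have := psi_mem hα h
    rwa [psi_lo, mul_div_cancel_left₀ _ hα] at this

/-- the subspace of upper unitriangular elements -/
def Asub (k : Type*) {L : Type*} [Field k] [Field L] [Algebra k L] (α : L) (h2 : (2 : k) ≠ 0) : Submodule k L where
  carrier := {a | upM a ∈ HH k α}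
  add_mem' := by
    intro a b ha hb
    have := Subgroup.mul_mem (HH k α) (show upM a ∈ HH k α from ha) hb
    rwa [upM_mul] at this
  zero_mem' := by
    change upM (0 : L) ∈ HH k α
    rw [upM_zero]
    exact Subgroup.one_mem _
  smul_mem' := by
    intro c a ha
    set x : k := (c + 1) / 2 with hx
    set y : k := (c - 1) / 2 with hy
    have hc : c = x * x - y * y := by
      rw [hx, hy]
      field_simp
      ring
    have e : c • a = algebraMap k L (x * x) * a + -(algebraMap k L (y * y) * a) := by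
      rw [Algebra.smul_def, hc, map_sub]
      ring
    change upM (c • a) ∈ HH k α
    rw [e, ← upM_mul, ← upM_inv]
    exact Subgroup.mul_mem _ (up_sq_mem ha x) (Subgroup.inv_mem _ (up_sq_mem ha y))

lemma mem_Asub {h2 : (2 : k) ≠ 0} {a : L} : a ∈ Asub k α h2 ↔ upM a ∈ HH k α := Iff.rfl

lemma one_mem_Asub {h2 : (2 : k) ≠ 0} : (1 : L) ∈ Asub k α h2 := by
  have := up_mem_HH (L := L) (α := α) (1 : k)
  rwa [map_one] at this

lemma HH_eq_top_of_A (hα : α ≠ 0) (h : ∀ a : L, upM a ∈ HH k α) : HH k α = ⊤ := by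
  rw [eq_top_iff, ← sl2_generated (k := L)]
  apply sup_le
  · intro g hg
    obtain ⟨t, rfl⟩ := mem_lower.mp hg
    have := (up_iff_lo (k := k) hα (a := t / α)).mp (h _)
    rwa [mul_div_cancel₀ _ hα] at this
  · intro g hg
    obtain ⟨t, rfl⟩ := mem_upper.mp hg
    exact h t

/-- the group element with zero upper left entry -/
lemma A_mul_of_zero (hα : α ≠ 0) {h2 : (2 : k) ≠ 0} {W : SpecialLinearGroup (Fin 2) L} (hW : W ∈ HH k α)
    (h0 : (W : Matrix (Fin 2) (Fin 2) L) 0 0 = 0) {f : L} (hf : f ∈ Asub k α h2) :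
    f * ((W : Matrix (Fin 2) (Fin 2) L) 1 0 * (W : Matrix (Fin 2) (Fin 2) L) 1 0 / α) ∈ Asub k α h2 := by
  set v := (W : Matrix (Fin 2) (Fin 2) L) 1 0 with hv
  have hdet : -(W : Matrix (Fin 2) (Fin 2) L) 0 1 * v = 1 := by
    have h := W.2
    rw [det_fin_two, h0] at h
    rw [hv]
    linear_combination h
  have e : W * upM f = loM (-(f * (v * v))) * W := by
    apply sl2_ext <;> simp [Matrix.mul_apply, Fin.sum_univ_two, h0, ← hv]
    linear_combination (-(f * v)) * hdet
  have e2 : W * upM f * W⁻¹ = loM (-(f * (v * v))) := by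
    rw [e, mul_inv_cancel_right]
  have h3 : loM (-(f * (v * v))) ∈ HH k α := by
    rw [← e2]
    exact Subgroup.mul_mem _ (Subgroup.mul_mem _ hW hf) (Subgroup.inv_mem _ hW)
  have h4 : -(f * (v * v)) = α * (-(f * (v * v / α))) := by
    field_simp
  rw [h4, ← up_iff_lo hα, ← upM_inv, inv_mem_iff] at h3
  exact h3

lemma inv_mem_of_mul_mem [FiniteDimensional k L] {A : Submodule k L} {ρ : L} (hρ : ρ ≠ 0)
    (h : ∀ f ∈ A, f * ρ ∈ A) (h1 : (1 : L) ∈ A) : ρ⁻¹ ∈ A := by
  let g : A →ₗ[k] A := (LinearMap.mulRight k ρ).restrict (fun f hf => h f hf)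
  have hinj : Function.Injective g := by
    intro x y hxy
    have := congrArg Subtype.val hxy
    have h2 : (x : L) * ρ = y * ρ := this
    exact Subtype.ext (mul_right_cancel₀ hρ h2)
  have hsurj := LinearMap.surjective_of_injective hinj
  obtain ⟨x, hx⟩ := hsurj ⟨1, h1⟩
  have h2 : (x : L) * ρ = 1 := congrArg Subtype.val hx
  have : ρ⁻¹ = x := (eq_inv_of_mul_eq_one_left h2).symm
  rw [this]
  exact x.2

theorem A_top_of_infinite [Infinite k] [FiniteDimensional k L] (h2 : (2 : k) ≠ 0) (hα : α ≠ 0)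
    (hgen : ∀ z : L, z ∈ Algebra.adjoin k ({α} : Set L)) : Asub k α h2 = ⊤ := by
  classical
  open SF in
  have hint : IsIntegral k α := IsIntegral.of_finite k α
  set n := (minpoly k α).natDegree with hn
  have hn0 : 0 < n := minpoly.natDegree_pos hint
  have hind : ∀ j < n, α ^ j ∉ SF.V k α j := fun j hj => SF.pow_notMem_V hint hj
  have htop : SF.V k α n = ⊤ := SF.V_eq_top hint hgen
  have h2L : (2 : L) ≠ 0 := by
    intro h
    apply h2
    have : algebraMap k L 2 = 0 := by rw [map_ofNat, h]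
    simpa using this
  -- the functional
  obtain ⟨ξ, hξ0, hξ1⟩ : ∃ ξ : L →ₗ[k] k, (∀ z ∈ SF.V k α (n - 1), ξ z = 0) ∧ ξ (α ^ (n - 1)) = 1 := by
    have hnm : α ^ (n - 1) ∉ SF.V k α (n - 1) := hind _ (by omega)
    obtain ⟨f, hf1, hf2⟩ := Submodule.exists_le_ker_of_notMem hnm
    refine ⟨(f (α ^ (n - 1)))⁻¹ • f, ?_, ?_⟩
    · intro z hz
      have : f z = 0 := hf2 hz
      simp [this]
    · simp [hf1]
  by_contra hA
  obtain ⟨lam, hlam, hle⟩ := Submodule.exists_le_ker_of_lt_top _ (lt_top_iff_ne_top.mpr hA)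
  obtain ⟨u, hu0, hgood, hl⟩ := SF.exists_good (k := k) (α := α) (n := n) (ξ := ξ) h2L hα hξ0 hξ1 lam hlam
  -- the recursion
  let R : L → L → Prop := fun p q => ∃ W ∈ HH k α, (W : Matrix (Fin 2) (Fin 2) L) 0 0 = p ∧
    (W : Matrix (Fin 2) (Fin 2) L) 1 0 = q
  have hR0 : R 1 0 := ⟨1, Subgroup.one_mem _, by simp, by simp⟩
  have hRu : ∀ p q (c : k), R p q → R (p + c • q) q := by
    rintro p q c ⟨W, hW, rfl, rfl⟩
    refine ⟨upM (algebraMap k L c) * W, Subgroup.mul_mem _ (up_mem_HH c) hW, ?_, ?_⟩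
    · simp [Matrix.mul_apply, Fin.sum_univ_two, Algebra.smul_def]
    · simp [Matrix.mul_apply, Fin.sum_univ_two]
  have hRl : ∀ p q (c : k), R p q → R p (q + c • (α * p)) := by
    rintro p q c ⟨W, hW, rfl, rfl⟩
    refine ⟨loM (algebraMap k L c * α) * W, Subgroup.mul_mem _ (lo_mem_HH c) hW, ?_, ?_⟩
    · simp [Matrix.mul_apply, Fin.sum_univ_two]
    · simp [Matrix.mul_apply, Fin.sum_univ_two, Algebra.smul_def]
      ring
  obtain ⟨v, ⟨W, hW, hW0, rfl⟩, horth⟩ := SF.lanczos hR0 hRu hRl hn0 hind htop hgood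
  set v := (W : Matrix (Fin 2) (Fin 2) L) 1 0 with hv
  have hv0 : v ≠ 0 := by
    intro h
    have h3 := W.2
    rw [det_fin_two, hW0, ← hv, h] at h3
    simp at h3
  have hy : u * v ∈ SF.V k α 1 := by
    refine SF.mem_V_one_of_orth hn0 hξ0 hξ1 htop ?_
    intro w hw
    have := horth w hw
    rwa [SF.lu_apply, ← mul_assoc] at this
  obtain ⟨t, ht⟩ := SF.exists_scalar_of_mem_V_one hy
  set ρ := v * v / α with hρ
  have hρ0 : ρ ≠ 0 := div_ne_zero (mul_ne_zero hv0 hv0) hα
  have hinv : ρ⁻¹ ∈ Asub k α h2 :=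
    inv_mem_of_mul_mem hρ0 (fun f hf => A_mul_of_zero hα hW hW0 hf) one_mem_Asub
  have hmem : α * (u * u) ∈ Asub k α h2 := by
    have e : α * (u * u) = (t * t) • ρ⁻¹ := by
      rw [Algebra.smul_def, map_mul, ← ht, hρ]
      field_simp
    rw [e]
    exact Submodule.smul_mem _ _ hinv
  exact hl (hle hmem)

end

end Cfsg.Agent.RootSub
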