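import Mathlib

/-!
# Sharply two-transitive groups with commutative stabilizers

The fixed-point-free elements together with `1` form a commutative regular normal subgroup.
-/

set_option autoImplicit false

namespace Cfsg.Agent.RootSub

/-- Sharply two-transitive action with commutative stabilizers. -/
structure Sharp2 (Γ Ω : Type*) [Group Γ] [MulAction Γ Ω] : Prop where
  two : ∃ x y : Ω, x ≠ y
  trans : ∀ x y x' y' : Ω, x ≠ y → x' ≠ y' → ∃ g : Γ, g • x = x' ∧ g • y = y'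
  uniq : ∀ (g : Γ) (x y : Ω), x ≠ y → g • x = x → g • y = y → g = 1
  ab : ∀ (g h : Γ) (x : Ω), g • x = x → h • x = x → g * h = h * g

namespace Sharp2

variable {Γ Ω : Type*} [Group Γ] [MulAction Γ Ω] (hs : Sharp2 Γ Ω)
include hs

lemma exists_ne (x : Ω) : ∃ y : Ω, y ≠ x := by
  obtain ⟨a, b, hab⟩ := hs.two
  by_cases h : a = x
  · exact ⟨b, fun e => hab (h.trans e.symm)⟩
  · exact ⟨a, h⟩

lemma sw_exists {x y : Ω} (hxy : x ≠ y) : ∃ t : Γ, t • x = y ∧ t • y = x ∧ t * t = 1 ∧ t ≠ 1 := by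
  obtain ⟨t, h1, h2⟩ := hs.trans x y y x hxy hxy.symm
  refine ⟨t, h1, h2, ?_, ?_⟩
  · apply hs.uniq _ x y hxy
    · rw [mul_smul, h1, h2]
    · rw [mul_smul, h2, h1]
  · rintro rfl
    rw [one_smul] at h1
    exact hxy h1

lemma inv_eq_of_sq {t : Γ} (h : t * t = 1) : t⁻¹ = t := inv_eq_of_mul_eq_one_left h

lemma swap_unique {t t' : Γ} {x y : Ω} (hxy : x ≠ y) (ht : t • x = y) (ht2 : t * t = 1) (ht' : t' • x = y)
    (ht2' : t' * t' = 1) : t = t' := by
  have h1 : t • y = x := by rw [← ht, ← mul_smul, ht2, one_smul]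
  have h2 : t' • y = x := by rw [← ht', ← mul_smul, ht2', one_smul]
  have : t' * t = 1 := by
    apply hs.uniq _ x y hxy
    · rw [mul_smul, ht, h2]
    · rw [mul_smul, h1, ht']
  have e : t'⁻¹ = t' := inv_eq_of_mul_eq_one_left ht2'
  calc t = t'⁻¹ * (t' * t) := by group
    _ = t' := by rw [this, mul_one, e]

/-- at most one involution in a stabilizer -/
lemma stab_inv_unique {i j : Γ} {m : Ω} (hi : i ≠ 1) (hi2 : i * i = 1) (him : i • m = m) (hj : j ≠ 1)
    (hj2 : j * j = 1) (hjm : j • m = m) : i = j := by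
  obtain ⟨x, hxm⟩ := hs.exists_ne m
  have hix : i • x ≠ x := fun e => hi (hs.uniq i x m hxm e him)
  have hjx : j • x ≠ x := fun e => hj (hs.uniq j x m hxm e hjm)
  obtain ⟨g, h1, h2⟩ := hs.trans x (i • x) x (j • x) hix.symm hjx.symm
  -- `g i g⁻¹ = j`
  have e1 : g * i * g⁻¹ = j := by
    apply hs.swap_unique (x := x) (y := j • x) hjx.symm
    · have : g⁻¹ • x = x := by
        conv_lhs => rw [← h1]
        rw [inv_smul_smul]
      rw [mul_smul, mul_smul, this, h2]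
    · calc g * i * g⁻¹ * (g * i * g⁻¹) = g * (i * i) * g⁻¹ := by group
        _ = 1 := by rw [hi2]; group
    · rfl
    · exact hj2
  have e2 : g • m = m := by
    by_contra hne
    apply hj
    apply hs.uniq j m (g • m) (Ne.symm hne) hjm
    rw [← e1, mul_smul, mul_smul, inv_smul_smul, him]
  have e3 : g = 1 := hs.uniq g x m hxm h1 e2
  subst e3
  simp only [one_smul] at h2
  apply hs.swap_unique (x := x) (y := j • x) hjx.symm h2 hi2 rfl hj2

/-- Lemma A. -/
lemma prod_fpf {i j : Γ} (hi : i ≠ 1) (hi2 : i * i = 1) (hj : j ≠ 1) (hj2 : j * j = 1) (hne : i ≠ j) (m : Ω) :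
    (i * j) • m ≠ m := by
  intro e
  have eii : i⁻¹ = i := inv_eq_of_mul_eq_one_left hi2
  have ejj : j⁻¹ = j := inv_eq_of_mul_eq_one_left hj2
  have hk : i * j ≠ 1 := by
    intro h
    apply hne
    have : i = j⁻¹ := eq_inv_of_mul_eq_one_left h
    rw [this, ejj]
  have e1 : (j * i) • m = m := by
    have : (i * j)⁻¹ • m = m := by
      conv_lhs => rw [← e]
      rw [inv_smul_smul]
    rwa [mul_inv_rev, ejj, eii] at this
  have e2 : (i * j) • (i • m) = i • m := by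
    rw [← mul_smul]
    have : i * j * i = i * (j * i) := by group
    rw [this, mul_smul, e1]
  have e3 : i • m = m := by
    by_contra hne2
    exact hk (hs.uniq _ (i • m) m hne2 e2 e)
  have e4 : j • m = m := by
    have : i • (j • m) = i • m := by
      rw [← mul_smul, e, e3]
    exact MulAction.injective i this
  exact hne (hs.stab_inv_unique hi hi2 e3 hj hj2 e4)

/-- Lemma B. -/
lemma fpf_decomp {u t : Γ} (hu : ∀ z : Ω, u • z ≠ z) {x : Ω} (ht : t • x = u • x) (ht2 : t * t = 1) :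
    t * u = 1 ∨ ((t * u) ≠ 1 ∧ (t * u) * (t * u) = 1) := by
  by_cases hb : t * u = 1
  · exact Or.inl hb
  right
  refine ⟨hb, ?_⟩
  set b := t * u with hbdef
  have hbx : b • x = x := by
    rw [hbdef, mul_smul, ← ht, ← mul_smul, ht2, one_smul]
  have hy : u • x ≠ x := hu x
  obtain ⟨w₀, hw₀⟩ := hs.exists_ne x
  have hbw : b • w₀ ≠ w₀ := fun e => hb (hs.uniq b w₀ x hw₀ e hbx)
  obtain ⟨r, hr1, hr2, hr3, hr4⟩ := hs.sw_exists hbw.symm
  by_cases hw : r • x = x
  · have : b = r := by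
      have h1 : r⁻¹ * b = 1 := by
        apply hs.uniq _ w₀ x hw₀
        · rw [mul_smul, ← hr1, inv_smul_smul]
        · rw [mul_smul, hbx, inv_smul_eq_iff, hw]
      calc b = r * (r⁻¹ * b) := by group
        _ = r := by rw [h1, mul_one]
    rw [this]; exact hr3
  · exfalso
    obtain ⟨a, ha1, ha2⟩ := hs.trans x (r • x) x (u • x) (Ne.symm hw) hy.symm
    have e1 : a * r * a⁻¹ = t := by
      have hax : a⁻¹ • x = x := by
        conv_lhs => rw [← ha1]
        rw [inv_smul_smul]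
      apply hs.swap_unique (x := x) (y := u • x) hy.symm
      · rw [mul_smul, mul_smul, hax, ha2]
      · calc a * r * a⁻¹ * (a * r * a⁻¹) = a * (r * r) * a⁻¹ := by group
          _ = 1 := by rw [hr3]; group
      · exact ht
      · exact ht2
    have hab : a * b = b * a := hs.ab a b x ha1 hbx
    have e2 : t • (a • w₀) = b • (a • w₀) := by
      rw [← e1, mul_smul, mul_smul, inv_smul_smul, hr1, ← mul_smul, ← mul_smul, hab]
    apply hu (a • w₀)
    have e3 : u = t * b := by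
      rw [hbdef, ← mul_assoc, ht2, one_mul]
    rw [e3, mul_smul, ← e2, ← mul_smul, ht2, one_smul]

/-- conjugating swaps -/
lemma exists_fixed_of_inv {i t : Γ} {m : Ω} (hi : i ≠ 1) (hi2 : i * i = 1) (him : i • m = m) (ht : t ≠ 1) (ht2 : t * t = 1) :
    ∃ z : Ω, t • z = z := by
  obtain ⟨x₀, hx₀⟩ := hs.exists_ne m
  have hix : i • x₀ ≠ x₀ := fun e => hi (hs.uniq i x₀ m hx₀ e him)
  -- `t` moves some point
  obtain ⟨y₀, hy₀⟩ : ∃ y₀ : Ω, t • y₀ ≠ y₀ := by
    by_contra hcon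
    push Not at hcon
    obtain ⟨a, b, hab⟩ := hs.two
    exact ht (hs.uniq t a b hab (hcon a) (hcon b))
  obtain ⟨g, h1, h2⟩ := hs.trans x₀ (i • x₀) y₀ (t • y₀) hix.symm hy₀.symm
  have e : g * i * g⁻¹ = t := by
    have hg : g⁻¹ • y₀ = x₀ := by rw [← h1, inv_smul_smul]
    apply hs.swap_unique (x := y₀) (y := t • y₀) hy₀.symm
    · rw [mul_smul, mul_smul, hg, h2]
    · calc g * i * g⁻¹ * (g * i * g⁻¹) = g * (i * i) * g⁻¹ := by group
        _ = 1 := by rw [hi2]; group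
    · rfl
    · exact ht2
  refine ⟨g • m, ?_⟩
  rw [← e, mul_smul, mul_smul, inv_smul_smul, him]

/-- existence of a nontrivial fixed point free element -/
lemma exists_fpf : ∃ u : Γ, u ≠ 1 ∧ ∀ z : Ω, u • z ≠ z := by
  obtain ⟨x, y, hxy⟩ := hs.two
  obtain ⟨t, h1, h2, h3, h4⟩ := hs.sw_exists hxy
  by_cases hfp : ∀ z : Ω, t • z ≠ z
  · exact ⟨t, h4, hfp⟩
  · push Not at hfp
    obtain ⟨m, hm⟩ := hfp
    -- `m ≠ x`
    have hmx : m ≠ x := by
      rintro rfl
      exact hxy (hm.symm.trans h1)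
    obtain ⟨g, g1, g2⟩ := hs.trans m x x y hmx hxy
    set j := g * t * g⁻¹ with hj
    have hgm : g⁻¹ • x = m := by rw [← g1, inv_smul_smul]
    have hjx : j • x = x := by
      rw [hj, mul_smul, mul_smul, hgm, hm, g1]
    have hj1 : j ≠ 1 := by
      intro e
      apply h4
      have : t = g⁻¹ * j * g := by rw [hj]; group
      rw [this, e]; group
    have hj2 : j * j = 1 := by
      calc j * j = g * (t * t) * g⁻¹ := by rw [hj]; group
        _ = 1 := by rw [h3]; group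
    have hne : t ≠ j := by
      intro e
      have e2 : t • x = x := by rw [e]; exact hjx
      exact hxy (e2.symm.trans h1)
    have := hs.prod_fpf h4 h3 hj1 hj2 hne
    refine ⟨t * j, ?_, this⟩
    intro e
    exact this x (by rw [e, one_smul])

/-- The main theorem. -/
theorem translations : ∃ W : Subgroup Γ, (∀ g, g ∈ W ↔ g = 1 ∨ ∀ z : Ω, g • z ≠ z) ∧ (∀ u ∈ W, ∀ v ∈ W, u * v = v * u) := by
  by_cases hinv : ∃ (i : Γ) (m : Ω), i ≠ 1 ∧ i * i = 1 ∧ i • m = m
  · -- case I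
    obtain ⟨i₀, m₀, hi₀, hi₀2, hi₀m⟩ := hinv
    obtain ⟨x₀, hx₀⟩ := hs.exists_ne m₀
    -- an involution `ι` fixing `m₀`: use `i₀`
    have key : ∀ u : Γ, (u = 1 ∨ ∀ z : Ω, u • z ≠ z) → ∃ t : Γ, t ≠ 1 ∧ t * t = 1 ∧ u = t * i₀ := by
      rintro u (rfl | hu)
      · exact ⟨i₀, hi₀, hi₀2, by rw [hi₀2]⟩
      · have hy := hu m₀
        obtain ⟨t, h1, h2, h3, h4⟩ := hs.sw_exists hy.symm
        rcases hs.fpf_decomp hu h1 h3 with e | ⟨e1, e2⟩
        · -- `t u = 1` so `u = t`, `u` is an involution with a fixed point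
          exfalso
          have hut : u = t := by
            have : u = t⁻¹ := eq_inv_of_mul_eq_one_right e
            rwa [inv_eq_of_mul_eq_one_left h3] at this
          obtain ⟨z, hz⟩ := hs.exists_fixed_of_inv hi₀ hi₀2 hi₀m h4 h3
          rw [← hut] at hz
          exact hu z hz
        · have hfix : (t * u) • m₀ = m₀ := by
            rw [mul_smul, ← h1, ← mul_smul, h3, one_smul]
          have : t * u = i₀ := hs.stab_inv_unique e1 e2 hfix hi₀ hi₀2 hi₀m
          refine ⟨t, h4, h3, ?_⟩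
          rw [← this, ← mul_assoc, h3, one_mul]
    have eii : i₀⁻¹ = i₀ := inv_eq_of_mul_eq_one_left hi₀2
    have hT_sub : ∀ u v : Γ, (u = 1 ∨ ∀ z : Ω, u • z ≠ z) → (v = 1 ∨ ∀ z : Ω, v • z ≠ z) →
        (u * v⁻¹ = 1 ∨ ∀ z : Ω, (u * v⁻¹) • z ≠ z) := by
      intro u v hu hv
      obtain ⟨t₁, ht₁1, ht₁, e₁⟩ := key u hu
      obtain ⟨t₂, ht₂1, ht₂, e₂⟩ := key v hv
      have e3 : u * v⁻¹ = t₁ * t₂⁻¹ := by
        rw [e₁, e₂, mul_inv_rev, eii]
        calc t₁ * i₀ * (i₀ * t₂⁻¹) = t₁ * (i₀ * i₀) * t₂⁻¹ := by group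
          _ = t₁ * t₂⁻¹ := by rw [hi₀2]; group
      rw [e3, inv_eq_of_mul_eq_one_left ht₂]
      by_cases h12 : t₁ = t₂
      · left; rw [h12, ht₂]
      · right
        exact hs.prod_fpf ht₁1 ht₁ ht₂1 ht₂ h12
    have hinvert : ∀ u : Γ, (u = 1 ∨ ∀ z : Ω, u • z ≠ z) → i₀ * u * i₀ = u⁻¹ := by
      intro u hu
      obtain ⟨t, -, ht, e⟩ := key u hu
      rw [e, mul_inv_rev, eii, inv_eq_of_mul_eq_one_left ht]
      calc i₀ * (t * i₀) * i₀ = i₀ * t * (i₀ * i₀) := by group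
        _ = i₀ * t := by rw [hi₀2]; group
    refine ⟨Subgroup.ofDiv {g | g = 1 ∨ ∀ z : Ω, g • z ≠ z} ⟨1, Or.inl rfl⟩ (fun x hx y hy => hT_sub x y hx hy), ?_, ?_⟩
    · intro g
      exact Iff.rfl
    · intro u hu v hv
      have huv : u * v ∈ Subgroup.ofDiv {g | g = 1 ∨ ∀ z : Ω, g • z ≠ z} ⟨1, Or.inl rfl⟩ (fun x hx y hy => hT_sub x y hx hy) :=
        Subgroup.mul_mem _ hu hv
      have h1 := hinvert _ huv
      have h2 := hinvert u hu
      have h3 := hinvert v hv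
      have h4 : i₀ * (u * v) * i₀ = (i₀ * u * i₀) * (i₀ * v * i₀) := by
        calc i₀ * (u * v) * i₀ = i₀ * u * v * i₀ := by group
          _ = i₀ * u * ((i₀ * i₀) * v) * i₀ := by rw [hi₀2]; group
          _ = (i₀ * u * i₀) * (i₀ * v * i₀) := by group
      rw [h4, h2, h3, mul_inv_rev] at h1
      -- `u⁻¹ v⁻¹ = v⁻¹ u⁻¹`
      have h5 : (u⁻¹ * v⁻¹)⁻¹ = (v⁻¹ * u⁻¹)⁻¹ := by rw [h1]
      simpa using h5.symm
  · -- case II
    push Not at hinv
    have key : ∀ u : Γ, (u = 1 ∨ ∀ z : Ω, u • z ≠ z) → u * u = 1 := by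
      rintro u (rfl | hu)
      · simp
      · obtain ⟨x, -⟩ := hs.two
        obtain ⟨t, h1, h2, h3, h4⟩ := hs.sw_exists (hu x).symm
        rcases hs.fpf_decomp hu h1 h3 with e | ⟨e1, e2⟩
        · have hut : u = t := by
            have : u = t⁻¹ := eq_inv_of_mul_eq_one_right e
            rwa [inv_eq_of_mul_eq_one_left h3] at this
          rw [hut]; exact h3
        · exfalso
          refine hinv _ x e1 e2 ?_
          rw [mul_smul, ← h1, ← mul_smul, h3, one_smul]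
    have hT_sub : ∀ u v : Γ, (u = 1 ∨ ∀ z : Ω, u • z ≠ z) → (v = 1 ∨ ∀ z : Ω, v • z ≠ z) →
        (u * v⁻¹ = 1 ∨ ∀ z : Ω, (u * v⁻¹) • z ≠ z) := by
      intro u v hu hv
      have hv2 := key v hv
      have hu2 := key u hu
      rw [inv_eq_of_mul_eq_one_left hv2]
      by_cases h1 : u = 1
      · rw [h1, one_mul]; exact hv
      by_cases h2 : v = 1
      · rw [h2, mul_one]; exact hu
      by_cases h12 : u = v
      · left; rw [h12, hv2]
      · right
        exact hs.prod_fpf h1 hu2 h2 hv2 h12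
    refine ⟨Subgroup.ofDiv {g | g = 1 ∨ ∀ z : Ω, g • z ≠ z} ⟨1, Or.inl rfl⟩ (fun x hx y hy => hT_sub x y hx hy), ?_, ?_⟩
    · intro g
      exact Iff.rfl
    · intro u hu v hv
      have huv : u * v ∈ Subgroup.ofDiv {g | g = 1 ∨ ∀ z : Ω, g • z ≠ z} ⟨1, Or.inl rfl⟩ (fun x hx y hy => hT_sub x y hx hy) :=
        Subgroup.mul_mem _ hu hv
      have h1 := key _ huv
      have h2 := key u hu
      have h3 := key v hv
      have e1 : u⁻¹ = u := inv_eq_of_mul_eq_one_left h2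
      have e2 : v⁻¹ = v := inv_eq_of_mul_eq_one_left h3
      have h4 : (u * v)⁻¹ = u * v := inv_eq_of_mul_eq_one_left h1
      rw [mul_inv_rev, e1, e2] at h4
      exact h4.symm

end Sharp2

end Cfsg.Agent.RootSub
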