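import Cfsg.Agent.RootSub.Lines

/-!
# Specialness from a commuting member with a common rank one partner

If `A`, `C` commute, `A ≠ C`, and `(A, B)`, `(C, B)` are rank one pairs with `A`, `B` abelian, then
`(A, B)` is special.  No further hypothesis is needed.
-/

set_option autoImplicit false

namespace Cfsg.Agent.RootSub

open Cfsg

variable {G : Type*} [Group G]

/-- `conjBy` and elementwise commuting -/
lemma conj_bot_iff_comm {U V : Subgroup G} : ⁅U, V⁆ = ⊥ ↔ ∀ u ∈ U, ∀ v ∈ V, u * v = v * u := commutator_bot_iff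

/-- inverse commutes -/
lemma inv_mul_comm_of_comm {f d : G} (h : f * d = d * f) : f⁻¹ * d = d * f⁻¹ :=
  (Commute.inv_left (show Commute f d from h))

/-- `[x, f]` moves `A` to a member commuting with `A`. -/
lemma comm_conj_commutator {A B : Subgroup G} (hAB : IsRankOnePair A B) (hAab : ∀ x ∈ A, ∀ y ∈ A, x * y = y * x)
    {f : G} (hfA : ∀ a ∈ A, f * a = a * f) (hB2 : ⁅conjBy B f, B⁆ = ⊥) {x : G} (hx : x ∈ B) :
    ⁅conjBy A (x * f * x⁻¹ * f⁻¹), A⁆ = ⊥ := by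
  by_cases hx1 : x = 1
  · subst hx1
    simp only [one_mul, inv_one, mul_one, mul_inv_cancel, conj_one']
    exact commutator_bot_of_comm hAab
  obtain ⟨a, ha, ha1, e⟩ := exists_conj_eq' hAB (B.inv_mem hx) (by simpa using hx1)
  -- `conjBy A x⁻¹ = conjBy B a`
  have hfix : conjBy A f⁻¹ = A := conj_fix_of_comm (fun d hd => by
    have h1 := hfA d hd
    exact inv_mul_comm_of_comm h1)
  have e1 : conjBy A (x * f * x⁻¹ * f⁻¹) = conjBy (conjBy B f) (x * a) := by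
    rw [show x * f * x⁻¹ * f⁻¹ = (x * f) * x⁻¹ * f⁻¹ by group, ← conj_conj, hfix, ← conj_conj, e, conj_conj, conj_conj]
    have : x * f * a = x * a * f := by
      rw [mul_assoc, hfA a ha, mul_assoc]
    rw [this]
  have e2 : A = conjBy B (x * a) := by
    rw [← conj_conj, ← e, conj_conj]
    simp
  rw [e1]
  conv_lhs => rw [e2]
  exact conj_bot_of_bot hB2 (x * a)

/-- `x⁻¹ (f x f⁻¹)` can normalize `A` only for `x = 1`. -/
lemma eq_one_of_conj_fix {A B : Subgroup G} (hAB : IsRankOnePair A B)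
    {f : G} (hfA : ∀ a ∈ A, f * a = a * f) (hB2 : ⁅conjBy B f, B⁆ = ⊥) (hne : conjBy B f ≠ B) {x : G} (hx : x ∈ B)
    (h : conjBy A (x⁻¹ * (f * x * f⁻¹)) = A) : x = 1 := by
  by_contra hx1
  have hfix : conjBy A f = A := conj_fix_of_comm hfA
  have hr2 : IsRankOnePair A (conjBy B f) := by
    have := rankOne_conj hAB f
    rwa [hfix] at this
  have h1 : conjBy A (f * x * f⁻¹) = conjBy A x := by
    rw [show f * x * f⁻¹ = x * (x⁻¹ * (f * x * f⁻¹)) by group, ← conj_conj, h]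
  obtain ⟨a, ha, ha1, e⟩ := exists_conj_eq' hAB hx hx1
  have hP : conjBy A x ∈ pts A B := Or.inr ⟨a, ha, e⟩
  have hx' : f * x * f⁻¹ ∈ conjBy B f := conj_mem_conj f hx
  have hx'1 : f * x * f⁻¹ ≠ 1 := by
    intro e'
    apply hx1
    have := congrArg (fun z => f⁻¹ * z * f) e'
    simpa [mul_assoc] using this
  obtain ⟨a', ha', ha'1, e'⟩ := exists_conj_eq' hr2 hx' hx'1
  have hP2 : conjBy A x ∈ pts A (conjBy B f) := Or.inr ⟨a', ha', by rw [← h1, e']⟩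
  have hne1 : A ≠ conjBy A x := fun e3 => hx1 (eq_one_of_mem_of_conj_eq' hAB hx e3.symm)
  have e1 := pts_eq_of_mem hAB left_mem_pts hP hne1
  have e2 := pts_eq_of_mem hr2 left_mem_pts hP2 hne1
  have hB3 : conjBy B f ∈ pts A B := by
    rw [← e1, e2]
    exact right_mem_pts
  exact pts_not_comm hAB hB3 right_mem_pts hne (fun u hu v hv => comm_of_commutator_bot hB2 hu hv)

/-- Main Lemma -/
theorem special_of_comm_partner {A B C : Subgroup G} (hAB : IsRankOnePair A B) (hCB : IsRankOnePair C B)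
    (hAC : ⁅A, C⁆ = ⊥) (hne : A ≠ C) (hAab : ∀ x ∈ A, ∀ y ∈ A, x * y = y * x)
    (hBab : ∀ x ∈ B, ∀ y ∈ B, x * y = y * x) : IsSpecialRankOnePair A B := by
  refine ⟨hAB, ?_⟩
  intro a ha ha1 b hb hb1 hmatch
  -- first element: `f₀`
  obtain ⟨b₀, hb₀, hb₀1⟩ := exists_ne_one_right hAB
  obtain ⟨a₀, ha₀, ha₀1, c₀, hc₀, hc₀1, ea₀, ec₀, hcomm₀⟩ := exists_matched hAB hCB hAC hb₀ hb₀1
  set f₀ := c₀⁻¹ * a₀ with hf₀
  have hf₀A : ∀ x ∈ A, f₀ * x = x * f₀ := by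
    intro x hx
    have h1 : c₀⁻¹ * x = x * c₀⁻¹ := (comm_of_commutator_bot hAC hx (C.inv_mem hc₀)).symm
    rw [hf₀, mul_assoc, hAab a₀ ha₀ x hx, ← mul_assoc, h1, mul_assoc]
  have hf₀B : ⁅conjBy B f₀, B⁆ = ⊥ := by
    have := conj_bot_of_bot hcomm₀ c₀⁻¹
    rw [conj_conj, conj_conj] at this
    simpa using this
  have hf₀ne : conjBy B f₀ ≠ B := by
    intro e
    have e' : conjBy B a₀ = conjBy B c₀ := by
      rw [hf₀, ← conj_conj, conj_eq_iff] at e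
      simpa [conj_conj] using e
    have ha' : conjBy B a₀ ≠ B := fun e => ha₀1 (eq_one_of_mem_of_conj_eq hAB ha₀ e)
    have hP1 : conjBy B a₀ ∈ pts A B := Or.inr ⟨a₀, ha₀, rfl⟩
    have hP2 : conjBy B a₀ ∈ pts C B := by rw [e']; exact Or.inr ⟨c₀, hc₀, rfl⟩
    have e1 := pts_eq_of_mem hAB hP1 right_mem_pts ha'
    have e2 := pts_eq_of_mem hCB hP2 right_mem_pts ha'
    have hCmem : C ∈ pts A B := by
      rw [← e1, e2]; exact left_mem_pts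
    exact pts_not_comm hAB left_mem_pts hCmem hne (fun x hx y hy => comm_of_commutator_bot hAC hx hy)
  -- `g`
  set g := b₀ * f₀ * b₀⁻¹ * f₀⁻¹ with hg
  have hfb : ∀ x ∈ B, ∀ y ∈ conjBy B f₀, y * x = x * y := fun x hx y hy => comm_of_commutator_bot hf₀B hy hx
  have hgB : ∀ x ∈ B, g * x = x * g := by
    intro x hx
    have e : g = b₀ * (f₀ * b₀⁻¹ * f₀⁻¹) := by rw [hg]; group
    have h1 : f₀ * b₀⁻¹ * f₀⁻¹ ∈ conjBy B f₀ := conj_mem_conj f₀ (B.inv_mem hb₀)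
    rw [e, mul_assoc, hfb x hx _ h1, ← mul_assoc, hBab b₀ hb₀ x hx, mul_assoc]
  have hCg : ⁅conjBy A g, A⁆ = ⊥ := comm_conj_commutator hAB hAab hf₀A hf₀B hb₀
  have hCgne : conjBy A g ≠ A := by
    intro e
    have h1 : b₀⁻¹ = 1 := by
      apply eq_one_of_conj_fix hAB hf₀A hf₀B hf₀ne (B.inv_mem hb₀)
      rw [inv_inv, show b₀ * (f₀ * b₀⁻¹ * f₀⁻¹) = g by rw [hg]; group]
      exact e
    exact hb₀1 (by simpa using h1)
  -- the second element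
  set C' := conjBy A g with hC'
  set c' := g * a * g⁻¹ with hc'
  have hc'mem : c' ∈ C' := conj_mem_conj g ha
  set f := a * c'⁻¹ with hf
  have hC'A : ∀ x ∈ C', ∀ y ∈ A, x * y = y * x := fun x hx y hy => comm_of_commutator_bot hCg hx hy
  have hfA : ∀ x ∈ A, f * x = x * f := by
    intro x hx
    have h1 : c'⁻¹ * x = x * c'⁻¹ := hC'A _ (C'.inv_mem hc'mem) x hx
    rw [hf, mul_assoc, h1, ← mul_assoc, hAab a ha x hx, mul_assoc]
  have hgfixB : conjBy B g⁻¹ = B := conj_fix_of_comm (fun x hx => inv_mul_comm_of_comm (hgB x hx))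
  -- `P`
  have hgb : g * b⁻¹ = b⁻¹ * g := hgB _ (B.inv_mem hb)
  have eP : conjBy (conjBy A b⁻¹) g = conjBy C' b⁻¹ := by
    rw [conj_conj, hC', conj_conj, hgb]
  have eB2 : conjBy B f = conjBy (conjBy (conjBy A b⁻¹) g) a := by
    rw [hmatch, conj_conj, conj_conj]
    have : f = a * g * a⁻¹ * g⁻¹ := by
      rw [hf, hc']; group
    rw [this, ← conj_conj, hgfixB]
  have eB : B = conjBy (conjBy A b⁻¹) a := by
    rw [hmatch, conj_conj]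
    simp
  have hfB : ⁅conjBy B f, B⁆ = ⊥ := by
    rw [eB2, eP]
    conv_lhs => rw [eB]
    apply conj_bot_of_bot
    exact conj_bot_of_bot hCg b⁻¹
  have hfne : conjBy B f ≠ B := by
    intro e
    rw [eB2, eP] at e
    have e1 := e.trans eB
    have e2 : conjBy C' b⁻¹ = conjBy A b⁻¹ := conj_injective a e1
    exact hCgne (conj_injective b⁻¹ e2)
  -- the computation
  set t := b⁻¹ * a * b with ht
  have htmem : t ∈ conjBy B a⁻¹ := by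
    rw [← hmatch, mem_conj, inv_inv, ht]
    simpa [mul_assoc] using ha
  have hb₁ : a * t * a⁻¹ ∈ B := by
    rw [mem_conj, inv_inv] at htmem
    exact htmem
  set b₁ := a * t * a⁻¹ with hb₁def
  have et : t = a⁻¹ * b₁ * a := by
    rw [hb₁def]; group
  have hgb₁ : g * b₁ = b₁ * g := hgB _ hb₁
  have es : b⁻¹ * c' * b = c'⁻¹ * b₁ * c' := by
    have h1 : b⁻¹ * c' * b = g * t * g⁻¹ := by
      have : g * b = b * g := hgB _ hb
      have h3 : b⁻¹ * g = g * b⁻¹ := hgb.symm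
      have h4 : g⁻¹ * b = b * g⁻¹ := inv_mul_comm_of_comm this
      rw [hc', ht]
      calc b⁻¹ * (g * a * g⁻¹) * b = (b⁻¹ * g) * a * (g⁻¹ * b) := by group
        _ = g * (b⁻¹ * a * b) * g⁻¹ := by rw [h3, h4]; group
    rw [h1, et, hc']
    have h5 : g⁻¹ * b₁ = b₁ * g⁻¹ := inv_mul_comm_of_comm hgb₁
    calc g * (a⁻¹ * b₁ * a) * g⁻¹ = g * a⁻¹ * b₁ * a * g⁻¹ := by group
      _ = g * a⁻¹ * g⁻¹ * (g * b₁ * g⁻¹) * (g * a * g⁻¹) := by group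
      _ = g * a⁻¹ * g⁻¹ * b₁ * (g * a * g⁻¹) := by rw [hgb₁]; group
      _ = (g * a * g⁻¹)⁻¹ * b₁ * (g * a * g⁻¹) := by group
  set g₁ := b₁ * f * b₁⁻¹ * f⁻¹ with hg₁
  set g₂ := b⁻¹ * f * b * f⁻¹ with hg₂
  have e1 : b⁻¹ * f * b = a⁻¹ * g₁ * a := by
    have e3 : b⁻¹ * f * b = (b⁻¹ * a * b) * (b⁻¹ * c' * b)⁻¹ := by
      rw [hf]; group
    have e4 : f⁻¹ * a = c' := by rw [hf]; group
    rw [e3, ← ht, es, et, hg₁]
    calc a⁻¹ * b₁ * a * (c'⁻¹ * b₁ * c')⁻¹ = a⁻¹ * b₁ * (a * c'⁻¹) * b₁⁻¹ * c' := by group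
      _ = a⁻¹ * b₁ * f * b₁⁻¹ * (f⁻¹ * a) := by rw [e4, hf]
      _ = a⁻¹ * (b₁ * f * b₁⁻¹ * f⁻¹) * a := by group
  have e2 : b⁻¹ * f * b = g₂ * f := by rw [hg₂]; group
  -- `y`
  have hg₁C : ⁅conjBy A g₁, A⁆ = ⊥ := comm_conj_commutator hAB hAab hfA hfB hb₁
  have hg₁C' : ⁅A, conjBy A g₁⁻¹⁆ = ⊥ := by
    have := conj_bot_of_bot hg₁C g₁⁻¹
    rw [conj_conj] at this
    simpa using this
  set y := g₁⁻¹ * g₂ with hy
  have ey : y = (g₁⁻¹ * a⁻¹ * g₁) * a * f⁻¹ := by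
    have : g₂ = a⁻¹ * g₁ * a * f⁻¹ := by
      rw [← e1, e2]; group
    rw [hy, this]; group
  have hyA : ∀ x ∈ A, y * x = x * y := by
    intro x hx
    have h1 : g₁⁻¹ * a⁻¹ * g₁ ∈ conjBy A g₁⁻¹ := by
      have := conj_mem_conj g₁⁻¹ (A.inv_mem ha)
      simpa using this
    have h2 : (g₁⁻¹ * a⁻¹ * g₁) * x = x * (g₁⁻¹ * a⁻¹ * g₁) :=
      (comm_of_commutator_bot hg₁C' hx h1).symm
    have h3 : f⁻¹ * x = x * f⁻¹ := inv_mul_comm_of_comm (hfA x hx)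
    rw [ey]
    calc g₁⁻¹ * a⁻¹ * g₁ * a * f⁻¹ * x = (g₁⁻¹ * a⁻¹ * g₁) * a * (f⁻¹ * x) := by group
      _ = (g₁⁻¹ * a⁻¹ * g₁) * (a * x) * f⁻¹ := by rw [h3]; group
      _ = (g₁⁻¹ * a⁻¹ * g₁) * (x * a) * f⁻¹ := by rw [hAab a ha x hx]
      _ = ((g₁⁻¹ * a⁻¹ * g₁) * x) * a * f⁻¹ := by group
      _ = x * (g₁⁻¹ * a⁻¹ * g₁ * a * f⁻¹) := by rw [h2]; group
  have hyfix : conjBy A y = A := conj_fix_of_comm hyA
  -- `x = b b₁`
  set xx := b * b₁ with hxx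
  have hxxB : xx ∈ B := B.mul_mem hb hb₁
  have hu : f * b₁ * f⁻¹ ∈ conjBy B f := conj_mem_conj f hb₁
  have hv : f * b * f⁻¹ ∈ conjBy B f := conj_mem_conj f hb
  have hB2ab : ∀ p ∈ conjBy B f, ∀ q ∈ conjBy B f, p * q = q * p := by
    rintro _ ⟨p, hp, rfl⟩ _ ⟨q, hq, rfl⟩
    simp only [MulEquiv.coe_toMonoidHom, MulAut.conj_apply]
    calc f * p * f⁻¹ * (f * q * f⁻¹) = f * (p * q) * f⁻¹ := by group
      _ = f * (q * p) * f⁻¹ := by rw [hBab p hp q hq]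
      _ = f * q * f⁻¹ * (f * p * f⁻¹) := by group
  have eyy : y = xx⁻¹ * (f * xx * f⁻¹) := by
    have e5 : g₁⁻¹ = (f * b₁ * f⁻¹) * b₁⁻¹ := by rw [hg₁]; group
    have e6 : g₂ = b⁻¹ * (f * b * f⁻¹) := by rw [hg₂]; group
    have e7 : (f * b₁ * f⁻¹) * (b₁⁻¹ * b⁻¹) = (b₁⁻¹ * b⁻¹) * (f * b₁ * f⁻¹) :=
      comm_of_commutator_bot hfB hu (B.mul_mem (B.inv_mem hb₁) (B.inv_mem hb))
    have e8 : f * xx * f⁻¹ = (f * b * f⁻¹) * (f * b₁ * f⁻¹) := by rw [hxx]; group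
    have e9 : xx⁻¹ = b₁⁻¹ * b⁻¹ := by rw [hxx]; group
    rw [hy, e5, e6, e8, e9]
    calc f * b₁ * f⁻¹ * b₁⁻¹ * (b⁻¹ * (f * b * f⁻¹))
        = (f * b₁ * f⁻¹) * (b₁⁻¹ * b⁻¹) * (f * b * f⁻¹) := by group
      _ = (b₁⁻¹ * b⁻¹) * (f * b₁ * f⁻¹) * (f * b * f⁻¹) := by rw [e7]
      _ = (b₁⁻¹ * b⁻¹) * ((f * b₁ * f⁻¹) * (f * b * f⁻¹)) := by group
      _ = (b₁⁻¹ * b⁻¹) * ((f * b * f⁻¹) * (f * b₁ * f⁻¹)) := by rw [hB2ab _ hu _ hv]
  have hxx1 : xx = 1 := by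
    apply eq_one_of_conj_fix hAB hfA hfB hfne hxxB
    rw [← eyy]
    exact hyfix
  have hb₁inv : b₁ = b⁻¹ := by
    rw [hxx] at hxx1
    exact eq_inv_of_mul_eq_one_right hxx1
  show t = _
  rw [et, hb₁inv]

end Cfsg.Agent.RootSub
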