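import Cfsg.Agent.RootSub.Spec1

/-!
# The bad case for S5039

We work with a rank one pair `(A, B)` such that every member of `S` commuting with some point
commutes with the whole rank one group, and a member `D` which is a rank one partner of all
the points, together with `C` commuting with `⟨A, B⟩`, `(C, D)` a rank one pair.
-/

set_option autoImplicit false

namespace Cfsg.Agent.RootSub

open Cfsg

variable {G : Type*} [Group G]

/-- the bad case -/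
structure BadCase (S : Set (Subgroup G)) (A B D C : Subgroup G) : Prop where
  hS : IsRootSubgroupSet S
  hA : A ∈ S
  hD : D ∈ S
  hC : C ∈ S
  hAB : IsRankOnePair A B
  hCD : IsRankOnePair C D
  hCX : ⁅C, A ⊔ B⁆ = ⊥
  hPD : ∀ P ∈ pts A B, IsRankOnePair P D
  hcom : ∀ P ∈ pts A B, ∀ U ∈ S, U ≠ P → ⁅U, P⁆ = ⊥ → ⁅U, A ⊔ B⁆ = ⊥

namespace BadCase

variable {S : Set (Subgroup G)} {A B D C : Subgroup G} (h : BadCase S A B D C)
include h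

lemma pt_mem {P : Subgroup G} (hP : P ∈ pts A B) : P ∈ S := by
  obtain ⟨x, -, rfl⟩ := exists_of_mem_pts h.hAB hP
  exact h.hS.conj_mem A h.hA x

lemma pt_ab {P : Subgroup G} (hP : P ∈ pts A B) : ∀ x ∈ P, ∀ y ∈ P, x * y = y * x :=
  fun _ hx _ hy => root_comm h.hS (h.pt_mem hP) hx hy

lemma D_ab : ∀ x ∈ D, ∀ y ∈ D, x * y = y * x :=
  fun _ hx _ hy => root_comm h.hS h.hD hx hy

lemma C_comm {x c : G} (hx : x ∈ A ⊔ B) (hc : c ∈ C) : c * x = x * c :=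
  comm_of_commutator_bot h.hCX hc hx

lemma hcom_conj (g : G) {P : Subgroup G} (hP : P ∈ pts A B) {U : Subgroup G} (hU : U ∈ S) (hne : U ≠ conjBy P g)
    (hc : ⁅U, conjBy P g⁆ = ⊥) : ⁅U, conjBy (A ⊔ B) g⁆ = ⊥ := by
  have h1 : conjBy U g⁻¹ ∈ S := h.hS.conj_mem U hU _
  have h2 : conjBy U g⁻¹ ≠ P := fun e => hne (by rw [← e, conj_conj_inv])
  have h3 : ⁅conjBy U g⁻¹, P⁆ = ⊥ := by
    have := conj_bot_of_bot hc g⁻¹
    rwa [conj_inv_conj] at this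
  have := conj_bot_of_bot (h.hcom P hP _ h1 h2 h3) g
  rwa [conj_conj_inv] at this

lemma C_ne_pt {P : Subgroup G} (hP : P ∈ pts A B) : P ≠ C := by
  rintro rfl
  obtain ⟨R, hR, hRP⟩ : ∃ R ∈ pts A B, R ≠ P := by
    by_cases e : P = A
    · exact ⟨B, right_mem_pts, by rw [e]; exact h.hAB.ne.symm⟩
    · exact ⟨A, left_mem_pts, fun e' => e e'.symm⟩
  refine pts_not_comm h.hAB hP hR hRP.symm ?_
  intro x hx y hy
  exact comm_of_commutator_bot h.hCX hx (pts_le h.hAB hR hy)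

lemma pt_comm_C {P : Subgroup G} (hP : P ∈ pts A B) : ⁅P, C⁆ = ⊥ := by
  apply commutator_bot_of_comm
  intro x hx y hy
  exact (h.C_comm (pts_le h.hAB hP hx) hy).symm

/-- `g = [d, f]` moves `⟨A, B⟩` to a group commuting with `⟨A, B⟩`. -/
lemma comm_g {Q : Subgroup G} (hQ : Q ∈ pts A B) {f d : G} (hfQ : ∀ a ∈ Q, f * a = a * f)
    (hfD : ⁅conjBy D f, D⁆ = ⊥) (hfne : conjBy D f ≠ D) (hd : d ∈ D) (hd1 : d ≠ 1) :
    ⁅A ⊔ B, conjBy (A ⊔ B) (d * f * d⁻¹ * f⁻¹)⁆ = ⊥ := by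
  have hQD := h.hPD Q hQ
  set g := d * f * d⁻¹ * f⁻¹ with hg
  have h1 : ⁅conjBy Q g, Q⁆ = ⊥ := comm_conj_commutator hQD (h.pt_ab hQ) hfQ hfD hd
  have h2 : conjBy Q g ≠ Q := by
    intro e
    have : d⁻¹ = 1 := by
      apply eq_one_of_conj_fix hQD hfQ hfD hfne (D.inv_mem hd)
      rw [inv_inv, show d * (f * d⁻¹ * f⁻¹) = g by rw [hg]; group]
      exact e
    exact hd1 (by simpa using this)
  have h3 : ⁅conjBy Q g, A ⊔ B⁆ = ⊥ := h.hcom Q hQ _ (h.hS.conj_mem Q (h.pt_mem hQ) g) h2 h1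
  have key : ∀ P ∈ pts A B, ⁅P, conjBy (A ⊔ B) g⁆ = ⊥ := by
    intro P hP
    apply h.hcom_conj g hQ (h.pt_mem hP)
    · rintro rfl
      obtain ⟨R, hR, hRP⟩ : ∃ R ∈ pts A B, R ≠ conjBy Q g := by
        by_cases e : conjBy Q g = A
        · exact ⟨B, right_mem_pts, by rw [e]; exact h.hAB.ne.symm⟩
        · exact ⟨A, left_mem_pts, fun e' => e e'.symm⟩
      refine pts_not_comm h.hAB hP hR hRP.symm ?_
      intro x hx y hy
      exact comm_of_commutator_bot h3 hx (pts_le h.hAB hR hy)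
    · rw [Subgroup.commutator_comm]
      apply commutator_bot_of_comm
      intro x hx y hy
      exact comm_of_commutator_bot h3 hx (pts_le h.hAB hP hy)
  have hA' := key A left_mem_pts
  have hB' := key B right_mem_pts
  apply commutator_bot_of_comm
  intro x hx y hy
  have : ∀ x ∈ A ⊔ B, y * x = x * y := by
    apply comm_sup_of_comm
    · intro u hu
      exact (comm_of_commutator_bot hA' hu hy).symm
    · intro u hu
      exact (comm_of_commutator_bot hB' hu hy).symm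
  exact (this x hx).symm

/-- The element `f = c⁻¹ a₀` -/
lemma f_props {Q : Subgroup G} (hQ : Q ∈ pts A B) {δ a₀ c₀ : G} (hδ : δ ∈ D) (ha₀ : a₀ ∈ Q)
    (e : conjBy Q δ = conjBy D a₀) (hc₀ : c₀ ∈ C) (ec : conjBy C δ = conjBy D c₀) (ha₀1 : a₀ ≠ 1) :
    ⁅conjBy D (c₀⁻¹ * a₀), D⁆ = ⊥ ∧ conjBy D (c₀⁻¹ * a₀) ≠ D ∧ ∀ a ∈ Q, (c₀⁻¹ * a₀) * a = a * (c₀⁻¹ * a₀) := by
  have hQD := h.hPD Q hQ
  have hQC := h.pt_comm_C hQ
  have hb : ⁅conjBy D a₀, conjBy D c₀⁆ = ⊥ := by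
    rw [← e, ← ec]; exact conj_bot_of_bot hQC δ
  refine ⟨?_, ?_, ?_⟩
  · have := conj_bot_of_bot hb c₀⁻¹
    rw [conj_conj, conj_conj] at this
    simpa using this
  · intro e2
    have e' : conjBy D a₀ = conjBy D c₀ := by
      rw [← conj_conj, conj_eq_iff] at e2
      simpa [conj_conj] using e2
    have ha' : conjBy D a₀ ≠ D := fun e => ha₀1 (eq_one_of_mem_of_conj_eq hQD ha₀ e)
    have hP1 : conjBy D a₀ ∈ pts Q D := Or.inr ⟨a₀, ha₀, rfl⟩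
    have hP2 : conjBy D a₀ ∈ pts C D := by rw [e']; exact Or.inr ⟨c₀, hc₀, rfl⟩
    have e1 := pts_eq_of_mem hQD hP1 right_mem_pts ha'
    have e2' := pts_eq_of_mem h.hCD hP2 right_mem_pts ha'
    have hCmem : C ∈ pts Q D := by
      rw [← e1, e2']; exact left_mem_pts
    exact pts_not_comm hQD left_mem_pts hCmem (h.C_ne_pt hQ) (fun x hx y hy => comm_of_commutator_bot hQC hx hy)
  · intro a ha
    have h1 : c₀⁻¹ * a = a * c₀⁻¹ :=
      (comm_of_commutator_bot hQC ha (C.inv_mem hc₀)).symm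
    rw [mul_assoc, h.pt_ab hQ a₀ ha₀ a ha, ← mul_assoc, h1, mul_assoc]

/-- Generator step of `K`. -/
lemma step_gen {Q P : Subgroup G} (hQ : Q ∈ pts A B) (hP : P ∈ pts A B) {δ a₀ u : G} (hδ : δ ∈ D) (hδ1 : δ ≠ 1)
    (ha₀ : a₀ ∈ Q) (e : conjBy Q δ = conjBy D a₀) (hu : u ∈ P) :
    conjBy (conjBy Q u⁻¹) δ = conjBy D (u⁻¹ * a₀ * u) := by
  by_cases hu1 : u = 1
  · subst hu1; simpa using e
  have hQD := h.hPD Q hQ
  have hPD := h.hPD P hP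
  have ha₀1 : a₀ ≠ 1 := by
    rintro rfl
    rw [conj_one'] at e
    exact conj_left_ne_right hQD hδ e
  obtain ⟨c₀, hc₀, hc₀1, ec⟩ := exists_conj_eq' h.hCD hδ hδ1
  obtain ⟨hf1, hf2, hf3⟩ := h.f_props hQ hδ ha₀ e hc₀ ec ha₀1
  set f := c₀⁻¹ * a₀ with hf
  -- choose `d'` with `[d']P = [u]D`
  obtain ⟨d', hd', hd'1, ed'⟩ := exists_conj_eq hPD hu hu1
  -- conj by `d'⁻¹`
  have h1 : ⁅A ⊔ B, conjBy (A ⊔ B) (d'⁻¹ * f * d'⁻¹⁻¹ * f⁻¹)⁆ = ⊥ :=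
    h.comm_g hQ hf3 hf1 hf2 (D.inv_mem hd') (by simpa using hd'1)
  have hX : A ⊔ B = conjBy (A ⊔ B) u := (conj_of_mem (pts_le h.hAB hP hu)).symm
  have hfX : conjBy (A ⊔ B) f⁻¹ = A ⊔ B := by
    have hf4 : f⁻¹ = a₀⁻¹ * c₀ := by rw [hf]; group
    rw [hf4, ← conj_conj]
    have hcfix : conjBy (A ⊔ B) c₀ = A ⊔ B := conj_fix_of_comm fun x hx => h.C_comm hx hc₀
    rw [hcfix]
    exact conj_of_mem ((A ⊔ B).inv_mem (pts_le h.hAB hQ ha₀))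
  have h2 : ⁅A ⊔ B, conjBy (A ⊔ B) (d'⁻¹ * f * d'⁻¹⁻¹)⁆ = ⊥ := by
    rw [← conj_conj, hfX] at h1
    exact h1
  have h3 : ⁅conjBy (A ⊔ B) d', conjBy (A ⊔ B) (f * d')⁆ = ⊥ := by
    have := conj_bot_of_bot h2 d'
    rw [conj_conj] at this
    convert this using 3
    group
  -- `[u] D ≤ [d'] X`, `[f u] D ≤ [f d'] X`
  have h4 : conjBy D u ≤ conjBy (A ⊔ B) d' := by
    rw [ed']
    exact conj_le_conj d' (pts_le h.hAB hP)
  have h5 : conjBy D (f * u) ≤ conjBy (A ⊔ B) (f * d') := by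
    rw [← conj_conj, ed', conj_conj]
    exact conj_le_conj (f * d') (pts_le h.hAB hP)
  have h6 : ⁅conjBy D u, conjBy D (f * u)⁆ = ⊥ := by
    apply commutator_bot_of_comm
    intro x hx y hy
    exact comm_of_commutator_bot h3 (h4 hx) (h5 hy)
  have h7 : ⁅D, conjBy D (u⁻¹ * f * u)⁆ = ⊥ := by
    have := conj_bot_of_bot h6 u⁻¹
    rw [conj_inv_conj, conj_conj] at this
    convert this using 3
    group
  have hx₁ : u⁻¹ * f * u = c₀⁻¹ * (u⁻¹ * a₀ * u) := by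
    have hcu : c₀⁻¹ * u⁻¹ = u⁻¹ * c₀⁻¹ := by
      have := h.C_comm (((A ⊔ B).inv_mem (pts_le h.hAB hP hu))) (C.inv_mem hc₀)
      exact this
    rw [hf]
    calc u⁻¹ * (c₀⁻¹ * a₀) * u = (u⁻¹ * c₀⁻¹) * a₀ * u := by group
      _ = (c₀⁻¹ * u⁻¹) * a₀ * u := by rw [hcu]
      _ = c₀⁻¹ * (u⁻¹ * a₀ * u) := by group
  set x₁ := u⁻¹ * a₀ * u with hx₁def
  have h8 : ⁅conjBy D c₀, conjBy D x₁⁆ = ⊥ := by
    rw [hx₁] at h7
    have := conj_bot_of_bot h7 c₀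
    rw [conj_conj] at this
    simpa using this
  -- second element
  set Q₂ := conjBy Q u⁻¹ with hQ₂
  have hQ₂m : Q₂ ∈ pts A B := conj_mem_pts h.hAB ((A ⊔ B).inv_mem (pts_le h.hAB hP hu)) hQ
  have hQ₂D := h.hPD Q₂ hQ₂m
  obtain ⟨x₂, hx₂, -, ex₂⟩ := exists_conj_eq' hQ₂D hδ hδ1
  have hx₁m : x₁ ∈ Q₂ := by
    have := conj_mem_conj u⁻¹ ha₀
    simpa [hx₁def, hQ₂] using this
  rw [ex₂]
  by_contra hne
  have hne' : x₁ ≠ x₂ := by
    rintro e3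
    exact hne (by rw [e3])
  have h9 : ⁅conjBy D c₀, conjBy D x₂⁆ = ⊥ := by
    rw [← ex₂, ← ec]
    exact conj_bot_of_bot (by rw [Subgroup.commutator_comm]; exact h.pt_comm_C hQ₂m) δ
  have h10 := comm_sup_of_two hQ₂D hx₁m hx₂ hne' h8 h9
  have hdc : conjBy D c₀ ≠ D := fun e3 => hc₀1 (eq_one_of_mem_of_conj_eq h.hCD hc₀ e3)
  refine pts_not_comm h.hCD (Or.inr ⟨c₀, hc₀, rfl⟩) right_mem_pts hdc ?_
  intro x hx y hy
  exact comm_of_commutator_bot h10 hx (Subgroup.mem_sup_right hy)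

/-- The statement (K). -/
theorem K {Q : Subgroup G} (hQ : Q ∈ pts A B) {δ a₀ : G} (hδ : δ ∈ D) (hδ1 : δ ≠ 1)
    (ha₀ : a₀ ∈ Q) (e : conjBy Q δ = conjBy D a₀) {x : G} (hx : x ∈ A ⊔ B) :
    conjBy (conjBy Q x) δ = conjBy D (x * a₀ * x⁻¹) := by
  suffices H : x ∈ A ⊔ B ∧ (∀ Q ∈ pts A B, ∀ a₀ ∈ Q, conjBy Q δ = conjBy D a₀ → conjBy (conjBy Q x) δ = conjBy D (x * a₀ * x⁻¹)) ∧
      (∀ Q ∈ pts A B, ∀ a₀ ∈ Q, conjBy Q δ = conjBy D a₀ → conjBy (conjBy Q x⁻¹) δ = conjBy D (x⁻¹ * a₀ * x⁻¹⁻¹)) from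
    H.2.1 Q hQ a₀ ha₀ e
  clear Q hQ a₀ ha₀ e
  refine sup_induction (P := fun x => x ∈ A ⊔ B ∧ (∀ Q ∈ pts A B, ∀ a₀ ∈ Q, conjBy Q δ = conjBy D a₀ →
      conjBy (conjBy Q x) δ = conjBy D (x * a₀ * x⁻¹)) ∧
      (∀ Q ∈ pts A B, ∀ a₀ ∈ Q, conjBy Q δ = conjBy D a₀ → conjBy (conjBy Q x⁻¹) δ = conjBy D (x⁻¹ * a₀ * x⁻¹⁻¹)))
    ?_ ?_ ?_ ?_ ?_ hx
  · intro u hu
    refine ⟨Subgroup.mem_sup_left hu, ?_, ?_⟩
    · intro Q hQ a₀ ha₀ e
      have := h.step_gen hQ left_mem_pts hδ hδ1 ha₀ e (A.inv_mem hu)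
      simpa using this
    · intro Q hQ a₀ ha₀ e
      have := h.step_gen hQ left_mem_pts hδ hδ1 ha₀ e hu
      simpa using this
  · intro u hu
    refine ⟨Subgroup.mem_sup_right hu, ?_, ?_⟩
    · intro Q hQ a₀ ha₀ e
      have := h.step_gen hQ right_mem_pts hδ hδ1 ha₀ e (B.inv_mem hu)
      simpa using this
    · intro Q hQ a₀ ha₀ e
      have := h.step_gen hQ right_mem_pts hδ hδ1 ha₀ e hu
      simpa using this
  · refine ⟨(A ⊔ B).one_mem, ?_, ?_⟩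
    · intro Q _ a₀ _ e
      simpa using e
    · intro Q _ a₀ _ e
      simpa using e
  · rintro x y ⟨hxm, hx1, hx2⟩ ⟨hym, hy1, hy2⟩
    refine ⟨(A ⊔ B).mul_mem hxm hym, ?_, ?_⟩
    · intro Q hQ a₀ ha₀ e
      have e1 := hy1 Q hQ a₀ ha₀ e
      have hQ' : conjBy Q y ∈ pts A B := conj_mem_pts h.hAB hym hQ
      have e2 := hx1 _ hQ' _ (conj_mem_conj y ha₀) e1
      rw [← conj_conj, e2]
      congr 1
      group
    · intro Q hQ a₀ ha₀ e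
      have e1 := hx2 Q hQ a₀ ha₀ e
      have hQ' : conjBy Q x⁻¹ ∈ pts A B := conj_mem_pts h.hAB ((A ⊔ B).inv_mem hxm) hQ
      have e2 := hy2 _ hQ' _ (conj_mem_conj x⁻¹ ha₀) e1
      rw [mul_inv_rev, ← conj_conj, e2]
      congr 1
      group
  · rintro x ⟨hxm, h1, h2⟩
    refine ⟨(A ⊔ B).inv_mem hxm, ?_, ?_⟩
    · simpa using h2
    · simpa using h1

/-- `K` for the base point: the normalizer of a point in `⟨A, B⟩` centralizes it. -/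
lemma stab_comm {Q : Subgroup G} (hQ : Q ∈ pts A B) {x a : G} (hx : x ∈ A ⊔ B) (hxQ : conjBy Q x = Q) (ha : a ∈ Q) :
    x * a * x⁻¹ = a := by
  by_cases ha1 : a = 1
  · subst ha1; group
  have hQD := h.hPD Q hQ
  obtain ⟨δ, hδ, hδ1, e⟩ := exists_conj_eq hQD ha ha1
  have e1 := h.K hQ hδ hδ1 ha e.symm hx
  rw [hxQ, ← e] at e1
  have hm : x * a * x⁻¹ ∈ Q := by
    have := conj_mem_conj x ha
    rwa [hxQ] at this
  have e2 : conjBy D ((x * a * x⁻¹)⁻¹ * a) = D := by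
    rw [← conj_conj, e1, conj_inv_conj]
  have := eq_one_of_mem_of_conj_eq hQD (Q.mul_mem (Q.inv_mem hm) ha) e2
  rw [inv_mul_eq_one] at this
  exact this

lemma stab_comm' {Q : Subgroup G} (hQ : Q ∈ pts A B) {x a : G} (hx : x ∈ A ⊔ B) (hxQ : conjBy Q x = Q) (ha : a ∈ Q) :
    x * a = a * x := by
  have := h.stab_comm hQ hx hxQ ha
  rw [mul_inv_eq_iff_eq_mul] at this
  exact this

/-- An element of `⟨A, B⟩` fixing two points centralizes `⟨A, B⟩`. -/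
lemma two_fix_comm {Q R : Subgroup G} (hQ : Q ∈ pts A B) (hR : R ∈ pts A B) (hne : Q ≠ R) {x : G} (hx : x ∈ A ⊔ B)
    (hxQ : conjBy Q x = Q) (hxR : conjBy R x = R) : ∀ y ∈ A ⊔ B, x * y = y * x := by
  rw [← sup_of_pts h.hAB hQ hR hne]
  apply comm_sup_of_comm
  · intro u hu
    exact h.stab_comm' hQ hx hxQ hu
  · intro u hu
    exact h.stab_comm' hR hx hxR hu

/-- Stabilizers are commutative. -/
lemma stab_ab {Q : Subgroup G} (hQ : Q ∈ pts A B) {x y : G} (hx : x ∈ A ⊔ B) (hy : y ∈ A ⊔ B)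
    (hxQ : conjBy Q x = Q) (hyQ : conjBy Q y = Q) : x * y = y * x := by
  have hQB := h.hAB
  -- another point
  obtain ⟨R, hR, hRQ⟩ : ∃ R ∈ pts A B, R ≠ Q := by
    by_cases e : Q = A
    · exact ⟨B, right_mem_pts, by rw [e]; exact h.hAB.ne.symm⟩
    · exact ⟨A, left_mem_pts, fun e' => e e'.symm⟩
  have hr := rankOne_of_pts h.hAB hQ hR hRQ.symm
  have hsupp : Q ⊔ R = A ⊔ B := sup_of_pts h.hAB hQ hR hRQ.symm
  have hpp : pts Q R = pts A B := pts_eq_of_mem h.hAB hQ hR hRQ.symm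
  have key : ∀ z ∈ A ⊔ B, conjBy Q z = Q → ∃ q ∈ Q, ∀ w ∈ A ⊔ B, (q * z) * w = w * (q * z) := by
    intro z hz hzQ
    have hzR : conjBy R z ∈ pts A B := conj_mem_pts h.hAB hz hR
    have hne : conjBy R z ≠ Q := by
      intro e
      apply hRQ
      have := congrArg (fun T => conjBy T z⁻¹) e
      simp only [conj_inv_conj] at this
      rw [this]
      exact (conj_eq_iff.mp hzQ).symm
    obtain ⟨q, hq, eq⟩ := regular_exists (A := Q) (B := R) (by rw [hpp]; exact hzR) (by rw [hpp]; exact hR) hne hRQ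
    refine ⟨q, hq, ?_⟩
    apply h.two_fix_comm hQ hR hRQ.symm ((A ⊔ B).mul_mem (pts_le h.hAB hQ hq) hz)
    · rw [← conj_conj, hzQ, conj_of_mem hq]
    · rw [← conj_conj, eq]
  obtain ⟨q, hq, hqz⟩ := key x hx hxQ
  obtain ⟨q', hq', hqz'⟩ := key y hy hyQ
  have hqX := pts_le h.hAB hQ hq
  have hq'X := pts_le h.hAB hQ hq'
  have hxe : x = q⁻¹ * (q * x) := by group
  have hye : y = q'⁻¹ * (q' * y) := by group
  set z := q * x with hzz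
  set z' := q' * y with hzz'
  have hzX : z ∈ A ⊔ B := (A ⊔ B).mul_mem hqX hx
  rw [hxe, hye]
  have hc : q⁻¹ * q'⁻¹ = q'⁻¹ * q⁻¹ := h.pt_ab hQ _ (Q.inv_mem hq) _ (Q.inv_mem hq')
  have h1 : z * q'⁻¹ = q'⁻¹ * z := hqz _ ((A ⊔ B).inv_mem hq'X)
  have h2 : z' * q⁻¹ = q⁻¹ * z' := hqz' _ ((A ⊔ B).inv_mem hqX)
  have h3 : z * z' = z' * z := hqz _ ((A ⊔ B).mul_mem ((hq'X)) hy)
  calc q⁻¹ * z * (q'⁻¹ * z') = q⁻¹ * (z * q'⁻¹) * z' := by group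
    _ = q⁻¹ * (q'⁻¹ * z) * z' := by rw [h1]
    _ = (q⁻¹ * q'⁻¹) * (z * z') := by group
    _ = (q'⁻¹ * q⁻¹) * (z' * z) := by rw [hc, h3]
    _ = q'⁻¹ * (q⁻¹ * z') * z := by group
    _ = q'⁻¹ * (z' * q⁻¹) * z := by rw [h2]
    _ = q'⁻¹ * z' * (q⁻¹ * z) := by group

end BadCase

end Cfsg.Agent.RootSub
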