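import Cfsg.Agent.RootSub.Spec2
import Cfsg.Agent.RootSub.Sharp2

/-!
# The translations of the rank one group in the bad case
-/

set_option autoImplicit false

namespace Cfsg.Agent.RootSub

open Cfsg

variable {G : Type*} [Group G]

/-- The action of `⟨A, B⟩` on its points. -/
def actO {A B : Subgroup G} (hAB : IsRankOnePair A B) : ↥(A ⊔ B) →* Equiv.Perm {P : Subgroup G // P ∈ pts A B} where
  toFun x :=
    { toFun := fun P => ⟨conjBy P.1 x.1, conj_mem_pts hAB x.2 P.2⟩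
      invFun := fun P => ⟨conjBy P.1 x.1⁻¹, conj_mem_pts hAB ((A ⊔ B).inv_mem x.2) P.2⟩
      left_inv := by
        intro P
        apply Subtype.ext
        exact conj_inv_conj _ _
      right_inv := by
        intro P
        apply Subtype.ext
        exact conj_conj_inv _ _ }
  map_one' := by
    ext P : 2
    exact conj_one' _
  map_mul' := by
    intro x y
    ext P : 2
    exact (conj_conj _ _ _).symm

lemma actO_apply {A B : Subgroup G} (hAB : IsRankOnePair A B) (x : ↥(A ⊔ B)) (P : {P : Subgroup G // P ∈ pts A B}) :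
    ((actO hAB x) P).1 = conjBy P.1 x.1 := rfl

namespace BadCase

variable {S : Set (Subgroup G)} {A B D C : Subgroup G} (h : BadCase S A B D C)
include h

/-- The action is sharply two-transitive. -/
lemma sharp : Sharp2 (actO h.hAB).range {P : Subgroup G // P ∈ pts A B} where
  two := ⟨⟨A, left_mem_pts⟩, ⟨B, right_mem_pts⟩, fun e => h.hAB.ne (congrArg Subtype.val e)⟩
  trans := by
    intro x y x' y' hxy hxy'
    obtain ⟨g, hg, e1, e2⟩ := two_trans h.hAB x.2 y.2 x'.2 y'.2 (fun e => hxy (Subtype.ext e)) (fun e => hxy' (Subtype.ext e))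
    refine ⟨⟨actO h.hAB ⟨g, hg⟩, ⟨g, hg⟩, rfl⟩, Subtype.ext e1, Subtype.ext e2⟩
  uniq := by
    rintro ⟨_, g, rfl⟩ x y hxy e1 e2
    apply Subtype.ext
    ext P : 2
    have e1' : conjBy x.1 g.1 = x.1 := congrArg Subtype.val e1
    have e2' : conjBy y.1 g.1 = y.1 := congrArg Subtype.val e2
    have := h.two_fix_comm x.2 y.2 (fun e => hxy (Subtype.ext e)) g.2 e1' e2'
    exact fixes_of_comm h.hAB this P.2
  ab := by
    rintro ⟨_, g₁, rfl⟩ ⟨_, g₂, rfl⟩ x e1 e2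
    have e1' : conjBy x.1 g₁.1 = x.1 := congrArg Subtype.val e1
    have e2' : conjBy x.1 g₂.1 = x.1 := congrArg Subtype.val e2
    have := h.stab_ab x.2 g₁.2 g₂.2 e1' e2'
    apply Subtype.ext
    show actO h.hAB g₁ * actO h.hAB g₂ = actO h.hAB g₂ * actO h.hAB g₁
    rw [← map_mul, ← map_mul]
    congr 1
    exact Subtype.ext this

/-- The subgroup of translations. -/
theorem exists_W : ∃ W : Subgroup G, W ≤ A ⊔ B ∧
    (∀ g ∈ A ⊔ B, g ∈ W ↔ (∀ Q ∈ pts A B, conjBy Q g = Q) ∨ (∀ Q ∈ pts A B, conjBy Q g ≠ Q)) ∧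
    (∀ u ∈ W, ∀ v ∈ W, ∀ x ∈ A ⊔ B, (u * v * u⁻¹ * v⁻¹) * x = x * (u * v * u⁻¹ * v⁻¹)) ∧
    (∃ c ∈ W, conjBy A c ≠ A) := by
  have hs := h.sharp
  obtain ⟨W, hW1, hW2⟩ := hs.translations
  obtain ⟨u₀, hu₀, hu₀f⟩ := hs.exists_fpf
  have hiff : ∀ g : ↥(A ⊔ B), (actO h.hAB).rangeRestrict g ∈ W ↔
      (∀ Q ∈ pts A B, conjBy Q g.1 = Q) ∨ (∀ Q ∈ pts A B, conjBy Q g.1 ≠ Q) := by
    intro g
    rw [hW1]
    apply or_congr
    · constructor
      · intro e Q hQ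
        have := congrArg (fun ρ : (actO h.hAB).range => (ρ.1 ⟨Q, hQ⟩).1) e
        exact this
      · intro e
        apply Subtype.ext
        ext P : 2
        exact e P.1 P.2
    · constructor
      · intro e Q hQ e2
        exact e ⟨Q, hQ⟩ (Subtype.ext e2)
      · intro e P e2
        exact e P.1 P.2 (congrArg Subtype.val e2)
  refine ⟨(W.comap (actO h.hAB).rangeRestrict).map (A ⊔ B).subtype, ?_, ?_, ?_, ?_⟩
  · exact Subgroup.map_subtype_le _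
  · intro g hg
    constructor
    · rintro ⟨g', hg', rfl⟩
      exact (hiff g').1 hg'
    · intro e
      exact ⟨⟨g, hg⟩, (hiff ⟨g, hg⟩).2 e, rfl⟩
  · rintro _ ⟨u, hu, rfl⟩ _ ⟨v, hv, rfl⟩ x hx
    have huv := hW2 _ hu _ hv
    have h1 : (actO h.hAB) (u * v * u⁻¹ * v⁻¹) = 1 := by
      have huv' : actO h.hAB u * actO h.hAB v = actO h.hAB v * actO h.hAB u := congrArg Subtype.val huv
      rw [map_mul, map_mul, map_mul, map_inv, map_inv, huv']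
      group
    have h2 : ∀ Q ∈ pts A B, conjBy Q (u * v * u⁻¹ * v⁻¹ : ↥(A ⊔ B)).1 = Q := by
      intro Q hQ
      have := congrArg (fun ρ : Equiv.Perm {P : Subgroup G // P ∈ pts A B} => (ρ ⟨Q, hQ⟩).1) h1
      exact this
    exact comm_sup_of_fixes h.hAB h2 hx
  · obtain ⟨⟨_, g, rfl⟩, hu₀, hu₀f⟩ := hs.exists_fpf
    refine ⟨g.1, ⟨g, (hiff g).2 (Or.inr ?_), rfl⟩, ?_⟩
    · intro Q hQ e
      exact hu₀f ⟨Q, hQ⟩ (Subtype.ext e)
    · intro e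
      exact hu₀f ⟨A, left_mem_pts⟩ (Subtype.ext e)

end BadCase

/-! ### The commuting relation -/

section zeta

/-- commutator -/
def cmm (x y : G) : G := x * y * x⁻¹ * y⁻¹

variable {A B : Subgroup G} {W : Subgroup G}

lemma cmm_conj (x u v : G) : x * cmm u v * x⁻¹ = cmm (x * u * x⁻¹) (x * v * x⁻¹) := by
  unfold cmm; group

lemma cmm_self (x : G) : cmm x x = 1 := by
  unfold cmm; group

lemma cmm_swap (x y : G) : cmm y x = (cmm x y)⁻¹ := by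
  unfold cmm; group

lemma cmm_eq_one_iff {x y : G} : cmm x y = 1 ↔ x * y = y * x := by
  unfold cmm
  rw [mul_inv_eq_one, mul_inv_eq_iff_eq_mul]

variable (hWX : W ≤ A ⊔ B)
  (hWc : ∀ u ∈ W, ∀ v ∈ W, ∀ x ∈ A ⊔ B, cmm u v * x = x * cmm u v)

include hWX hWc

lemma cmm_mul_left {u v w : G} (hu : u ∈ W) (hv : v ∈ W) (hw : w ∈ W) : cmm (u * v) w = cmm u w * cmm v w := by
  have h1 := hWc v hv w hw u (hWX hu)
  have h2 := hWc v hv w hw _ (hWX (W.mul_mem (W.mul_mem hu hw) (W.mul_mem (W.inv_mem hu) (W.inv_mem hw))))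
  have e : cmm (u * v) w = u * cmm v w * (w * u⁻¹ * w⁻¹) := by
    unfold cmm; group
  rw [e, ← h1, mul_assoc, mul_assoc]
  have h3 := hWc v hv w hw _ (hWX (W.mul_mem hu (W.mul_mem hw (W.mul_mem (W.inv_mem hu) (W.inv_mem hw)))))
  have e2 : cmm u w = u * (w * (u⁻¹ * w⁻¹)) := by
    unfold cmm; group
  rw [e2]
  exact h3

lemma cmm_mul_right {u v w : G} (hu : u ∈ W) (hv : v ∈ W) (hw : w ∈ W) : cmm u (v * w) = cmm u v * cmm u w := by
  have h1 : cmm u w * v⁻¹ = v⁻¹ * cmm u w := hWc u hu w hw _ (hWX (W.inv_mem hv))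
  have e : cmm u (v * w) = cmm u v * (v * cmm u w * v⁻¹) := by
    unfold cmm; group
  rw [e, mul_assoc v, h1]
  group

lemma cmm_mul_mul {u₁ u₂ v₁ v₂ : G} (hu₁ : u₁ ∈ W) (hu₂ : u₂ ∈ W) (hv₁ : v₁ ∈ W) (hv₂ : v₂ ∈ W) :
    cmm (u₁ * u₂) (v₁ * v₂) = cmm u₁ v₁ * cmm u₁ v₂ * (cmm u₂ v₁ * cmm u₂ v₂) := by
  rw [cmm_mul_left hWX hWc hu₁ hu₂ (W.mul_mem hv₁ hv₂), cmm_mul_right hWX hWc hu₁ hv₁ hv₂, cmm_mul_right hWX hWc hu₂ hv₁ hv₂]

lemma cmm_central_left {u v z : G} (hu : u ∈ W) (hv : v ∈ W) (hz : z ∈ W) (hzc : ∀ x ∈ A ⊔ B, z * x = x * z) :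
    cmm (u * z) v = cmm u v := by
  rw [cmm_mul_left hWX hWc hu hz hv]
  have : cmm z v = 1 := cmm_eq_one_iff.mpr (hzc v (hWX hv))
  rw [this, mul_one]

lemma cmm_central_right {u v z : G} (hu : u ∈ W) (hv : v ∈ W) (hz : z ∈ W) (hzc : ∀ x ∈ A ⊔ B, z * x = x * z) :
    cmm u (v * z) = cmm u v := by
  rw [cmm_mul_right hWX hWc hu hv hz]
  have : cmm u z = 1 := cmm_eq_one_iff.mpr (hzc u (hWX hu)).symm
  rw [this, mul_one]

lemma cmm_inv_conj {x u v : G} (hx : x ∈ A ⊔ B) (hu : u ∈ W) (hv : v ∈ W) :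
    cmm (x * u * x⁻¹) (x * v * x⁻¹) = cmm u v := by
  rw [← cmm_conj, ← hWc u hu v hv x hx]
  group

end zeta

section zeta2

variable {A B : Subgroup G} {W : Subgroup G}

lemma exists_conj_mod (hAB : IsRankOnePair A B) (hWX : W ≤ A ⊔ B)
    (hWfix : ∀ w ∈ W, conjBy A w = A → ∀ x ∈ A ⊔ B, w * x = x * w)
    (hWn : ∀ w ∈ W, ∀ x ∈ A ⊔ B, x * w * x⁻¹ ∈ W)
    {c u : G} (hc : c ∈ W) (hu : u ∈ W) (hcA : conjBy A c ≠ A) (huA : conjBy A u ≠ A) :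
    ∃ b ∈ A, ∃ z ∈ W, (∀ x ∈ A ⊔ B, z * x = x * z) ∧ b * c * b⁻¹ = u * z := by
  have hcp : conjBy A c ∈ pts A B := conj_mem_pts hAB (hWX hc) left_mem_pts
  have hup : conjBy A u ∈ pts A B := conj_mem_pts hAB (hWX hu) left_mem_pts
  obtain ⟨b, hb, e⟩ := regular_exists hcp hup hcA huA
  have hzW : u⁻¹ * (b * c * b⁻¹) ∈ W :=
    W.mul_mem (W.inv_mem hu) (hWn c hc b (Subgroup.mem_sup_left hb))
  refine ⟨b, hb, u⁻¹ * (b * c * b⁻¹), hzW, hWfix _ hzW ?_, by group⟩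
  have e1 : u⁻¹ * (b * c * b⁻¹) = (u⁻¹ * (b * c)) * b⁻¹ := by group
  rw [e1, conj_mul_of_mem_right (A.inv_mem hb), ← conj_conj, ← conj_conj, e, conj_inv_conj]

/-- `c` and `s c s⁻¹` do not multiply to something normalizing `A` -/
lemma prod_conj_ne (hAB : IsRankOnePair A B) (hWX : W ≤ A ⊔ B)
    (hWfix : ∀ w ∈ W, conjBy A w = A → ∀ x ∈ A ⊔ B, w * x = x * w)
    (hWn : ∀ w ∈ W, ∀ x ∈ A ⊔ B, x * w * x⁻¹ ∈ W)
    {s c : G} (hs : s ∈ A) (hs2 : s * s ≠ 1) (hc : c ∈ W) (hcA : conjBy A c ≠ A) :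
    conjBy A (c * (s * c * s⁻¹)) ≠ A := by
  have hsX : s ∈ A ⊔ B := Subgroup.mem_sup_left hs
  have hcp : conjBy A c ∈ pts A B := conj_mem_pts hAB (hWX hc) left_mem_pts
  have hnofix : ∀ t ∈ A, t ≠ 1 → t * c * t⁻¹ ≠ c := by
    intro t ht ht1 e
    have e1 : t * c = c * t := by
      rw [mul_inv_eq_iff_eq_mul] at e
      exact e
    apply hcA
    refine fixed_point_unique hAB left_mem_pts hcp ht ht1 ?_
    rw [conj_conj, e1]
    exact conj_mul_of_mem_right ht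
  have hzconj : ∀ z : G, (∀ x ∈ A ⊔ B, z * x = x * z) → s * z * s⁻¹ = z := by
    intro z hz
    rw [← hz s hsX]; group
  set c₁ := s * c * s⁻¹ with hc₁
  set c₂ := s * c₁ * s⁻¹ with hc₂
  have h1 : c₁ ∈ W := hWn c hc s hsX
  intro e
  have hm : c * c₁ ∈ W := W.mul_mem hc h1
  have hz := hWfix _ hm e
  have e1 := hzconj _ hz
  have e0 : s * (c * c₁) * s⁻¹ = (s * c * s⁻¹) * (s * c₁ * s⁻¹) := by group
  have e2 : c₁ * c₂ = c * c₁ := e0.symm.trans e1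
  have e3 : c₂ = c := by
    have h4 : c₂ = c₁⁻¹ * (c * c₁) := by rw [← e2]; group
    have h5 := hz c₁⁻¹ ((A ⊔ B).inv_mem (hWX h1))
    rw [h4, ← h5]; group
  refine hnofix (s * s) (A.mul_mem hs hs) hs2 ?_
  calc s * s * c * (s * s)⁻¹ = s * (s * c * s⁻¹) * s⁻¹ := by group
    _ = c₂ := rfl
    _ = c := e3

/-- L4 -/
theorem zeta (hAB : IsRankOnePair A B) (hAab : ∀ x ∈ A, ∀ y ∈ A, x * y = y * x) (hWX : W ≤ A ⊔ B)
    (hWfix : ∀ w ∈ W, conjBy A w = A → ∀ x ∈ A ⊔ B, w * x = x * w)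
    (hWn : ∀ w ∈ W, ∀ x ∈ A ⊔ B, x * w * x⁻¹ ∈ W)
    (hWc : ∀ u ∈ W, ∀ v ∈ W, ∀ x ∈ A ⊔ B, cmm u v * x = x * cmm u v)
    {s c : G} (hs : s ∈ A) (hs2 : s * s ≠ 1) (hs3 : s * s * s ≠ 1) (hc : c ∈ W) (hcA : conjBy A c ≠ A) :
    c * (s * c * s⁻¹) = (s * c * s⁻¹) * c := by
  have hsX : s ∈ A ⊔ B := Subgroup.mem_sup_left hs
  have hcp : conjBy A c ∈ pts A B := conj_mem_pts hAB (hWX hc) left_mem_pts
  -- no fixed point
  have hnofix : ∀ t ∈ A, t ≠ 1 → t * c * t⁻¹ ≠ c := by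
    intro t ht ht1 e
    have e1 : t * c = c * t := by
      rw [mul_inv_eq_iff_eq_mul] at e
      exact e
    apply hcA
    refine fixed_point_unique hAB left_mem_pts hcp ht ht1 ?_
    rw [conj_conj, e1]
    exact conj_mul_of_mem_right ht
  set c₁ := s * c * s⁻¹ with hc₁
  set c₂ := s * c₁ * s⁻¹ with hc₂
  set c₃ := s * c₂ * s⁻¹ with hc₃
  have h1 : c₁ ∈ W := hWn c hc s hsX
  have h2 : c₂ ∈ W := hWn _ h1 s hsX
  have h3 : c₃ ∈ W := hWn _ h2 s hsX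
  have hzconj : ∀ z : G, (∀ x ∈ A ⊔ B, z * x = x * z) → s * z * s⁻¹ = z := by
    intro z hz
    rw [← hz s hsX]; group
  have hne1 : conjBy A (c * c₁) ≠ A := prod_conj_ne hAB hWX hWfix hWn hs hs2 hc hcA
  have hne2 : conjBy A (c * c₁ * c₂) ≠ A := by
    intro e
    have hm : c * c₁ * c₂ ∈ W := W.mul_mem (W.mul_mem hc h1) h2
    have hz := hWfix _ hm e
    have e1 := hzconj _ hz
    have e0 : s * (c * c₁ * c₂) * s⁻¹ = (s * c * s⁻¹) * (s * c₁ * s⁻¹) * (s * c₂ * s⁻¹) := by group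
    have e2 : c₁ * c₂ * c₃ = c * c₁ * c₂ := e0.symm.trans e1
    have e3 : c₃ = c := by
      have h4 : c₃ = (c₁ * c₂)⁻¹ * (c * c₁ * c₂) := by rw [← e2]; group
      have h5 := hz (c₁ * c₂)⁻¹ ((A ⊔ B).inv_mem ((A ⊔ B).mul_mem (hWX h1) (hWX h2)))
      rw [h4, ← h5]; group
    refine hnofix (s * s * s) (A.mul_mem (A.mul_mem hs hs) hs) hs3 ?_
    calc s * s * s * c * (s * s * s)⁻¹ = s * (s * (s * c * s⁻¹) * s⁻¹) * s⁻¹ := by group
      _ = c₃ := rfl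
      _ = c := e3
  obtain ⟨b, hb, z₁, hz₁, hz₁c, eb⟩ := exists_conj_mod hAB hWX hWfix hWn hc (W.mul_mem hc h1) hcA hne1
  obtain ⟨d, hd, z₂, hz₂, hz₂c, ed⟩ := exists_conj_mod hAB hWX hWfix hWn hc (W.mul_mem (W.mul_mem hc h1) h2) hcA hne2
  have hbX : b ∈ A ⊔ B := Subgroup.mem_sup_left hb
  have hdX : d ∈ A ⊔ B := Subgroup.mem_sup_left hd
  have hb1 : b * c₁ * b⁻¹ = c₁ * c₂ * z₁ := by
    have hbs : b * s = s * b := hAab b hb s hs
    have e1 : b * c₁ * b⁻¹ = s * (b * c * b⁻¹) * s⁻¹ := by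
      rw [hc₁]
      calc b * (s * c * s⁻¹) * b⁻¹ = (b * s) * c * (b * s)⁻¹ := by group
        _ = (s * b) * c * (s * b)⁻¹ := by rw [hbs]
        _ = s * (b * c * b⁻¹) * s⁻¹ := by group
    rw [e1, eb]
    have e2 := hzconj z₁ hz₁c
    calc s * (c * c₁ * z₁) * s⁻¹ = (s * c * s⁻¹) * (s * c₁ * s⁻¹) * (s * z₁ * s⁻¹) := by group
      _ = c₁ * c₂ * z₁ := by rw [e2]
  have hb2 : b * c₂ * b⁻¹ = c₂ * c₃ * z₁ := by
    have hbs : b * s = s * b := hAab b hb s hs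
    have e1 : b * c₂ * b⁻¹ = s * (b * c₁ * b⁻¹) * s⁻¹ := by
      rw [hc₂]
      calc b * (s * c₁ * s⁻¹) * b⁻¹ = (b * s) * c₁ * (b * s)⁻¹ := by group
        _ = (s * b) * c₁ * (s * b)⁻¹ := by rw [hbs]
        _ = s * (b * c₁ * b⁻¹) * s⁻¹ := by group
    rw [e1, hb1]
    have e2 := hzconj z₁ hz₁c
    calc s * (c₁ * c₂ * z₁) * s⁻¹ = (s * c₁ * s⁻¹) * (s * c₂ * s⁻¹) * (s * z₁ * s⁻¹) := by group
      _ = c₂ * c₃ * z₁ := by rw [e2]
  have hd1 : d * c₁ * d⁻¹ = c₁ * c₂ * c₃ * z₂ := by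
    have hbs : d * s = s * d := hAab d hd s hs
    have e1 : d * c₁ * d⁻¹ = s * (d * c * d⁻¹) * s⁻¹ := by
      rw [hc₁]
      calc d * (s * c * s⁻¹) * d⁻¹ = (d * s) * c * (d * s)⁻¹ := by group
        _ = (s * d) * c * (s * d)⁻¹ := by rw [hbs]
        _ = s * (d * c * d⁻¹) * s⁻¹ := by group
    rw [e1, ed]
    have e2 := hzconj z₂ hz₂c
    calc s * (c * c₁ * c₂ * z₂) * s⁻¹ = (s * c * s⁻¹) * (s * c₁ * s⁻¹) * (s * c₂ * s⁻¹) * (s * z₂ * s⁻¹) := by group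
      _ = c₁ * c₂ * c₃ * z₂ := by rw [e2]
  -- commutators
  have F12 : cmm c₁ c₂ = cmm c c₁ := cmm_inv_conj hWX hWc hsX hc h1
  have F13 : cmm c₁ c₃ = cmm c c₂ := cmm_inv_conj hWX hWc hsX hc h2
  have F23 : cmm c₂ c₃ = cmm c₁ c₂ := cmm_inv_conj hWX hWc hsX h1 h2
  have h12 := W.mul_mem hc h1
  have h23 := W.mul_mem h1 h2
  have h34 := W.mul_mem h2 h3
  have E1 : cmm c c₁ = cmm c c₁ * cmm c c₂ * (1 * cmm c c₁) := by
    have e1 : cmm c c₁ = cmm (b * c * b⁻¹) (b * c₁ * b⁻¹) := (cmm_inv_conj hWX hWc hbX hc h1).symm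
    rw [eb, hb1, cmm_central_left hWX hWc h12 (W.mul_mem h23 hz₁) hz₁ hz₁c,
      cmm_central_right hWX hWc h12 h23 hz₁ hz₁c, cmm_mul_mul hWX hWc hc h1 h1 h2, cmm_self, F12] at e1
    exact e1
  have E2 : cmm c c₂ = cmm c c₂ * cmm c c₃ * (cmm c c₁ * cmm c c₂) := by
    have e1 : cmm c c₂ = cmm (b * c * b⁻¹) (b * c₂ * b⁻¹) := (cmm_inv_conj hWX hWc hbX hc h2).symm
    rw [eb, hb2, cmm_central_left hWX hWc h12 (W.mul_mem h34 hz₁) hz₁ hz₁c,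
      cmm_central_right hWX hWc h12 h34 hz₁ hz₁c, cmm_mul_mul hWX hWc hc h1 h2 h3, F12, F13] at e1
    exact e1
  have E3 : cmm c c₁ = (cmm c c₁ * cmm c c₂ * (1 * cmm c c₁)) * (cmm c c₃ * cmm c c₂) * ((cmm c c₁)⁻¹ * 1 * cmm c c₁) := by
    have e1 : cmm c c₁ = cmm (d * c * d⁻¹) (d * c₁ * d⁻¹) := (cmm_inv_conj hWX hWc hdX hc h1).symm
    have h123 := W.mul_mem h23 h3
    rw [ed, hd1, cmm_central_left hWX hWc (W.mul_mem h12 h2) (W.mul_mem h123 hz₂) hz₂ hz₂c,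
      cmm_central_right hWX hWc (W.mul_mem h12 h2) h123 hz₂ hz₂c,
      cmm_mul_mul hWX hWc h12 h2 h23 h3, cmm_mul_mul hWX hWc hc h1 h1 h2, cmm_mul_left hWX hWc hc h1 h3,
      cmm_mul_right hWX hWc h2 h1 h2, cmm_self, cmm_self, F12, F13, F23, F12, cmm_swap c₁ c₂, F12] at e1
    exact e1
  set f₁ := cmm c c₁
  set f₂ := cmm c c₂
  set f₃ := cmm c c₃
  have e₂ : f₂ = f₁⁻¹ := by
    have : f₁ * (f₂ * f₁) = f₁ * 1 := by
      rw [mul_one]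
      calc f₁ * (f₂ * f₁) = f₁ * f₂ * (1 * f₁) := by group
        _ = f₁ := E1.symm
    have h5 := mul_left_cancel this
    exact eq_inv_of_mul_eq_one_left h5
  have e₃ : f₃ = 1 := by
    rw [e₂] at E2
    have : f₁⁻¹ * f₃ = f₁⁻¹ * 1 := by
      rw [mul_one]
      calc f₁⁻¹ * f₃ = f₁⁻¹ * f₃ * (f₁ * f₁⁻¹) := by group
        _ = f₁⁻¹ := E2.symm
    exact mul_left_cancel this
  have e₁ : f₁ = 1 := by
    rw [e₂, e₃] at E3
    have : f₁ = (f₁ * f₁⁻¹ * (1 * f₁)) * (1 * f₁⁻¹) * (f₁⁻¹ * 1 * f₁) := E3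
    have e4 : (f₁ * f₁⁻¹ * (1 * f₁)) * (1 * f₁⁻¹) * (f₁⁻¹ * 1 * f₁) = 1 := by group
    rw [e4] at this
    exact this
  exact cmm_eq_one_iff.mp e₁

end zeta2

/-! ### The final computation -/

namespace BadCase

variable {S : Set (Subgroup G)} {A B D C : Subgroup G} (h : BadCase S A B D C)
include h

/-- `(A, D)` is special. -/
lemma special_AD : IsSpecialRankOnePair A D :=
  special_of_comm_partner (h.hPD A left_mem_pts) h.hCD (h.pt_comm_C left_mem_pts) (h.C_ne_pt left_mem_pts)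
    (h.pt_ab left_mem_pts) h.D_ab

lemma Y_eq {a β c' : G} (hp : Pt A D a β) (hc' : c' ∈ A ⊔ B) :
    conjBy A (a * β⁻¹ * c') = conjBy D (a * c' * a⁻¹ * c'⁻¹) := by
  have e : conjBy A β⁻¹ = conjBy D a⁻¹ := hp.2.2.2.2
  have hK := h.K left_mem_pts (D.inv_mem hp.2.2.1) (by simpa using hp.2.2.2.1) (A.inv_mem hp.1) e hc'
  rw [conj_conj] at hK
  have e1 : a * β⁻¹ * c' = a * (β⁻¹ * c') := by group
  have e2 : a * c' * a⁻¹ * c'⁻¹ = a * (c' * a⁻¹ * c'⁻¹) := by group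
  rw [e1, e2, ← conj_conj A, hK, conj_conj]

lemma J_eq {a β c' : G} (hp : Pt A D a β) (hc' : c' ∈ A ⊔ B) :
    conjBy (conjBy D (a * c' * a⁻¹ * c'⁻¹)) β⁻¹ =
      conjBy D (a * (a * c' * a⁻¹) * a⁻¹ * (a * c' * a⁻¹)⁻¹) := by
  have hbr := pt_braid h.special_AD hp
  have haX : a ∈ A ⊔ B := Subgroup.mem_sup_left hp.1
  rw [← h.Y_eq hp hc', conj_conj]
  have e1 : β⁻¹ * (a * β⁻¹ * c') = (β⁻¹ * a * β⁻¹) * c' := by group
  rw [e1, ← hbr]
  have e2 : a * β⁻¹ * a * c' = a * β⁻¹ * (a * c') := by group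
  rw [e2, h.Y_eq hp ((A ⊔ B).mul_mem haX hc')]
  congr 1
  group

omit h in
lemma square_identity {s c : G} (hz : c * (s * c * s⁻¹) = (s * c * s⁻¹) * c) :
    (s * s) * c * (s * s)⁻¹ * c⁻¹ = s * ((s * c * s⁻¹) * c) * s⁻¹ * ((s * c * s⁻¹) * c)⁻¹ := by
  set c' := s * c * s⁻¹ with hc'
  have e1 : c' * c⁻¹ * c'⁻¹ = c⁻¹ := by
    have h1 : c' * c = c * c' := hz.symm
    calc c' * c⁻¹ * c'⁻¹ = c⁻¹ * (c * c') * c⁻¹ * c'⁻¹ := by group
      _ = c⁻¹ * (c' * c) * c⁻¹ * c'⁻¹ := by rw [h1]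
      _ = c⁻¹ := by group
  have e2 : s * (c' * c) * s⁻¹ * (c' * c)⁻¹ = (s * c' * s⁻¹) * (s * c * s⁻¹) * (c⁻¹ * c'⁻¹) := by group
  rw [e2]
  calc (s * s) * c * (s * s)⁻¹ * c⁻¹ = (s * c' * s⁻¹) * c⁻¹ := by rw [hc']; group
    _ = (s * c' * s⁻¹) * (c' * c⁻¹ * c'⁻¹) := by rw [e1]
    _ = (s * c' * s⁻¹) * (s * c * s⁻¹) * (c⁻¹ * c'⁻¹) := by rw [hc']; group

/-- Elements of order bigger than three do not exist. -/
theorem no_large {t : G} (ht : t ∈ A) (ht2 : t * t ≠ 1) (ht3 : t * t * t ≠ 1) : False := by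
  have hsp := h.special_AD
  have hAabc : IsMulCommutative A := h.hS.commutative A h.hA
  have hDabc : IsMulCommutative D := h.hS.commutative D h.hD
  have hAab := h.pt_ab left_mem_pts
  obtain ⟨W, hWX, hWiff, hWc, c, hc, hcA⟩ := h.exists_W
  have hfixall : ∀ w ∈ W, conjBy A w = A → ∀ x ∈ A ⊔ B, w * x = x * w := by
    intro w hw e x hx
    rcases (hWiff w (hWX hw)).1 hw with h1 | h1
    · exact comm_sup_of_fixes h.hAB h1 hx
    · exact absurd e (h1 A left_mem_pts)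
  have hWn : ∀ w ∈ W, ∀ x ∈ A ⊔ B, x * w * x⁻¹ ∈ W := by
    intro w hw x hx
    have hm : x * w * x⁻¹ ∈ A ⊔ B := (A ⊔ B).mul_mem ((A ⊔ B).mul_mem hx (hWX hw)) ((A ⊔ B).inv_mem hx)
    rw [hWiff _ hm]
    have key : ∀ Q ∈ pts A B, conjBy Q (x * w * x⁻¹) = Q ↔ conjBy (conjBy Q x⁻¹) w = conjBy Q x⁻¹ := by
      intro Q _
      rw [conj_conj]
      constructor
      · intro e
        have := congrArg (fun T => conjBy T x⁻¹) e
        simp only [conj_conj] at this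
        have e5 : x⁻¹ * (x * w * x⁻¹) = w * x⁻¹ := by group
        rwa [e5] at this
      · intro e
        have := congrArg (fun T => conjBy T x) e
        simp only [conj_conj] at this
        have e5 : x * (w * x⁻¹) = x * w * x⁻¹ := by group
        rw [e5, mul_inv_cancel, conj_one'] at this
        exact this
    rcases (hWiff w (hWX hw)).1 hw with h1 | h1
    · left
      intro Q hQ
      rw [key Q hQ]
      exact h1 _ (conj_mem_pts h.hAB ((A ⊔ B).inv_mem hx) hQ)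
    · right
      intro Q hQ
      rw [Ne, key Q hQ]
      exact h1 _ (conj_mem_pts h.hAB ((A ⊔ B).inv_mem hx) hQ)
  have ht1 : t ≠ 1 := by
    rintro rfl
    simp at ht2
  -- the partner of `t`
  obtain ⟨b, hb⟩ := pt_exists_left hsp ht ht1
  have hbD : b ∈ D := hb.2.2.1
  have hb2 : b ^ 2 ≠ 1 := by
    intro e
    have e1 : b⁻¹ = b := by
      rw [pow_two] at e
      exact inv_eq_of_mul_eq_one_left e
    have h1 := pt_inv hsp hb
    rw [e1] at h1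
    have h2 := pt_unique_right hsp hb h1
    apply ht2
    nth_rewrite 1 [h2]
    simp
  obtain ⟨s, hs⟩ := pt_exists_right hsp (D.pow_mem hbD 2) hb2
  have hss : s ^ 2 = t := K_all hsp hAabc hDabc 2 t b s hb hb2 hs
  have hsA : s ∈ A := hs.1
  have hst : s * s = t := by rw [← pow_two]; exact hss
  have hs2 : s * s ≠ 1 := by rw [hst]; exact ht1
  have hs3 : s * s * s ≠ 1 := by
    intro e
    apply ht3
    rw [← hst]
    calc s * s * (s * s) * (s * s) = (s * s * s) * (s * s * s) := by group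
      _ = 1 := by rw [e, one_mul]
  have hsX : s ∈ A ⊔ B := Subgroup.mem_sup_left hsA
  have htX : t ∈ A ⊔ B := Subgroup.mem_sup_left ht
  have hζ : ∀ x ∈ W, conjBy A x ≠ A → x * (s * x * s⁻¹) = (s * x * s⁻¹) * x := fun x hx hxA =>
    zeta h.hAB hAab hWX hfixall hWn hWc hsA hs2 hs3 hx hxA
  -- `c₃`
  have hcX := hWX hc
  set c₁ := (s * c * s⁻¹) * c with hc₁
  have hcs : s * c * s⁻¹ ∈ W := hWn c hc s hsX
  have hc₁W : c₁ ∈ W := W.mul_mem hcs hc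
  have hc₁X : c₁ ∈ A ⊔ B := hWX hc₁W
  have hc₁A : conjBy A c₁ ≠ A := by
    rw [hc₁, ← hζ c hc hcA]
    exact prod_conj_ne h.hAB hWX hfixall hWn hsA hs2 hc hcA
  set c₃ := t * (t * c * t⁻¹) * t⁻¹ with hc₃
  have htc : t * c * t⁻¹ ∈ W := hWn c hc t htX
  have hc₃W : c₃ ∈ W := hWn _ htc t htX
  have hc₃A : conjBy A c₃ ≠ A := by
    intro e
    apply hcA
    have e1 : c₃ = (t * t) * c * (t * t)⁻¹ := by rw [hc₃]; group
    rw [e1, conj_mul_of_mem_right (A.inv_mem (A.mul_mem ht ht)), ← conj_conj, conj_eq_iff,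
      conj_of_mem (A.inv_mem (A.mul_mem ht ht))] at e
    exact e
  -- (J)
  have J1 := h.J_eq hb hcX
  have J2 := h.J_eq hb ((A ⊔ B).mul_mem ((A ⊔ B).mul_mem htX hcX) ((A ⊔ B).inv_mem htX))
  have J3 := h.J_eq hs hc₁X
  have ec : t * c * t⁻¹ * c⁻¹ = s * c₁ * s⁻¹ * c₁⁻¹ := by
    rw [← hst]
    exact square_identity (hζ c hc hcA)
  have ec₃ : t * c₃ * t⁻¹ * c₃⁻¹ = s * ((s * c₃ * s⁻¹) * c₃) * s⁻¹ * ((s * c₃ * s⁻¹) * c₃)⁻¹ := by
    rw [← hst]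
    exact square_identity (hζ c₃ hc₃W hc₃A)
  have eb2 : (b ^ 2)⁻¹ = b⁻¹ * b⁻¹ := by
    rw [pow_two]; group
  have e1 : conjBy D (s * (s * c₁ * s⁻¹) * s⁻¹ * (s * c₁ * s⁻¹)⁻¹) = conjBy D (t * c₃ * t⁻¹ * c₃⁻¹) := by
    rw [← J3, ← ec, eb2, ← conj_conj, J1, J2]
  rw [ec₃] at e1
  have hY1 := h.Y_eq hs ((A ⊔ B).mul_mem ((A ⊔ B).mul_mem hsX hc₁X) ((A ⊔ B).inv_mem hsX))
  have hc₄X : (s * c₃ * s⁻¹) * c₃ ∈ A ⊔ B := hWX (W.mul_mem (hWn _ hc₃W s hsX) hc₃W)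
  have hY2 := h.Y_eq hs hc₄X
  rw [← hY1, ← hY2] at e1
  -- cancel
  have e2 : conjBy A (s * c₁ * s⁻¹) = conjBy A ((s * c₃ * s⁻¹) * c₃) := by
    have e3 := congrArg (fun T => conjBy T (s * (b ^ 2)⁻¹)⁻¹) e1
    simp only [conj_conj] at e3
    convert e3 using 2
    · group
    · group
  have ec₄ : (s * c₃ * s⁻¹) * c₃ = (s * s * s * s) * c₁ * (s * s * s * s)⁻¹ := by
    rw [hc₃, ← hst, hc₁]; group
  rw [ec₄] at e2
  rw [conj_mul_of_mem_right (A.inv_mem hsA), conj_mul_of_mem_right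
    (A.inv_mem (A.mul_mem (A.mul_mem (A.mul_mem hsA hsA) hsA) hsA))] at e2
  have e3 : conjBy (conjBy A c₁) (s * s * s) = conjBy A c₁ := by
    have e4 := congrArg (fun T => conjBy T s⁻¹) e2
    simp only [conj_conj] at e4
    rw [conj_conj]
    convert e4.symm using 2
    · group
    · group
  have hc₁p : conjBy A c₁ ∈ pts A B := conj_mem_pts h.hAB hc₁X left_mem_pts
  exact hc₁A (fixed_point_unique h.hAB left_mem_pts hc₁p (A.mul_mem (A.mul_mem hsA hsA) hsA) hs3 e3)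

end BadCase

end Cfsg.Agent.RootSub
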