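import Cfsg.Agent.RootSub.Spec3
import Cfsg.Agent.RootSub.SL2
import Cfsg.Agent.RootSub.Graph

/-!
# S5039: rank one pairs in a class with commuting members are special
-/

set_option autoImplicit false

namespace Cfsg.Agent.RootSub

open Cfsg Matrix

variable {G : Type*} [Group G]

section diag

variable {k : Type*} [Field k]

/-- diagonal matrix -/
def dgM (t : k) (ht : t ≠ 0) : SpecialLinearGroup (Fin 2) k := ⟨!![t, 0; 0, t⁻¹], by simp [Matrix.det_fin_two, ht]⟩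

@[simp] lemma dgM_val (t : k) (ht : t ≠ 0) : (dgM t ht : Matrix (Fin 2) (Fin 2) k) = !![t, 0; 0, t⁻¹] := rfl

lemma dgM_up (t : k) (ht : t ≠ 0) (s : k) : dgM t ht * upM s = upM (t * t * s) * dgM t ht := by
  apply sl2_ext <;> simp [Matrix.mul_apply, Fin.sum_univ_two, ht]
  field_simp

lemma upM_not_central {s : k} (h : upM s ∈ Subgroup.center (SpecialLinearGroup (Fin 2) k)) : s = 0 := by
  have e := Subgroup.mem_center_iff.mp h (loM 1)
  have := congrArg (fun g : SpecialLinearGroup (Fin 2) k => (g : Matrix (Fin 2) (Fin 2) k) 0 0) e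
  simpa [Matrix.mul_apply, Fin.sum_univ_two] using this

lemma exists_good_elt (hk : 3 < ENat.card k) : ∃ t : k, t ≠ 0 ∧ t * t ≠ 1 := by
  by_contra hcon
  push Not at hcon
  have hsub : (Set.univ : Set k) ⊆ {0, 1, -1} := by
    intro t _
    by_cases h0 : t = 0
    · simp [h0]
    · have h1 := hcon t h0
      have h2 : (t - 1) * (t + 1) = 0 := by ring_nf; rw [pow_two, h1]; ring
      rcases mul_eq_zero.mp h2 with h3 | h3
      · right; left; exact sub_eq_zero.mp h3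
      · right; right
        exact eq_neg_of_add_eq_zero_left h3
  have hfin : (Set.univ : Set k).Finite := Set.Finite.subset (by simp) hsub
  have hcard : ENat.card k ≤ 3 := by
    rw [← Set.encard_univ]
    have h1 : ({-1} : Set k).encard = 1 := Set.encard_singleton _
    have h2 : ({1, -1} : Set k).encard ≤ 1 + 1 := by
      have := Set.encard_insert_le ({-1} : Set k) (1 : k)
      rwa [h1] at this
    have h3 : ({0, 1, -1} : Set k).encard ≤ (1 + 1) + 1 :=
      (Set.encard_insert_le _ _).trans (add_le_add_left h2 1)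
    calc (Set.univ : Set k).encard ≤ ({0, 1, -1} : Set k).encard := Set.encard_le_encard hsub
      _ ≤ (1 + 1) + 1 := h3
      _ = 3 := by norm_num
  exact absurd hk (not_lt.mpr hcard)

end diag

namespace BadCase

variable {S : Set (Subgroup G)} {A B D C : Subgroup G} (h : BadCase S A B D C)
include h

theorem no_psl2 {A₀ B₀ : Subgroup G} (hA₀ : A₀ ≤ A) (hB₀ : B₀ ≤ B) {k : Type*} [Field k] (hk : 3 < ENat.card k)
    (hp : IsPSL2PairOver k A₀ B₀) : False := by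
  obtain ⟨φ, hr, hker, hup, -⟩ := hp
  obtain ⟨t, ht0, ht1⟩ := exists_good_elt hk
  have hup_mem : ∀ s : k, φ (upM s) ∈ A := by
    intro s
    apply hA₀
    rw [← hup]
    exact ⟨upM s, mem_upper.mpr ⟨s, rfl⟩, rfl⟩
  have hnot : ∀ s : k, s ≠ 0 → φ (upM s) ≠ 1 := by
    intro s hs e
    exact hs (upM_not_central (hker (MonoidHom.mem_ker.mpr e)))
  set d := dgM t ht0 with hd
  have hdX : φ d ∈ A ⊔ B := by
    have h1 : φ d ∈ φ.range := ⟨d, rfl⟩
    rw [hr] at h1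
    exact (sup_le_sup hA₀ hB₀) h1
  have e1 : φ d * φ (upM 1) * (φ d)⁻¹ = φ (upM (t * t)) := by
    have h0 : φ d * φ (upM 1) = φ (upM (t * t)) * φ d := by
      rw [← map_mul, ← map_mul, hd, dgM_up, mul_one]
    rw [h0]
    exact mul_inv_cancel_right _ _
  have hfix : conjBy A (φ d) = A := by
    have hm1 : φ d * φ (upM 1) * (φ d)⁻¹ ∈ conjBy A (φ d) := conj_mem_conj _ (hup_mem 1)
    rw [e1] at hm1
    exact ti_of_partner h.hS h.hD (h.hPD A left_mem_pts) (h.hS.conj_mem A h.hA _) (hup_mem _) hm1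
      (hnot _ (mul_self_ne_zero.mpr ht0))
  have e2 := h.stab_comm left_mem_pts hdX hfix (hup_mem 1)
  rw [e1] at e2
  have e3 : φ (upM (t * t - 1)) = 1 := by
    have : upM (t * t - 1) = upM (t * t) * (upM 1)⁻¹ := by
      rw [upM_inv, upM_mul]; ring_nf
    rw [this, map_mul, map_inv, e2]
    group
  refine hnot _ ?_ e3
  intro e4
  exact ht1 (sub_eq_zero.mp e4)

end BadCase

/-- Existence of the commuting partner with a common rank one partner. -/
theorem exists_D_C {S : Set (Subgroup G)} (hS : IsRootSubgroupClass S) (hdeg : IsDegenerateRootSet S)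
    {A B C₀ : Subgroup G} (hA : A ∈ S) (hB : B ∈ S) (hAB : IsRankOnePair A B) (hC₀ : C₀ ∈ S) (hC₀ne : C₀ ≠ A)
    (hC₀c : ⁅A, C₀⁆ = ⊥) :
    ∃ D ∈ S, IsRankOnePair A D ∧ ∃ C ∈ S, C ≠ A ∧ ⁅A, C⁆ = ⊥ ∧ IsRankOnePair C D := by
  by_contra hcon
  push Not at hcon
  -- commuting for all conjugates
  have hconj : ∀ U ∈ S, ∀ V ∈ S, IsRankOnePair U V → ∀ W ∈ S, W ≠ U → ⁅U, W⁆ = ⊥ → ⁅V, W⁆ = ⊥ := by
    intro U hU V hV hUV W hW hWU hUW
    obtain ⟨g, rfl⟩ := hS.2.2 A hA U hU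
    have h1 : conjBy V g⁻¹ ∈ S := hS.1.conj_mem V hV _
    have h2 : IsRankOnePair A (conjBy V g⁻¹) := by
      have := rankOne_conj hUV g⁻¹
      rwa [conj_inv_conj] at this
    have h3 : conjBy W g⁻¹ ∈ S := hS.1.conj_mem W hW _
    have h4 : conjBy W g⁻¹ ≠ A := fun e => hWU (by rw [← e, conj_conj_inv])
    have h5 : ⁅A, conjBy W g⁻¹⁆ = ⊥ := by
      have := conj_bot_of_bot hUW g⁻¹
      rwa [conj_inv_conj] at this
    have h6 := hcon _ h1 h2 _ h3 h4 h5
    have h7 : ⁅conjBy V g⁻¹, conjBy W g⁻¹⁆ = ⊥ := by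
      rcases hS.1.pair _ h1 _ h3 with h8 | h8 | h8
      · exact h8
      · exact absurd (RankOnePair_symm h8) h6
      · exact absurd h8 (hdeg _ h1 _ h3)
    have := conj_bot_of_bot h7 g
    rwa [conj_conj_inv, conj_conj_inv] at this
  have hconn : IsConnectedFamily (FAdj S) S := by
    refine (s5032_main hS.1 ⟨A, hA, B, hB, hAB.ne⟩).2 ⟨hS.2, A, hA, ?_⟩
    intro hiso
    exact (hiso.2 B).1 ⟨hA, hB, hAB⟩
  have hpath := hconn A hA C₀ hC₀
  have key : ∀ U, Relation.ReflTransGen (FAdj S) A U → U ∈ S ∧ C₀ ≠ U ∧ ⁅U, C₀⁆ = ⊥ := by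
    intro U hU
    induction hU with
    | refl => exact ⟨hA, hC₀ne, hC₀c⟩
    | tail _ hadj ih =>
      obtain ⟨hU', hne, hc⟩ := ih
      refine ⟨hadj.2.1, ?_, hconj _ hU' _ hadj.2.1 hadj.2.2 _ hC₀ hne hc⟩
      rintro rfl
      exact not_comm_of_rankOne hadj.2.2 fun x hx y hy => comm_of_commutator_bot hc hx hy
  exact (key C₀ hpath).2.1 rfl

/-- S5039 -/
theorem s5039_main {G : Type*} [Group G] {S : Set (Subgroup G)} (hS : IsRootSubgroupClass S)
    (hcomm : ∃ A ∈ S, ∃ C ∈ S, A ≠ C ∧ ⁅A, C⁆ = ⊥)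
    (hH : IsDegenerateRootSet S → (∀ A ∈ S, ∀ a ∈ A, 0 < orderOf a ∧ orderOf a ≤ 3) →
      ∀ A ∈ S, ∀ B ∈ rankOnePartners S A, ∃ A₀ B₀ : Subgroup G, A₀ ≤ A ∧ B₀ ≤ B ∧
        ∃ (k : Type _) (_ : Field k), 3 < ENat.card k ∧ IsPSL2PairOver k A₀ B₀)
    {A B : Subgroup G} (hA : A ∈ S) (hB : B ∈ rankOnePartners S A) : IsSpecialRankOnePair A B := by
  obtain ⟨hBS, hAB⟩ := id hB
  have hS0 := hS.1
  by_cases hdeg : IsDegenerateRootSet S
  swap
  · -- non-degenerate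
    unfold IsDegenerateRootSet at hdeg
    push Not at hdeg
    obtain ⟨U, hU, V, hV, hUV⟩ := hdeg
    refine (s5034_main hS ⟨?_, ⟨A, hA, B, hBS, hAB⟩, ⟨U, hU, V, hV, hUV⟩⟩ hA hB).2
    exact hcomm
  by_cases hgood : ∃ C ∈ S, C ≠ A ∧ ⁅A, C⁆ = ⊥ ∧ IsRankOnePair C B
  · obtain ⟨C, hC, hne, hc, hCB⟩ := hgood
    exact special_of_comm_partner hAB hCB hc hne.symm (fun x hx y hy => root_comm hS0 hA hx hy)
      (fun x hx y hy => root_comm hS0 hBS hx hy)
  exfalso
  push Not at hgood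
  -- all members of `Σ_A` commute with `⟨A, B⟩`
  have hSig : ∀ U ∈ S, U ≠ A → ⁅U, A⁆ = ⊥ → ⁅U, A ⊔ B⁆ = ⊥ := by
    intro U hU hne hc
    have hc' : ⁅A, U⁆ = ⊥ := by rw [Subgroup.commutator_comm]; exact hc
    have h1 : ⁅U, B⁆ = ⊥ := by
      rcases hS0.pair U hU B hBS with h2 | h2 | h2
      · exact h2
      · exact absurd h2 (hgood U hU hne hc')
      · exact absurd h2 (hdeg U hU B hBS)
    exact comm_sup_right_bot hc h1
  have hcom : ∀ P ∈ pts A B, ∀ U ∈ S, U ≠ P → ⁅U, P⁆ = ⊥ → ⁅U, A ⊔ B⁆ = ⊥ := by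
    intro P hP U hU hne hc
    obtain ⟨x, hx, rfl⟩ := exists_of_mem_pts hAB hP
    have h1 : conjBy U x⁻¹ ∈ S := hS0.conj_mem U hU _
    have h2 : conjBy U x⁻¹ ≠ A := fun e => hne (by rw [← e, conj_conj_inv])
    have h3 : ⁅conjBy U x⁻¹, A⁆ = ⊥ := by
      have := conj_bot_of_bot hc x⁻¹
      rwa [conj_inv_conj] at this
    have h4 := hSig _ h1 h2 h3
    have h5 : conjBy (conjBy U x⁻¹) x = conjBy U x⁻¹ :=
      conj_fix_of_comm fun d hd => (comm_of_commutator_bot h4 hd hx).symm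
    rw [conj_conj_inv] at h5
    rwa [← h5] at h4
  -- a commuting member
  obtain ⟨A₁, hA₁, C₁, hC₁, hne₁, hc₁⟩ := hcomm
  obtain ⟨g, hg⟩ := hS.2.2 A₁ hA₁ A hA
  have hC₀ : conjBy C₁ g ∈ S := hS0.conj_mem _ hC₁ g
  have hC₀ne : conjBy C₁ g ≠ A := fun e => hne₁ (conj_injective g (hg.symm.trans e.symm))
  have hC₀c : ⁅A, conjBy C₁ g⁆ = ⊥ := by
    rw [hg]; exact conj_bot_of_bot hc₁ g
  obtain ⟨D, hD, hAD, C, hC, hCA, hAC, hCD⟩ := exists_D_C hS hdeg hA hBS hAB hC₀ hC₀ne hC₀c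
  have hCX : ⁅C, A ⊔ B⁆ = ⊥ := hSig C hC hCA (by rw [Subgroup.commutator_comm]; exact hAC)
  have hPS : ∀ P ∈ pts A B, P ∈ S := by
    intro P hP
    obtain ⟨x, -, rfl⟩ := exists_of_mem_pts hAB hP
    exact hS0.conj_mem A hA x
  have hPD : ∀ P ∈ pts A B, IsRankOnePair P D := by
    intro P hP
    rcases hS0.pair P (hPS P hP) D hD with h2 | h2 | h2
    · exfalso
      by_cases hDP : D = P
      · subst hDP
        apply not_comm_of_rankOne hCD
        intro x hx y hy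
        exact comm_of_commutator_bot hCX hx (pts_le hAB hP hy)
      · have h3 := hcom P hP D hD hDP (by rw [Subgroup.commutator_comm]; exact h2)
        apply not_comm_of_rankOne hAD
        intro x hx y hy
        exact (comm_of_commutator_bot h3 hy (Subgroup.mem_sup_left hx)).symm
    · exact h2
    · exact absurd h2 (hdeg _ (hPS P hP) D hD)
  have hbad : BadCase S A B D C := ⟨hS0, hA, hD, hC, hAB, hCD, hCX, hPD, hcom⟩
  by_cases hord : ∀ A ∈ S, ∀ a ∈ A, 0 < orderOf a ∧ orderOf a ≤ 3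
  · obtain ⟨A₀, B₀, hA₀, hB₀, k, _, hk, hp⟩ := hH hdeg hord A hA B hB
    exact hbad.no_psl2 hA₀ hB₀ hk hp
  · push Not at hord
    obtain ⟨A₂, hA₂, a, ha, hao⟩ := hord
    obtain ⟨g₂, hg₂⟩ := hS.2.2 A₂ hA₂ A hA
    have ht : g₂ * a * g₂⁻¹ ∈ A := by
      rw [hg₂]; exact conj_mem_conj g₂ ha
    have hinj : ∀ n : ℕ, a ^ n = 1 → 0 < n → n ≤ 3 → False := by
      intro n hn hn0 hn3
      have h1 : orderOf a ∣ n := orderOf_dvd_of_pow_eq_one hn
      have h2 : 0 < orderOf a := Nat.pos_of_dvd_of_pos h1 hn0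
      have h3 := hao h2
      have h4 := Nat.le_of_dvd hn0 h1
      omega
    refine hbad.no_large ht ?_ ?_
    · intro e
      apply hinj 2 _ (by norm_num) (by norm_num)
      have e1 : g₂ * (a * a) * g₂⁻¹ = 1 := by
        rw [← e]; group
      have e2 : a * a = 1 := by
        have := congrArg (fun z => g₂⁻¹ * z * g₂) e1
        simpa [mul_assoc] using this
      rw [pow_two]; exact e2
    · intro e
      apply hinj 3 _ (by norm_num) (by norm_num)
      have e1 : g₂ * (a * a * a) * g₂⁻¹ = 1 := by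
        rw [← e]; group
      have e2 : a * a * a = 1 := by
        have := congrArg (fun z => g₂⁻¹ * z * g₂) e1
        simpa [mul_assoc] using this
      rw [pow_succ, pow_two]; exact e2

end Cfsg.Agent.RootSub
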