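import Cfsg.Agent.RootSub.TvSL

set_option autoImplicit false
set_option linter.unusedSectionVars false
set_option linter.unusedSimpArgs false
set_option linter.unusedVariables false

namespace Cfsg.Agent.RootSub.Tv

open Cfsg Matrix

section sl2

variable {F : Type*} [Field F]

lemma sl2_scalar_of_comm {s t : F} (hs : s ≠ 0) (ht : t ≠ 0) {y : SpecialLinearGroup (Fin 2) F}
    (h1 : upM s * y = y * upM s) (h2 : loM t * y = y * loM t) :
    (y : Matrix (Fin 2) (Fin 2) F) 0 1 = 0 ∧ (y : Matrix (Fin 2) (Fin 2) F) 1 0 = 0 ∧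
      (y : Matrix (Fin 2) (Fin 2) F) 0 0 = (y : Matrix (Fin 2) (Fin 2) F) 1 1 := by
  have h1' : (!![1, s; 0, 1] : Matrix (Fin 2) (Fin 2) F) * (y : Matrix (Fin 2) (Fin 2) F) =
      (y : Matrix (Fin 2) (Fin 2) F) * !![1, s; 0, 1] := congrArg Subtype.val h1
  have h2' : (!![1, 0; t, 1] : Matrix (Fin 2) (Fin 2) F) * (y : Matrix (Fin 2) (Fin 2) F) =
      (y : Matrix (Fin 2) (Fin 2) F) * !![1, 0; t, 1] := congrArg Subtype.val h2
  have a1 := congrFun (congrFun h1' 0) 0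
  have a2 := congrFun (congrFun h1' 0) 1
  have a3 := congrFun (congrFun h2' 0) 0
  simp [Matrix.mul_apply, Fin.sum_univ_two] at a1 a2 a3
  refine ⟨?_, ?_, ?_⟩
  · rcases a3 with h | h
    · exact h
    · exact absurd h ht
  · rcases a1 with h | h
    · exact absurd h hs
    · exact h
  · have : s * ((y : Matrix (Fin 2) (Fin 2) F) 0 0 - (y : Matrix (Fin 2) (Fin 2) F) 1 1) = 0 := by
      linear_combination -a2
    rcases mul_eq_zero.mp this with h | h
    · exact absurd h hs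
    · exact sub_eq_zero.mp h

variable [CharP F 2]

lemma sl2_eq_one_of_comm {s t : F} (hs : s ≠ 0) (ht : t ≠ 0) {y : SpecialLinearGroup (Fin 2) F}
    (h1 : upM s * y = y * upM s) (h2 : loM t * y = y * loM t) : y = 1 := by
  obtain ⟨e1, e2, e3⟩ := sl2_scalar_of_comm hs ht h1 h2
  have hdet : (y : Matrix (Fin 2) (Fin 2) F).det = 1 := y.2
  rw [Matrix.det_fin_two, e1, e2, ← e3] at hdet
  have h3 : ((y : Matrix (Fin 2) (Fin 2) F) 0 0 + 1) ^ 2 = 0 := by
    have h2' : (2 : F) = 0 := CharTwo.two_eq_zero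
    linear_combination hdet + ((y : Matrix (Fin 2) (Fin 2) F) 0 0 + 1) * h2'
  have h4 : (y : Matrix (Fin 2) (Fin 2) F) 0 0 = 1 := by
    have h5 := pow_eq_zero_iff (two_ne_zero) |>.mp h3
    have h2' : (2 : F) = 0 := CharTwo.two_eq_zero
    linear_combination h5 - h2'
  apply sl2_ext <;> simp [e1, e2, ← e3, h4]

lemma upM_sq (s : F) : upM s * upM s = 1 := by
  rw [upM_mul, CharTwo.add_self_eq_zero, upM_zero]

lemma loM_sq (s : F) : loM s * loM s = 1 := by
  rw [loM_mul, CharTwo.add_self_eq_zero, loM_zero]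

lemma odd_order_sl2 [Finite F] {s t : F} (hs : s ≠ 0) (ht : t ≠ 0) : Odd (orderOf (upM s * loM t)) := by
  have : Finite (SpecialLinearGroup (Fin 2) F) :=
    inferInstanceAs (Finite {A : Matrix (Fin 2) (Fin 2) F // A.det = 1})
  set x := upM s * loM t with hx
  have hpos : 0 < orderOf x := orderOf_pos x
  by_contra hodd
  rw [Nat.not_odd_iff_even] at hodd
  obtain ⟨r, hr⟩ := hodd
  have hr0 : 0 < r := by omega
  have hy2 : (x ^ r) ^ 2 = 1 := by
    rw [← pow_mul, show r * 2 = r + r by ring, ← hr, pow_orderOf_eq_one]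
  have hy1 : x ^ r ≠ 1 := pow_ne_one_of_lt_orderOf (by omega) (by omega)
  have hu2 : upM s * upM s = 1 := upM_sq s
  have hl2 : loM t * loM t = 1 := loM_sq t
  have hyinv : (x ^ r)⁻¹ = x ^ r := by
    rw [inv_eq_iff_mul_eq_one, ← pow_two, hy2]
  have hu : upM s * x ^ r = x ^ r * upM s := by
    have h1 : upM s * x * (upM s)⁻¹ = x⁻¹ := by
      rw [eq_inv_iff_mul_eq_one, hx, inv_eq_of_mul_eq_one_left hu2]
      calc upM s * (upM s * loM t) * upM s * (upM s * loM t) = (upM s * upM s) * loM t * (upM s * upM s) * loM t := by group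
        _ = 1 := by rw [hu2]; simpa using hl2
    have h2 : upM s * x ^ r * (upM s)⁻¹ = (x ^ r)⁻¹ := by
      rw [← conj_pow, h1, inv_pow]
    rw [hyinv] at h2
    exact mul_inv_eq_iff_eq_mul.mp h2
  have hl : loM t * x ^ r = x ^ r * loM t := by
    have h1 : loM t * x * (loM t)⁻¹ = x⁻¹ := by
      rw [eq_inv_iff_mul_eq_one, hx, inv_eq_of_mul_eq_one_left hl2]
      calc loM t * (upM s * loM t) * loM t * (upM s * loM t) = loM t * upM s * (loM t * loM t) * upM s * loM t := by group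
        _ = loM t * (upM s * upM s) * loM t := by rw [hl2]; group
        _ = 1 := by rw [hu2]; simpa using hl2
    have h2 : loM t * x ^ r * (loM t)⁻¹ = (x ^ r)⁻¹ := by
      rw [← conj_pow, h1, inv_pow]
    rw [hyinv] at h2
    exact mul_inv_eq_iff_eq_mul.mp h2
  exact hy1 (sl2_eq_one_of_comm hs ht hu hl)

lemma sl2_pow_three {s t : F} (hs : s = 1) (ht : t = 1) : (upM s * loM t) ^ 3 = 1 := by
  subst hs ht
  have h2' : (2 : F) = 0 := CharTwo.two_eq_zero
  have e : (upM (1 : F) * loM 1) ^ 3 = upM 1 * loM 1 * (upM 1 * loM 1) * (upM 1 * loM 1) := by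
    rw [pow_succ, pow_two]
  rw [e]
  apply sl2_ext <;> simp [Matrix.mul_apply, Fin.sum_univ_two]
  · linear_combination 6 * h2'
  · linear_combination 4 * h2'
  · linear_combination 4 * h2'
  · linear_combination 2 * h2'

end sl2

variable {ι : Type*} [Fintype ι] [DecidableEq ι] {F : Type*} [Field F]

/-- the elements: conjugates of transvections -/
def clsD (i j : ι) : Set (SpecialLinearGroup ι F) :=
  {t | ∃ c : F, c ≠ 0 ∧ ∃ g : SpecialLinearGroup ι F, ((g⁻¹ * t * g : SpecialLinearGroup ι F) : Matrix ι ι F) = transvection i j c}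

variable {i j : ι}

lemma mem_clsD (hN : 2 < Fintype.card ι) (hij : i ≠ j) {t : SpecialLinearGroup ι F} :
    t ∈ clsD i j ↔ ∃ (v f : ι → F) (h : IsFlag v f), t = tvG v f h.dot 1 := by
  constructor
  · rintro ⟨c, hc, g, hg⟩
    rw [transvection_eq_tvM] at hg
    have h1 : g⁻¹ * t * g = tvG _ _ (isFlag_single (k := F) hij).dot c := Subtype.ext hg
    have h2 : t = g * tvG _ _ (isFlag_single (k := F) hij).dot c * g⁻¹ := by
      rw [← h1]; group
    rw [conj_tvG] at h2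
    have hfl := (isFlag_single (k := F) hij).conj g
    refine ⟨c • ((g : Matrix ι ι F) *ᵥ Pi.single i 1), _, ⟨?_, hfl.hf, ?_⟩, ?_⟩
    · intro e
      rcases smul_eq_zero.mp e with h | h
      · exact hc h
      · exact hfl.hv h
    · rw [dotProduct_smul, hfl.dot, smul_zero]
    · rw [h2]
      apply Subtype.ext
      simp only [tvG_val]
      rw [tvM_smul_left, one_mul]
  · rintro ⟨v, f, hfl, rfl⟩
    obtain ⟨g, rfl, rfl⟩ := flag_trans hN (isFlag_single (k := F) hij).hv (isFlag_single hij).hf (isFlag_single hij).dot hfl.hv hfl.hf hfl.dot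
    refine ⟨1, one_ne_zero, g, ?_⟩
    rw [← conj_tvG g (isFlag_single hij).dot 1, transvection_eq_tvM]
    have : g⁻¹ * (g * tvG (Pi.single i 1) (Pi.single j 1) (isFlag_single hij).dot 1 * g⁻¹) * g =
      tvG (Pi.single i 1) (Pi.single j 1) (isFlag_single hij).dot 1 := by group
    rw [this]
    rfl

lemma clsD_conj {t : SpecialLinearGroup ι F} (ht : t ∈ clsD (F := F) i j) (g : SpecialLinearGroup ι F) :
    g * t * g⁻¹ ∈ clsD (F := F) i j := by
  obtain ⟨c, hc, g₀, h0⟩ := ht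
  refine ⟨c, hc, g * g₀, ?_⟩
  have : (g * g₀)⁻¹ * (g * t * g⁻¹) * (g * g₀) = g₀⁻¹ * t * g₀ := by group
  rw [this, h0]

variable [CharP F 2]

lemma tvG_sq {v f : ι → F} (h : f ⬝ᵥ v = 0) (c : F) : tvG v f h c * tvG v f h c = 1 := by
  rw [tvG_add, CharTwo.add_self_eq_zero, tvG_zero]

lemma tvG_inv' {v f : ι → F} (h : f ⬝ᵥ v = 0) (c : F) : (tvG v f h c)⁻¹ = tvG v f h c :=
  inv_eq_of_mul_eq_one_left (tvG_sq h c)

lemma clsD_order {v f : ι → F} (h : IsFlag v f) : orderOf (tvG v f h.dot 1) = 2 := by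
  have : Fact (Nat.Prime 2) := ⟨Nat.prime_two⟩
  apply orderOf_eq_prime
  · rw [pow_two, tvG_sq]
  · rw [Ne, tvG_eq_one_iff h.dot h.hv h.hf]
    exact one_ne_zero

lemma tvG_scale {v f : ι → F} (h : IsFlag v f) {c : F} (hc : c ≠ 0) :
    ∃ h' : IsFlag (c • v) f, tvG v f h.dot c = tvG (c • v) f h'.dot 1 := by
  have h' : IsFlag (c • v) f := ⟨fun e => by
    rcases smul_eq_zero.mp e with e | e
    · exact hc e
    · exact h.hv e, h.hf, by rw [dotProduct_smul, h.dot, smul_zero]⟩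
  refine ⟨h', Subtype.ext ?_⟩
  simp only [tvG_val]
  rw [tvM_smul_left, one_mul]

lemma four_case (hN : 2 < Fintype.card ι) (hij : i ≠ j) {v f w g : ι → F} (h1 : IsFlag v f) (h2 : IsFlag w g)
    (hfw : f ⬝ᵥ w = 0) (hgv : g ⬝ᵥ v ≠ 0) :
    orderOf (tvG v f h1.dot 1 * tvG w g h2.dot 1) = 4 ∧
      (tvG v f h1.dot 1 * tvG w g h2.dot 1) ^ 2 ∈ clsD (F := F) i j := by
  have : Fact (Nat.Prime 2) := ⟨Nat.prime_two⟩
  have hfl : IsFlag w f := ⟨h2.hv, h1.hf, hfw⟩
  have key : (tvG v f h1.dot 1 * tvG w g h2.dot 1) ^ 2 = tvG w f hfw (-(1 * 1 * (g ⬝ᵥ v))) := by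
    rw [← commutator_formula h1.dot h2.dot hfw 1 1, tvG_inv', tvG_inv', pow_two]
    group
  have hc : -(1 * 1 * (g ⬝ᵥ v)) ≠ 0 := by simpa using hgv
  constructor
  · have := orderOf_eq_prime_pow (p := 2) (n := 1) (x := tvG v f h1.dot 1 * tvG w g h2.dot 1) ?_ ?_
    · simpa using this
    · rw [pow_one, key, tvG_eq_one_iff hfw hfl.hv hfl.hf]
      exact hc
    · have : (2 : ℕ) ^ (1 + 1) = 2 * 2 := by norm_num
      rw [this, pow_mul, key, pow_two, tvG_sq]
  · rw [key, mem_clsD hN hij]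
    obtain ⟨h', e⟩ := tvG_scale hfl hc
    exact ⟨_, _, h', e⟩

lemma odd_case [Finite F] {v f w g : ι → F} (h1 : IsFlag v f) (h2 : IsFlag w g)
    (hfw : f ⬝ᵥ w ≠ 0) (hgv : g ⬝ᵥ v ≠ 0) :
    Odd (orderOf (tvG v f h1.dot 1 * tvG w g h2.dot 1)) ∧
      ((∀ a : F, a ≠ 0 → a = 1) → (tvG v f h1.dot 1 * tvG w g h2.dot 1) ^ 3 = 1) := by
  have hf' : ((f ⬝ᵥ w)⁻¹ • f) ⬝ᵥ v = 0 := by rw [smul_dotProduct, h1.dot]; simp
  have hg' : ((g ⬝ᵥ v)⁻¹ • g) ⬝ᵥ w = 0 := by rw [smul_dotProduct, h2.dot]; simp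
  have hf1 : ((f ⬝ᵥ w)⁻¹ • f) ⬝ᵥ w = 1 := by rw [smul_dotProduct]; simp [hfw]
  have hg1 : ((g ⬝ᵥ v)⁻¹ • g) ⬝ᵥ v = 1 := by rw [smul_dotProduct]; simp [hgv]
  have h := Qm_mul_Pm hg' hf' hg1 hf1
  have e1 : embG h (upM (f ⬝ᵥ w)) = tvG v f h1.dot 1 := by
    apply Subtype.ext
    simp only [embG_val, tvG_val]
    rw [embM_upM, tvM_smul_right, mul_inv_cancel₀ hfw]
  have e2 : embG h (loM (g ⬝ᵥ v)) = tvG w g h2.dot 1 := by
    apply Subtype.ext
    simp only [embG_val, tvG_val]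
    rw [embM_loM, tvM_smul_right, mul_inv_cancel₀ hgv]
  have e3 : tvG v f h1.dot 1 * tvG w g h2.dot 1 = embG h (upM (f ⬝ᵥ w) * loM (g ⬝ᵥ v)) := by
    rw [map_mul, e1, e2]
  rw [e3, orderOf_injective _ (embG_injective h)]
  refine ⟨odd_order_sl2 hfw hgv, fun hone => ?_⟩
  rw [← map_pow, sl2_pow_three (hone _ hfw) (hone _ hgv), map_one]

lemma clsD_pair_aux (hN : 2 < Fintype.card ι) (hij : i ≠ j) {v f w g : ι → F} (h1 : IsFlag v f) (h2 : IsFlag w g)
    (hfw : ¬ f ⬝ᵥ w = 0) (hgv : g ⬝ᵥ v = 0) :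
    orderOf (tvG v f h1.dot 1 * tvG w g h2.dot 1) = 4 ∧ (tvG v f h1.dot 1 * tvG w g h2.dot 1) ^ 2 ∈ clsD (F := F) i j := by
  obtain ⟨e1, e2⟩ := four_case hN hij h2 h1 hgv hfw
  set a := tvG v f h1.dot 1 with ha
  set b := tvG w g h2.dot 1 with hb
  have hconj : a * b = b⁻¹ * (b * a) * b⁻¹⁻¹ := by group
  constructor
  · rw [hconj]
    have h3 := orderOf_injective (MulAut.conj b⁻¹).toMonoidHom (MulAut.conj b⁻¹).injective (b * a)
    have h4 : (MulAut.conj b⁻¹).toMonoidHom (b * a) = b⁻¹ * (b * a) * b⁻¹⁻¹ := rfl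
    rw [h4] at h3
    rw [h3, e1]
  · rw [hconj, conj_pow]
    exact clsD_conj e2 b⁻¹

theorem clsD_pair [Finite F] (hN : 2 < Fintype.card ι) (hij : i ≠ j) {a b : SpecialLinearGroup ι F} (ha : a ∈ clsD (F := F) i j) (hb : b ∈ clsD (F := F) i j) :
    a * b = b * a ∨ Odd (orderOf (a * b)) ∨ (orderOf (a * b) = 4 ∧ (a * b) ^ 2 ∈ clsD (F := F) i j) := by
  obtain ⟨v, f, h1, rfl⟩ := (mem_clsD hN hij).mp ha
  obtain ⟨w, g, h2, rfl⟩ := (mem_clsD hN hij).mp hb
  by_cases hfw : f ⬝ᵥ w = 0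
  · by_cases hgv : g ⬝ᵥ v = 0
    · left
      exact Subtype.ext (tvM_comm hfw hgv 1 1)
    · exact Or.inr (Or.inr (four_case hN hij h1 h2 hfw hgv))
  · by_cases hgv : g ⬝ᵥ v = 0
    · right; right
      exact clsD_pair_aux hN hij h1 h2 hfw hgv
    · exact Or.inr (Or.inl (odd_case h1 h2 hfw hgv).1)

lemma clsD_set [Finite F] (hN : 2 < Fintype.card ι) (hij : i ≠ j) : IsRootInvolutionSet (clsD (F := F) i j) where
  orderOf_eq := by
    intro d hd
    obtain ⟨v, f, h, rfl⟩ := (mem_clsD hN hij).mp hd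
    exact clsD_order h
  generates := by
    apply Lib.SLGen.eq_top_of_forall_transvection_mem
    intro a b hab c
    by_cases hc : c = 0
    · have : SpecialLinearGroup.transvection hab c = 1 := by
        subst hc
        apply Subtype.ext
        simp [SpecialLinearGroup.transvection]
      rw [this]
      exact Subgroup.one_mem _
    · apply Subgroup.subset_closure
      rw [mem_clsD hN hij]
      obtain ⟨h', e⟩ := tvG_scale (isFlag_single (k := F) hab) hc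
      refine ⟨_, _, h', ?_⟩
      rw [← e]
      exact Subtype.ext (transvection_eq_tvM a b c)
  conj_mem := fun d hd g => clsD_conj hd g
  pair := fun a ha b hb => clsD_pair hN hij ha hb

lemma clsD_class [Finite F] (hN : 2 < Fintype.card ι) (hij : i ≠ j) : IsRootInvolutionClass (clsD (F := F) i j) := by
  refine ⟨clsD_set hN hij, ⟨tvG _ _ (isFlag_single (k := F) hij).dot 1, (mem_clsD hN hij).mpr ⟨_, _, isFlag_single hij, rfl⟩⟩, ?_⟩
  intro a ha b hb
  obtain ⟨v, f, h1, rfl⟩ := (mem_clsD hN hij).mp ha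
  obtain ⟨w, g, h2, rfl⟩ := (mem_clsD hN hij).mp hb
  obtain ⟨x, rfl, rfl⟩ := flag_trans hN h1.hv h1.hf h1.dot h2.hv h2.hf h2.dot
  exact ⟨x, (conj_tvG x h1.dot 1).symm⟩

lemma clsD_34 [Finite F] (hN : 2 < Fintype.card ι) (hij : i ≠ j) (hone : ∀ a : F, a ≠ 0 → a = 1) :
    IsThreeFourPlusTranspositionSet (clsD (F := F) i j) := by
  refine ⟨clsD_set hN hij, ?_⟩
  intro a ha b hb hodd
  obtain ⟨v, f, h1, rfl⟩ := (mem_clsD hN hij).mp ha
  obtain ⟨w, g, h2, rfl⟩ := (mem_clsD hN hij).mp hb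
  by_cases hfw : f ⬝ᵥ w = 0
  · by_cases hgv : g ⬝ᵥ v = 0
    · left
      have hcomm : tvG v f h1.dot 1 * tvG w g h2.dot 1 = tvG w g h2.dot 1 * tvG v f h1.dot 1 :=
        Subtype.ext (tvM_comm hfw hgv 1 1)
      have h3 : (tvG v f h1.dot 1 * tvG w g h2.dot 1) ^ 2 = 1 := by
        rw [pow_two]
        calc tvG v f h1.dot 1 * tvG w g h2.dot 1 * (tvG v f h1.dot 1 * tvG w g h2.dot 1)
            = tvG v f h1.dot 1 * (tvG w g h2.dot 1 * tvG v f h1.dot 1) * tvG w g h2.dot 1 := by group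
          _ = tvG v f h1.dot 1 * (tvG v f h1.dot 1 * tvG w g h2.dot 1) * tvG w g h2.dot 1 := by rw [hcomm]
          _ = (tvG v f h1.dot 1 * tvG v f h1.dot 1) * (tvG w g h2.dot 1 * tvG w g h2.dot 1) := by group
          _ = 1 := by rw [tvG_sq, tvG_sq, one_mul]
      have h4 := orderOf_dvd_of_pow_eq_one h3
      rcases (Nat.dvd_prime Nat.prime_two).mp h4 with h5 | h5
      · exact h5
      · rw [h5] at hodd
        exact absurd hodd (by decide)
    · have := (four_case hN hij h1 h2 hfw hgv).1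
      rw [this] at hodd
      exact absurd hodd (by decide)
  · by_cases hgv : g ⬝ᵥ v = 0
    · rcases clsD_pair_aux hN hij h1 h2 hfw hgv with h5
      rw [h5.1] at hodd
      exact absurd hodd (by decide)
    · have h3 := (odd_case h1 h2 hfw hgv).2 hone
      have h4 := orderOf_dvd_of_pow_eq_one h3
      exact (Nat.dvd_prime Nat.prime_three).mp h4

end Cfsg.Agent.RootSub.Tv
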