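import Cfsg.Agent.RootSub.TvSub
import Cfsg.Prelude.Def_Classical

set_option autoImplicit false
set_option linter.unusedSectionVars false
set_option linter.unusedSimpArgs false
set_option linter.unusedVariables false

namespace Cfsg.Agent.RootSub.Tv.Orth

open Cfsg Matrix

variable {k : ℕ} {F : Type*} [Field F]

/-- swap -/
def sw (v : Fin k ⊕ Fin k → F) : Fin k ⊕ Fin k → F :=
  Sum.elim (fun i => v (Sum.inr i)) (fun i => v (Sum.inl i))

/-- polar form -/
def pB (u v : Fin k ⊕ Fin k → F) : F := u ⬝ᵥ sw v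

local notation "Q" => quadFormPlus k F

lemma pB_apply (u v : Fin k ⊕ Fin k → F) :
    pB u v = ∑ i, (u (Sum.inl i) * v (Sum.inr i) + u (Sum.inr i) * v (Sum.inl i)) := by
  simp [pB, dotProduct, sw, Fintype.sum_sum_type, Finset.sum_add_distrib]

lemma Q_add (u v : Fin k ⊕ Fin k → F) : Q (u + v) = Q u + Q v + pB u v := by
  rw [pB_apply]
  simp only [quadFormPlus, Pi.add_apply, ← Finset.sum_add_distrib]
  refine Finset.sum_congr rfl fun i _ => ?_
  ring

lemma Q_smul (c : F) (v : Fin k ⊕ Fin k → F) : Q (c • v) = c ^ 2 * Q v := by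
  simp only [quadFormPlus, Pi.smul_apply, smul_eq_mul, Finset.mul_sum]
  refine Finset.sum_congr rfl fun i _ => ?_
  ring

lemma Q_zero : Q (0 : Fin k ⊕ Fin k → F) = 0 := by
  simp [quadFormPlus]

lemma polar_eq (u v : Fin k ⊕ Fin k → F) : Q (u + v) - Q u - Q v = pB u v := by
  rw [Q_add]; ring

lemma pB_comm (u v : Fin k ⊕ Fin k → F) : pB u v = pB v u := by
  rw [pB_apply, pB_apply]
  refine Finset.sum_congr rfl fun i _ => ?_
  ring

lemma pB_add_left (u u' v : Fin k ⊕ Fin k → F) : pB (u + u') v = pB u v + pB u' v := by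
  simp [pB, add_dotProduct]

lemma pB_add_right (u v v' : Fin k ⊕ Fin k → F) : pB u (v + v') = pB u v + pB u v' := by
  rw [pB_comm, pB_add_left, pB_comm v, pB_comm v']

lemma pB_smul_left (c : F) (u v : Fin k ⊕ Fin k → F) : pB (c • u) v = c * pB u v := by
  simp [pB, smul_dotProduct]

lemma pB_smul_right (c : F) (u v : Fin k ⊕ Fin k → F) : pB u (c • v) = c * pB u v := by
  rw [pB_comm, pB_smul_left, pB_comm]

lemma pB_sub_left (u u' v : Fin k ⊕ Fin k → F) : pB (u - u') v = pB u v - pB u' v := by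
  simp [pB, sub_dotProduct]

lemma pB_sub_right (u v v' : Fin k ⊕ Fin k → F) : pB u (v - v') = pB u v - pB u v' := by
  rw [pB_comm, pB_sub_left, pB_comm v, pB_comm v']

lemma pB_neg_left (u v : Fin k ⊕ Fin k → F) : pB (-u) v = - pB u v := by
  simp [pB, neg_dotProduct]

lemma pB_neg_right (u v : Fin k ⊕ Fin k → F) : pB u (-v) = - pB u v := by
  rw [pB_comm, pB_neg_left, pB_comm]

lemma pB_zero_left (v : Fin k ⊕ Fin k → F) : pB 0 v = 0 := by simp [pB]

lemma pB_zero_right (v : Fin k ⊕ Fin k → F) : pB v 0 = 0 := by rw [pB_comm, pB_zero_left]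

lemma pB_self (v : Fin k ⊕ Fin k → F) : pB v v = 2 * Q v := by
  rw [pB_apply, quadFormPlus, Finset.mul_sum]
  refine Finset.sum_congr rfl fun i _ => ?_
  ring

lemma pB_self_eq {v : Fin k ⊕ Fin k → F} (h : Q v = 0) : pB v v = 0 := by
  rw [pB_self, h, mul_zero]

lemma sw_dot (u v : Fin k ⊕ Fin k → F) : sw v ⬝ᵥ u = pB u v := by
  rw [pB, dotProduct_comm]

lemma sw_inj_test {u : Fin k ⊕ Fin k → F} (h : ∀ w, pB u w = 0) : u = 0 := by
  funext x
  rcases x with i | i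
  · have := h (Pi.single (Sum.inr i) 1)
    rw [pB_apply] at this
    simpa [Pi.single_apply, Finset.sum_ite_eq] using this
  · have := h (Pi.single (Sum.inl i) 1)
    rw [pB_apply] at this
    simpa [Pi.single_apply, Finset.sum_ite_eq] using this

lemma eq_of_pB {u v : Fin k ⊕ Fin k → F} (h : ∀ w, pB u w = pB v w) : u = v := by
  rw [← sub_eq_zero]
  apply sw_inj_test
  intro w
  rw [pB_sub_left, h, sub_self]

/-- The isometry group -/
abbrev GO (k : ℕ) (F : Type*) [Field F] : Type _ := ↥(isometryGroup F (quadFormPlus k F))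

/-- The matrix of an element -/
abbrev mat (g : GO k F) : Matrix (Fin k ⊕ Fin k) (Fin k ⊕ Fin k) F :=
  ((g : GL (Fin k ⊕ Fin k) F) : Matrix (Fin k ⊕ Fin k) (Fin k ⊕ Fin k) F)

lemma mat_mul (a b : GO k F) : mat (a * b) = mat a * mat b := rfl
lemma mat_one : mat (1 : GO k F) = 1 := rfl
lemma mat_inj {a b : GO k F} (h : mat a = mat b) : a = b := Subtype.ext (Units.ext h)
lemma Q_pres (g : GO k F) (u : Fin k ⊕ Fin k → F) : Q (mat g *ᵥ u) = Q u := g.2 u 0
lemma mat_add (g : GO k F) (u v : Fin k ⊕ Fin k → F) : mat g *ᵥ (u + v) = mat g *ᵥ u + mat g *ᵥ v := mulVec_add _ _ _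
lemma pB_pres (g : GO k F) (u v : Fin k ⊕ Fin k → F) : pB (mat g *ᵥ u) (mat g *ᵥ v) = pB u v := by
  rw [← polar_eq, ← polar_eq, ← mat_add, Q_pres, Q_pres, Q_pres]

lemma act_mul (a b : GO k F) (x : Fin k ⊕ Fin k → F) : mat (a * b) *ᵥ x = mat a *ᵥ (mat b *ᵥ x) := by
  rw [mat_mul, mulVec_mulVec]

lemma act_inv_act (g : GO k F) (x : Fin k ⊕ Fin k → F) : mat g⁻¹ *ᵥ (mat g *ᵥ x) = x := by
  rw [← act_mul, inv_mul_cancel, mat_one, one_mulVec]

lemma act_act_inv (g : GO k F) (x : Fin k ⊕ Fin k → F) : mat g *ᵥ (mat g⁻¹ *ᵥ x) = x := by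
  rw [← act_mul, mul_inv_cancel, mat_one, one_mulVec]

/-- The nilpotent part -/
def sgX (p r v : Fin k ⊕ Fin k → F) : Fin k ⊕ Fin k → F := pB v r • p - pB v p • r

/-- Siegel matrix -/
def sgM (p r : Fin k ⊕ Fin k → F) (c : F) : Matrix (Fin k ⊕ Fin k) (Fin k ⊕ Fin k) F :=
  1 + c • (vecMulVec p (sw r) - vecMulVec r (sw p))

lemma sgM_act (p r v : Fin k ⊕ Fin k → F) (c : F) : sgM p r c *ᵥ v = v + c • sgX p r v := by
  unfold sgM sgX
  rw [add_mulVec, one_mulVec, smul_mulVec, sub_mulVec, vecMulVec_mulVec, vecMulVec_mulVec, sw_dot, sw_dot]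
  congr 2
  ext i
  simp [mul_comm]

lemma sgX_add (p r u v : Fin k ⊕ Fin k → F) : sgX p r (u + v) = sgX p r u + sgX p r v := by
  unfold sgX
  rw [pB_add_left, pB_add_left]
  module

lemma sgX_smul (p r u : Fin k ⊕ Fin k → F) (c : F) : sgX p r (c • u) = c • sgX p r u := by
  unfold sgX
  rw [pB_smul_left, pB_smul_left]
  module

/-- singular line data -/
structure IsL (p r : Fin k ⊕ Fin k → F) : Prop where
  hp : Q p = 0
  hr : Q r = 0
  hpr : pB p r = 0

lemma IsL.pp {p r : Fin k ⊕ Fin k → F} (h : IsL p r) : pB p p = 0 := pB_self_eq h.hp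
lemma IsL.rr {p r : Fin k ⊕ Fin k → F} (h : IsL p r) : pB r r = 0 := pB_self_eq h.hr
lemma IsL.rp {p r : Fin k ⊕ Fin k → F} (h : IsL p r) : pB r p = 0 := by rw [pB_comm]; exact h.hpr

lemma IsL.of_statement {p r : Fin k ⊕ Fin k → F} (h1 : Q p = 0) (h2 : Q r = 0) (h3 : Q (p + r) = 0) : IsL p r := by
  refine ⟨h1, h2, ?_⟩
  have := Q_add p r
  rw [h1, h2, h3] at this
  simpa using this.symm

lemma IsL.symm {p r : Fin k ⊕ Fin k → F} (h : IsL p r) : IsL r p := ⟨h.hr, h.hp, h.rp⟩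

lemma sgX_sq {p r : Fin k ⊕ Fin k → F} (h : IsL p r) (v : Fin k ⊕ Fin k → F) : sgX p r (sgX p r v) = 0 := by
  have e1 : pB (sgX p r v) r = 0 := by
    unfold sgX
    rw [pB_sub_left, pB_smul_left, pB_smul_left, h.hpr, h.rr]
    simp
  have e2 : pB (sgX p r v) p = 0 := by
    unfold sgX
    rw [pB_sub_left, pB_smul_left, pB_smul_left, h.pp, h.rp]
    simp
  show pB (sgX p r v) r • p - pB (sgX p r v) p • r = 0
  rw [e1, e2]
  simp

lemma sgM_mul {p r : Fin k ⊕ Fin k → F} (h : IsL p r) (c d : F) : sgM p r c * sgM p r d = sgM p r (c + d) := by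
  apply mulVec_injective
  funext v
  rw [← mulVec_mulVec, sgM_act, sgM_act, sgM_act, sgX_add, sgX_smul, sgX_sq h]
  module

lemma sgM_zero (p r : Fin k ⊕ Fin k → F) : sgM p r 0 = 1 := by simp [sgM]

lemma sgM_pres {p r : Fin k ⊕ Fin k → F} (h : IsL p r) (c : F) (v : Fin k ⊕ Fin k → F) : Q (sgM p r c *ᵥ v) = Q v := by
  rw [sgM_act, Q_add, Q_smul]
  have e1 : Q (sgX p r v) = 0 := by
    unfold sgX
    rw [sub_eq_add_neg, Q_add, Q_smul, ← neg_smul, Q_smul, h.hp, h.hr, pB_smul_left, pB_smul_right, h.hpr]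
    simp
  have e2 : pB v (c • sgX p r v) = 0 := by
    unfold sgX
    rw [pB_smul_right, pB_sub_right, pB_smul_right, pB_smul_right]
    ring
  rw [e1, e2]
  simp

/-- The Siegel element -/
def sgG {p r : Fin k ⊕ Fin k → F} (h : IsL p r) (c : F) : GO k F :=
  ⟨⟨sgM p r c, sgM p r (-c), by rw [sgM_mul h, add_neg_cancel, sgM_zero],
    by rw [sgM_mul h, neg_add_cancel, sgM_zero]⟩, fun u _ => sgM_pres h c u⟩

lemma sgG_mat {p r : Fin k ⊕ Fin k → F} (h : IsL p r) (c : F) : mat (sgG h c) = sgM p r c := rfl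

lemma sgG_add {p r : Fin k ⊕ Fin k → F} (h : IsL p r) (c d : F) : sgG h c * sgG h d = sgG h (c + d) :=
  mat_inj (sgM_mul h c d)

lemma sgG_zero {p r : Fin k ⊕ Fin k → F} (h : IsL p r) : sgG h 0 = 1 := mat_inj (sgM_zero p r)

lemma sgG_inv {p r : Fin k ⊕ Fin k → F} (h : IsL p r) (c : F) : (sgG h c)⁻¹ = sgG h (-c) := by
  rw [inv_eq_iff_mul_eq_one, sgG_add, add_neg_cancel, sgG_zero]

/-- the generators -/
def GenS (p r : Fin k ⊕ Fin k → F) : Set (GO k F) :=
  {σ | ∀ v : Fin k ⊕ Fin k → F, Q (v + p) - Q v - Q p = 0 → Q (v + r) - Q v - Q r = 0 → mat σ *ᵥ v = v}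

/-- The Siegel root group. -/
def TS (p r : Fin k ⊕ Fin k → F) : Subgroup (GO k F) := Subgroup.closure (GenS p r)

lemma mem_GenS {p r : Fin k ⊕ Fin k → F} {σ : GO k F} :
    σ ∈ GenS p r ↔ ∀ v, pB v p = 0 → pB v r = 0 → mat σ *ᵥ v = v := by
  simp only [GenS, Set.mem_setOf_eq, polar_eq]

lemma sgG_gen {p r : Fin k ⊕ Fin k → F} (h : IsL p r) (c : F) : sgG h c ∈ GenS p r := by
  rw [mem_GenS]
  intro v h1 h2
  rw [sgG_mat, sgM_act]
  unfold sgX
  rw [h1, h2]
  simp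

/-- dual vectors -/
lemma exists_dual_pair {p r : Fin k ⊕ Fin k → F} (hi : ∀ s t : F, s • p + t • r = 0 → s = 0 ∧ t = 0) (α β : F) :
    ∃ a, pB a p = α ∧ pB a r = β := by
  have hp0 : sw p ≠ 0 := by
    intro e
    have : p = 0 := by
      apply sw_inj_test
      intro w
      rw [pB_comm, pB, e]
      simp
    have h1 := hi 1 0 (by rw [this]; simp)
    exact one_ne_zero h1.1
  have hn : ¬ ∃ c : F, sw r = c • sw p := by
    rintro ⟨c, hc⟩
    have : r = c • p := by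
      apply eq_of_pB
      intro w
      rw [pB_comm, pB, hc, pB_smul_left, pB_comm p, pB]
      simp [dotProduct_smul]
    have h1 := hi c (-1) (by rw [this]; simp)
    simpa using h1.2
  obtain ⟨a, h1, h2⟩ := exists_dual₂ hp0 hn α β
  exact ⟨a, h1, h2⟩

lemma gen_form {p r : Fin k ⊕ Fin k → F} (hi : ∀ s t : F, s • p + t • r = 0 → s = 0 ∧ t = 0) (h : IsL p r) {σ : GO k F}
    (hσ : σ ∈ GenS p r) : ∃ c, σ = sgG h c := by
  rw [mem_GenS] at hσ
  obtain ⟨a, ha1, ha2⟩ := exists_dual_pair hi 1 0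
  obtain ⟨b, hb1, hb2⟩ := exists_dual_pair hi 0 1
  -- the vectors
  have hperp : ∀ w, pB (w - pB w p • a - pB w r • b) p = 0 ∧ pB (w - pB w p • a - pB w r • b) r = 0 := by
    intro w
    constructor
    · rw [pB_sub_left, pB_sub_left, pB_smul_left, pB_smul_left, ha1, hb1]; ring
    · rw [pB_sub_left, pB_sub_left, pB_smul_left, pB_smul_left, ha2, hb2]; ring
  have hlin : ∀ v, mat σ *ᵥ v = v + pB v p • (mat σ *ᵥ a - a) + pB v r • (mat σ *ᵥ b - b) := by
    intro v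
    have h1 := hσ _ (hperp v).1 (hperp v).2
    have e : v = (v - pB v p • a - pB v r • b) + pB v p • a + pB v r • b := by abel
    calc mat σ *ᵥ v = mat σ *ᵥ ((v - pB v p • a - pB v r • b) + pB v p • a + pB v r • b) := by rw [← e]
      _ = (v - pB v p • a - pB v r • b) + pB v p • (mat σ *ᵥ a) + pB v r • (mat σ *ᵥ b) := by
          rw [mulVec_add, mulVec_add, mulVec_smul, mulVec_smul, h1]
      _ = _ := by module
  -- the images lie in the line
  have hline : ∀ x, (∀ w, pB w p = 0 → pB w r = 0 → pB x w = 0) → x = pB x a • p + pB x b • r := by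
    intro x hx
    apply eq_of_pB
    intro w
    have h1 := hx _ (hperp w).1 (hperp w).2
    rw [pB_sub_right, pB_sub_right, pB_smul_right, pB_smul_right] at h1
    rw [pB_add_left, pB_smul_left, pB_smul_left, pB_comm p, pB_comm r]
    linear_combination h1
  have hx1 : ∀ y, pB (mat σ *ᵥ y - y) = pB (mat σ *ᵥ y - y) := fun _ => rfl
  have hfix : ∀ y, ∀ w, pB w p = 0 → pB w r = 0 → pB (mat σ *ᵥ y - y) w = 0 := by
    intro y w h1 h2
    rw [pB_sub_left]
    have h3 := pB_pres σ y w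
    rw [hσ w h1 h2] at h3
    rw [h3, sub_self]
  have ex := hline _ (hfix a)
  have ey := hline _ (hfix b)
  obtain ⟨x₁, hx₁⟩ : ∃ x₁, x₁ = pB (mat σ *ᵥ a - a) a := ⟨_, rfl⟩
  obtain ⟨x₂, hx₂⟩ : ∃ x₂, x₂ = pB (mat σ *ᵥ a - a) b := ⟨_, rfl⟩
  obtain ⟨y₁, hy₁⟩ : ∃ y₁, y₁ = pB (mat σ *ᵥ b - b) a := ⟨_, rfl⟩
  obtain ⟨y₂, hy₂⟩ : ∃ y₂, y₂ = pB (mat σ *ᵥ b - b) b := ⟨_, rfl⟩
  rw [← hx₁, ← hx₂] at ex
  rw [← hy₁, ← hy₂] at ey
  have hQl : ∀ s t : F, Q (s • p + t • r) = 0 := by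
    intro s t
    rw [Q_add, Q_smul, Q_smul, h.hp, h.hr, pB_smul_left, pB_smul_right, h.hpr]
    ring
  -- isometry gives relations
  have rel : ∀ v, Q (v + pB v p • (x₁ • p + x₂ • r) + pB v r • (y₁ • p + y₂ • r)) = Q v := by
    intro v
    rw [← ex, ← ey, ← hlin]
    exact Q_pres σ v
  have rel' : ∀ v, x₁ * pB v p ^ 2 + (x₂ + y₁) * (pB v p * pB v r) + y₂ * pB v r ^ 2 = 0 := by
    intro v
    have h1 := rel v
    have e1 : pB v p • (x₁ • p + x₂ • r) + pB v r • (y₁ • p + y₂ • r) =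
        (pB v p * x₁ + pB v r * y₁) • p + (pB v p * x₂ + pB v r * y₂) • r := by module
    rw [add_assoc, e1, Q_add, hQl, pB_add_right, pB_smul_right, pB_smul_right] at h1
    linear_combination h1
  have h1 := rel' a
  have h2 := rel' b
  have h3 := rel' (a + b)
  rw [ha1, ha2] at h1
  rw [hb1, hb2] at h2
  rw [pB_add_left, pB_add_left, ha1, ha2, hb1, hb2] at h3
  have hx10 : x₁ = 0 := by linear_combination h1
  have hy20 : y₂ = 0 := by linear_combination h2
  have hxy : x₂ + y₁ = 0 := by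
    rw [hx10, hy20] at h3
    linear_combination h3
  refine ⟨y₁, mat_inj ?_⟩
  rw [sgG_mat]
  apply mulVec_injective
  funext v
  rw [hlin, sgM_act, ex, ey, hx10, hy20]
  have hx2' : x₂ = -y₁ := by linear_combination hxy
  rw [hx2']
  unfold sgX
  module

lemma mem_TS {p r : Fin k ⊕ Fin k → F} (hi : ∀ s t : F, s • p + t • r = 0 → s = 0 ∧ t = 0) (h : IsL p r) {σ : GO k F} :
    σ ∈ TS p r ↔ ∃ c, σ = sgG h c := by
  constructor
  · intro hσ
    induction hσ using Subgroup.closure_induction with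
    | mem x hx => exact gen_form hi h hx
    | one => exact ⟨0, (sgG_zero h).symm⟩
    | mul x y _ _ hx hy =>
      obtain ⟨c, rfl⟩ := hx
      obtain ⟨d, rfl⟩ := hy
      exact ⟨c + d, sgG_add h c d⟩
    | inv x _ hx =>
      obtain ⟨c, rfl⟩ := hx
      exact ⟨-c, sgG_inv h c⟩
  · rintro ⟨c, rfl⟩
    exact Subgroup.subset_closure (sgG_gen h c)

lemma TS_comm {p r : Fin k ⊕ Fin k → F} (hi : ∀ s t : F, s • p + t • r = 0 → s = 0 ∧ t = 0) (h : IsL p r) : IsMulCommutative (TS p r) := by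
  apply isMulCommutative_of_comm
  intro x hx y hy
  obtain ⟨c, rfl⟩ := (mem_TS hi h).mp hx
  obtain ⟨d, rfl⟩ := (mem_TS hi h).mp hy
  rw [sgG_add, sgG_add, add_comm]

lemma TS_ne_bot {p r : Fin k ⊕ Fin k → F} (hi : ∀ s t : F, s • p + t • r = 0 → s = 0 ∧ t = 0) (h : IsL p r) : TS p r ≠ ⊥ := by
  intro e
  have h1 : sgG h 1 ∈ TS p r := (mem_TS hi h).mpr ⟨1, rfl⟩
  rw [e, Subgroup.mem_bot] at h1
  obtain ⟨a, ha1, ha2⟩ := exists_dual_pair hi 0 1
  have h2 : mat (sgG h 1) *ᵥ a = a := by rw [h1, mat_one, one_mulVec]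
  rw [sgG_mat, sgM_act] at h2
  unfold sgX at h2
  rw [ha1, ha2] at h2
  have h3 : (1 : F) • p + (0 : F) • r = 0 := by
    have : a + (1 : F) • ((1 : F) • p - (0 : F) • r) = a + 0 := by rw [h2, add_zero]
    have h4 := add_left_cancel this
    simpa using h4
  exact one_ne_zero (hi _ _ h3).1

/-- Conjugation of generators -/
lemma gen_conj {g t : GO k F} {p r : Fin k ⊕ Fin k → F} (ht : t ∈ GenS p r) :
    g * t * g⁻¹ ∈ GenS (mat g *ᵥ p) (mat g *ᵥ r) := by
  rw [mem_GenS] at ht ⊢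
  intro v h1 h2
  have h3 : pB (mat g⁻¹ *ᵥ v) p = 0 := by
    rw [← pB_pres g, act_act_inv]
    exact h1
  have h4 : pB (mat g⁻¹ *ᵥ v) r = 0 := by
    rw [← pB_pres g, act_act_inv]
    exact h2
  rw [act_mul, act_mul, ht _ h3 h4, act_act_inv]

lemma conj_TS (g : GO k F) (p r : Fin k ⊕ Fin k → F) :
    conjBy (TS p r) g = TS (mat g *ᵥ p) (mat g *ᵥ r) := by
  show (Subgroup.closure (GenS p r)).map (MulAut.conj g).toMonoidHom = Subgroup.closure (GenS (mat g *ᵥ p) (mat g *ᵥ r))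
  rw [MonoidHom.map_closure]
  congr 1
  ext t
  constructor
  · rintro ⟨t₀, ht₀, rfl⟩
    exact gen_conj ht₀
  · intro ht
    refine ⟨g⁻¹ * t * g, ?_, by simp [MulAut.conj_apply, mul_assoc]⟩
    have h1 := gen_conj (g := g⁻¹) ht
    rw [act_inv_act, act_inv_act, inv_inv] at h1
    exact h1

/-- The group depends only on the line. -/
lemma GenS_congr {p r p' r' : Fin k ⊕ Fin k → F}
    (h : ∀ v : Fin k ⊕ Fin k → F, (pB v p = 0 ∧ pB v r = 0) ↔ (pB v p' = 0 ∧ pB v r' = 0)) : GenS p r = GenS p' r' := by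
  ext σ
  rw [mem_GenS, mem_GenS]
  constructor
  · intro hσ v h1 h2
    obtain ⟨h3, h4⟩ := (h v).mpr ⟨h1, h2⟩
    exact hσ v h3 h4
  · intro hσ v h1 h2
    obtain ⟨h3, h4⟩ := (h v).mp ⟨h1, h2⟩
    exact hσ v h3 h4

lemma TS_base_change (p r : Fin k ⊕ Fin k → F) {a b c d : F} (hdet : a * d - b * c ≠ 0) :
    TS (a • p + b • r) (c • p + d • r) = TS p r := by
  unfold TS
  rw [GenS_congr]
  intro v
  simp only [pB_add_right, pB_smul_right]
  constructor
  · rintro ⟨h1, h2⟩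
    constructor
    · have : (a * d - b * c) * pB v p = 0 := by linear_combination d * h1 - b * h2
      rcases mul_eq_zero.mp this with h | h
      · exact absurd h hdet
      · exact h
    · have : (a * d - b * c) * pB v r = 0 := by linear_combination a * h2 - c * h1
      rcases mul_eq_zero.mp this with h | h
      · exact absurd h hdet
      · exact h
  · rintro ⟨h1, h2⟩
    rw [h1, h2]
    simp

lemma TS_symm (p r : Fin k ⊕ Fin k → F) : TS r p = TS p r := by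
  unfold TS
  rw [GenS_congr]
  intro v
  exact and_comm

end Cfsg.Agent.RootSub.Tv.Orth
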