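import Cfsg.Agent.RootSub.Tv

set_option autoImplicit false
set_option linter.unusedSectionVars false
set_option linter.unusedSimpArgs false
set_option linter.unusedVariables false

namespace Cfsg.Agent.RootSub.Tv

open Cfsg Matrix

variable {ι : Type*} [Fintype ι] [DecidableEq ι] {k : Type*} [Field k]

lemma transvection_eq_tvM (i j : ι) (c : k) :
    (transvection i j c : Matrix ι ι k) = tvM (Pi.single i 1) (Pi.single j 1) c := by
  unfold transvection tvM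
  rw [← single_eq_single_vecMulVec_single, Matrix.smul_single]
  simp

/-- The base transvection group. -/
def baseT (i j : ι) : Subgroup (SpecialLinearGroup ι k) :=
  Subgroup.closure {t | ∃ c : k, (t : Matrix ι ι k) = transvection i j c}

lemma baseT_eq (i j : ι) : baseT (k := k) i j = Tg (Pi.single i 1) (Pi.single j 1) := by
  unfold baseT Tg
  simp only [transvection_eq_tvM]

/-- flags -/
structure IsFlag (v f : ι → k) : Prop where
  hv : v ≠ 0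
  hf : f ≠ 0
  dot : f ⬝ᵥ v = 0

lemma isFlag_single {i j : ι} (hij : i ≠ j) : IsFlag (Pi.single i (1 : k)) (Pi.single j 1) := by
  refine ⟨?_, ?_, ?_⟩
  · intro e
    have := congrFun e i
    simp at this
  · intro e
    have := congrFun e j
    simp at this
  · simp [hij]

lemma IsFlag.conj {v f : ι → k} (h : IsFlag v f) (g : SpecialLinearGroup ι k) :
    IsFlag ((g : Matrix ι ι k) *ᵥ v) (f ᵥ* ((g⁻¹ : SpecialLinearGroup ι k) : Matrix ι ι k)) := by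
  refine ⟨?_, ?_, flag_conj g h.dot⟩
  · intro e
    apply h.hv
    have : ((g⁻¹ : SpecialLinearGroup ι k) : Matrix ι ι k) *ᵥ ((g : Matrix ι ι k) *ᵥ v) = 0 := by rw [e]; simp
    rwa [Matrix.mulVec_mulVec, coe_inv_mul, Matrix.one_mulVec] at this
  · intro e
    apply h.hf
    have : (f ᵥ* ((g⁻¹ : SpecialLinearGroup ι k) : Matrix ι ι k)) ᵥ* (g : Matrix ι ι k) = 0 := by rw [e]; simp
    rwa [Matrix.vecMul_vecMul, coe_inv_mul, Matrix.vecMul_one] at this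

/-- The conjugates of the base group. -/
def clsS (i j : ι) : Set (Subgroup (SpecialLinearGroup ι k)) :=
  {A | ∃ g : SpecialLinearGroup ι k, A = conjBy (baseT i j) g}

variable {i j : ι}

lemma mem_clsS (hN : 2 < Fintype.card ι) (hij : i ≠ j) {A : Subgroup (SpecialLinearGroup ι k)} :
    A ∈ clsS (k := k) i j ↔ ∃ v f : ι → k, IsFlag v f ∧ A = Tg v f := by
  constructor
  · rintro ⟨g, rfl⟩
    rw [baseT_eq, conj_Tg g (isFlag_single hij).dot]
    exact ⟨_, _, (isFlag_single hij).conj g, rfl⟩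
  · rintro ⟨v, f, hfl, rfl⟩
    obtain ⟨g, rfl, rfl⟩ := flag_trans hN (isFlag_single (k := k) hij).hv (isFlag_single hij).hf (isFlag_single hij).dot hfl.hv hfl.hf hfl.dot
    refine ⟨g, ?_⟩
    rw [baseT_eq, conj_Tg g (isFlag_single hij).dot]

lemma flag_pair (hN : 2 < Fintype.card ι) (hij : i ≠ j) {v f w g : ι → k} (h1 : IsFlag v f) (h2 : IsFlag w g) :
    ⁅Tg v f, Tg w g⁆ = ⊥ ∨ IsRankOnePair (Tg v f) (Tg w g) ∨ RootCommutatorCase (clsS (k := k) i j) (Tg v f) (Tg w g) := by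
  by_cases hfw : f ⬝ᵥ w = 0
  · by_cases hgv : g ⬝ᵥ v = 0
    · exact Or.inl (Tg_commutator_bot h1.dot h2.dot hfw hgv)
    · refine Or.inr (Or.inr (Tg_case h1.dot h2.dot h1.hv h1.hf h2.hv h2.hf hfw hgv ?_))
      exact (mem_clsS hN hij).mpr ⟨w, f, ⟨h2.hv, h1.hf, hfw⟩, rfl⟩
  · by_cases hgv : g ⬝ᵥ v = 0
    · refine Or.inr (Or.inr (case_symm (Tg_case h2.dot h1.dot h2.hv h2.hf h1.hv h1.hf hgv hfw ?_)))
      exact (mem_clsS hN hij).mpr ⟨v, g, ⟨h1.hv, h2.hf, hgv⟩, rfl⟩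
    · exact Or.inr (Or.inl (Tg_rankOne h1.dot h2.dot hfw hgv).1)

lemma clsS_rootSet (hN : 2 < Fintype.card ι) (hij : i ≠ j) : IsRootSubgroupSet (clsS (k := k) i j) where
  commutative := by
    intro A hA
    obtain ⟨v, f, hfl, rfl⟩ := (mem_clsS hN hij).mp hA
    exact Tg_comm hfl.dot
  ne_bot := by
    intro A hA
    obtain ⟨v, f, hfl, rfl⟩ := (mem_clsS hN hij).mp hA
    exact Tg_ne_bot hfl.dot hfl.hv hfl.hf
  generates := by
    apply Lib.SLGen.eq_top_of_forall_transvection_mem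
    intro a b hab c
    have h1 : (Tg (Pi.single a (1 : k)) (Pi.single b 1)) ≤ ⨆ A ∈ clsS (k := k) i j, A :=
      le_iSup₂_of_le _ ((mem_clsS hN hij).mpr ⟨_, _, isFlag_single hab, rfl⟩) le_rfl
    apply h1
    rw [mem_Tg (isFlag_single hab).dot]
    exact ⟨c, Subtype.ext (transvection_eq_tvM a b c)⟩
  conj_mem := by
    rintro A ⟨g, rfl⟩ g'
    refine ⟨g' * g, ?_⟩
    rw [conj_conj]
  pair := by
    intro A hA B hB
    obtain ⟨v, f, hfl, rfl⟩ := (mem_clsS hN hij).mp hA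
    obtain ⟨w, g, hfl', rfl⟩ := (mem_clsS hN hij).mp hB
    exact flag_pair hN hij hfl hfl'

lemma clsS_class (hN : 2 < Fintype.card ι) (hij : i ≠ j) : IsRootSubgroupClass (clsS (k := k) i j) := by
  refine ⟨clsS_rootSet hN hij, ⟨_, 1, rfl⟩, ?_⟩
  rintro A ⟨g, rfl⟩ B ⟨g', rfl⟩
  refine ⟨g' * g⁻¹, ?_⟩
  rw [conj_conj]
  congr 1
  group

lemma clsS_nondeg (hN : 2 < Fintype.card ι) (hij : i ≠ j) {l : ι} (hil : i ≠ l) (hjl : j ≠ l) :
    IsNondegenerateRootSet (clsS (k := k) i j) := by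
  refine ⟨⟨Tg (Pi.single i 1) (Pi.single j 1), (mem_clsS hN hij).mpr ⟨_, _, isFlag_single hij, rfl⟩,
      Tg (Pi.single i 1) (Pi.single l 1), (mem_clsS hN hij).mpr ⟨_, _, isFlag_single hil, rfl⟩, ?_, ?_⟩,
    ⟨Tg (Pi.single i 1) (Pi.single j 1), (mem_clsS hN hij).mpr ⟨_, _, isFlag_single hij, rfl⟩,
      Tg (Pi.single j 1) (Pi.single i 1), (mem_clsS hN hij).mpr ⟨_, _, isFlag_single hij.symm, rfl⟩, ?_⟩,
    ⟨Tg (Pi.single i 1) (Pi.single j 1), (mem_clsS hN hij).mpr ⟨_, _, isFlag_single hij, rfl⟩,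
      Tg (Pi.single j 1) (Pi.single l 1), (mem_clsS hN hij).mpr ⟨_, _, isFlag_single hjl, rfl⟩, ?_⟩⟩
  · intro e
    have h1 : tvG (Pi.single i (1 : k)) (Pi.single j 1) (isFlag_single hij).dot 1 ∈ Tg (Pi.single i (1 : k)) (Pi.single l 1) := by
      rw [← e]
      exact tvG_mem _ _
    obtain ⟨c, hc⟩ := (mem_Tg (isFlag_single hil).dot).mp h1
    have h2 := congrFun (congrFun (congrArg Subtype.val hc) i) j
    simp [tvM, hij, hil, hjl, vecMulVec_apply, Matrix.one_apply] at h2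
  · exact Tg_commutator_bot (isFlag_single hij).dot (isFlag_single hil).dot (by simp [hij, hjl]) (by simp [hil])
  · exact (Tg_rankOne (isFlag_single hij).dot (isFlag_single hij.symm).dot (by simp) (by simp)).1
  · refine case_symm (Tg_case (isFlag_single hjl).dot (isFlag_single hij).dot (isFlag_single hjl).hv (isFlag_single hjl).hf
      (isFlag_single hij).hv (isFlag_single hij).hf (by simp [hil.symm, hil]) (by simp) ?_)
    exact (mem_clsS hN hij).mpr ⟨_, _, isFlag_single hil, rfl⟩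

lemma clsS_kroot (hN : 2 < Fintype.card ι) (hij : i ≠ j) : IsKRootSubgroupSet k (clsS (k := k) i j) := by
  refine ⟨clsS_rootSet hN hij, ?_⟩
  intro A hA B hB hAB
  obtain ⟨v, f, hfl, rfl⟩ := (mem_clsS hN hij).mp hA
  obtain ⟨w, g, hfl', rfl⟩ := (mem_clsS hN hij).mp hB
  by_cases hfw : f ⬝ᵥ w = 0
  · by_cases hgv : g ⬝ᵥ v = 0
    · exact (not_comm_of_rankOne hAB (fun a ha b hb => comm_of_commutator_bot (Tg_commutator_bot hfl.dot hfl'.dot hfw hgv) ha hb)).elim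
    · exact (not_rankOne_of_commutator_case (Tg_case hfl.dot hfl'.dot hfl.hv hfl.hf hfl'.hv hfl'.hf hfw hgv
        ((mem_clsS hN hij).mpr ⟨w, f, ⟨hfl'.hv, hfl.hf, hfw⟩, rfl⟩)) hAB).elim
  · by_cases hgv : g ⬝ᵥ v = 0
    · exact (not_rankOne_of_commutator_case (Tg_case hfl'.dot hfl.dot hfl'.hv hfl'.hf hfl.hv hfl.hf hgv hfw
        ((mem_clsS hN hij).mpr ⟨v, g, ⟨hfl.hv, hfl'.hf, hgv⟩, rfl⟩)) (RankOnePair_symm hAB)).elim
    · exact (Tg_rankOne hfl.dot hfl'.dot hfw hgv).2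

lemma exists_nonvanishing {f g : ι → k} (hf : f ≠ 0) (hg : g ≠ 0) : ∃ x : ι → k, f ⬝ᵥ x ≠ 0 ∧ g ⬝ᵥ x ≠ 0 := by
  by_cases hn : ∃ c : k, g = c • f
  · obtain ⟨c, rfl⟩ := hn
    have hc : c ≠ 0 := by
      rintro rfl
      simp at hg
    obtain ⟨a, ha⟩ := Function.ne_iff.mp hf
    have ha' : f a ≠ 0 := ha
    refine ⟨Pi.single a 1, ?_, ?_⟩
    · simpa using ha'
    · simp [hc, ha']
  · obtain ⟨h, h1, h2⟩ := exists_dual hf hn
    refine ⟨h, ?_, ?_⟩
    · rw [dotProduct_comm, h1]; exact one_ne_zero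
    · rw [dotProduct_comm, h2]; exact one_ne_zero

lemma not_prop_of_dot {x v f : ι → k} (hv : v ≠ 0) (hf : f ⬝ᵥ v = 0) (hx : f ⬝ᵥ x ≠ 0) : ¬ ∃ c : k, v = c • x := by
  rintro ⟨c, rfl⟩
  rw [dotProduct_smul, smul_eq_mul] at hf
  rcases mul_eq_zero.mp hf with h | h
  · rw [h, zero_smul] at hv
    exact hv rfl
  · exact hx h

lemma clsS_connected (hN : 2 < Fintype.card ι) (hij : i ≠ j) :
    IsConnectedFamily (FAdj (clsS (k := k) i j)) (clsS (k := k) i j) := by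
  intro A hA B hB
  obtain ⟨v, f, hfl, rfl⟩ := (mem_clsS hN hij).mp hA
  obtain ⟨w, g, hfl', rfl⟩ := (mem_clsS hN hij).mp hB
  obtain ⟨x, hx1, hx2⟩ := exists_nonvanishing hfl.hf hfl'.hf
  have hx0 : x ≠ 0 := by
    rintro rfl
    simp at hx1
  obtain ⟨h₁, h₁x, h₁v⟩ := exists_dual₂ hx0 (not_prop_of_dot hfl.hv hfl.dot hx1) 0 1
  obtain ⟨h₂, h₂x, h₂w⟩ := exists_dual₂ hx0 (not_prop_of_dot hfl'.hv hfl'.dot hx2) 0 1
  obtain ⟨h, hx, hv, hw⟩ : ∃ h : ι → k, h ⬝ᵥ x = 0 ∧ h ⬝ᵥ v ≠ 0 ∧ h ⬝ᵥ w ≠ 0 := by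
    by_cases c1 : h₁ ⬝ᵥ w = 0
    · by_cases c2 : h₂ ⬝ᵥ v = 0
      · refine ⟨h₁ + h₂, ?_, ?_, ?_⟩
        · rw [add_dotProduct, h₁x, h₂x, add_zero]
        · rw [add_dotProduct, h₁v, c2, add_zero]; exact one_ne_zero
        · rw [add_dotProduct, c1, h₂w, zero_add]; exact one_ne_zero
      · exact ⟨h₂, h₂x, c2, by rw [h₂w]; exact one_ne_zero⟩
    · exact ⟨h₁, h₁x, by rw [h₁v]; exact one_ne_zero, c1⟩
  have hh0 : h ≠ 0 := by
    rintro rfl
    simp at hv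
  have hC : IsFlag x h := ⟨hx0, hh0, hx⟩
  have hCm : Tg x h ∈ clsS (k := k) i j := (mem_clsS hN hij).mpr ⟨x, h, hC, rfl⟩
  refine (Relation.ReflTransGen.single ⟨hA, hCm, (Tg_rankOne hfl.dot hC.dot hx1 hv).1⟩).trans
    (Relation.ReflTransGen.single ⟨hCm, hB, (Tg_rankOne hC.dot hfl'.dot hw hx2).1⟩)

end Cfsg.Agent.RootSub.Tv
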