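import Cfsg.Agent.RootSub.TvOrth
import Cfsg.Agent.RootSub.TvSL

set_option autoImplicit false
set_option linter.unusedSectionVars false
set_option linter.unusedSimpArgs false
set_option linter.unusedVariables false

namespace Cfsg.Agent.RootSub.Tv.Orth

open Cfsg Matrix

section emb2

variable {ι : Type*} [Fintype ι] [DecidableEq ι] {m : Type*} [Fintype m] [DecidableEq m] {K : Type*} [Field K]

/-- two-block embedding -/
def emb2 (P₁ P₂ : Matrix ι m K) (Q₁ Q₂ : Matrix m ι K) (x : Matrix m m K) : Matrix ι ι K :=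
  1 + P₁ * (x - 1) * Q₁ + P₂ * (x - 1) * Q₂

lemma emb2_one (P₁ P₂ : Matrix ι m K) (Q₁ Q₂ : Matrix m ι K) : emb2 P₁ P₂ Q₁ Q₂ 1 = 1 := by simp [emb2]

lemma emb2_mul {P₁ P₂ : Matrix ι m K} {Q₁ Q₂ : Matrix m ι K} (h11 : Q₁ * P₁ = 1) (h12 : Q₁ * P₂ = 0) (h21 : Q₂ * P₁ = 0)
    (h22 : Q₂ * P₂ = 1) (x y : Matrix m m K) :
    emb2 P₁ P₂ Q₁ Q₂ x * emb2 P₁ P₂ Q₁ Q₂ y = emb2 P₁ P₂ Q₁ Q₂ (x * y) := by
  unfold emb2
  have k11 : (P₁ * (x - 1) * Q₁) * (P₁ * (y - 1) * Q₁) = P₁ * ((x - 1) * (y - 1)) * Q₁ := by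
    calc (P₁ * (x - 1) * Q₁) * (P₁ * (y - 1) * Q₁) = P₁ * (x - 1) * (Q₁ * P₁) * (y - 1) * Q₁ := by
          simp only [Matrix.mul_assoc]
      _ = _ := by rw [h11]; simp only [Matrix.mul_one, Matrix.mul_assoc]
  have k22 : (P₂ * (x - 1) * Q₂) * (P₂ * (y - 1) * Q₂) = P₂ * ((x - 1) * (y - 1)) * Q₂ := by
    calc (P₂ * (x - 1) * Q₂) * (P₂ * (y - 1) * Q₂) = P₂ * (x - 1) * (Q₂ * P₂) * (y - 1) * Q₂ := by
          simp only [Matrix.mul_assoc]
      _ = _ := by rw [h22]; simp only [Matrix.mul_one, Matrix.mul_assoc]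
  have k12 : (P₁ * (x - 1) * Q₁) * (P₂ * (y - 1) * Q₂) = 0 := by
    calc (P₁ * (x - 1) * Q₁) * (P₂ * (y - 1) * Q₂) = P₁ * (x - 1) * (Q₁ * P₂) * (y - 1) * Q₂ := by
          simp only [Matrix.mul_assoc]
      _ = _ := by rw [h12]; simp
  have k21 : (P₂ * (x - 1) * Q₂) * (P₁ * (y - 1) * Q₁) = 0 := by
    calc (P₂ * (x - 1) * Q₂) * (P₁ * (y - 1) * Q₁) = P₂ * (x - 1) * (Q₂ * P₁) * (y - 1) * Q₁ := by
          simp only [Matrix.mul_assoc]
      _ = _ := by rw [h21]; simp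
  have hZ : ∀ P : Matrix ι m K, ∀ Q : Matrix m ι K,
      P * (x * y - 1) * Q = P * (x - 1) * Q + P * (y - 1) * Q + P * ((x - 1) * (y - 1)) * Q := by
    intro P Q
    rw [← Matrix.add_mul, ← Matrix.add_mul, ← Matrix.mul_add, ← Matrix.mul_add]
    congr 2
    noncomm_ring
  rw [hZ P₁ Q₁, hZ P₂ Q₂, ← k11, ← k22]
  generalize P₁ * (x - 1) * Q₁ = A₁ at *
  generalize P₂ * (x - 1) * Q₂ = A₂ at *
  generalize P₁ * (y - 1) * Q₁ = B₁ at *
  generalize P₂ * (y - 1) * Q₂ = B₂ at *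
  have : (1 + A₁ + A₂) * (1 + B₁ + B₂) = 1 + A₁ + A₂ + B₁ + B₂ + A₁ * B₁ + A₁ * B₂ + A₂ * B₁ + A₂ * B₂ := by
    noncomm_ring
  rw [this, k12, k21]
  abel

lemma emb2_recover {P₁ P₂ : Matrix ι m K} {Q₁ Q₂ : Matrix m ι K} (h11 : Q₁ * P₁ = 1) (h12 : Q₁ * P₂ = 0)
    (x : Matrix m m K) : Q₁ * emb2 P₁ P₂ Q₁ Q₂ x * P₁ = x := by
  unfold emb2
  rw [Matrix.mul_add, Matrix.mul_add, Matrix.add_mul, Matrix.add_mul, Matrix.mul_one, h11]
  have e1 : Q₁ * (P₁ * (x - 1) * Q₁) * P₁ = (Q₁ * P₁) * (x - 1) * (Q₁ * P₁) := by simp only [Matrix.mul_assoc]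
  have e2 : Q₁ * (P₂ * (x - 1) * Q₂) * P₁ = (Q₁ * P₂) * (x - 1) * (Q₂ * P₁) := by simp only [Matrix.mul_assoc]
  rw [e1, e2, h11, h12]
  simp

/-- The homomorphism. -/
def emb2Hom {P₁ P₂ : Matrix ι m K} {Q₁ Q₂ : Matrix m ι K} (h11 : Q₁ * P₁ = 1) (h12 : Q₁ * P₂ = 0) (h21 : Q₂ * P₁ = 0)
    (h22 : Q₂ * P₂ = 1) : SpecialLinearGroup m K →* Matrix ι ι K where
  toFun x := emb2 P₁ P₂ Q₁ Q₂ x
  map_one' := emb2_one P₁ P₂ Q₁ Q₂
  map_mul' x y := (emb2_mul h11 h12 h21 h22 x.1 y.1).symm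

end emb2

section matr

variable {ι : Type*} [Fintype ι] [DecidableEq ι] {K : Type*} [Field K]

lemma Pm_up (v w g f : ι → K) (t : K) :
    Pm v w * ((upM t : Matrix (Fin 2) (Fin 2) K) - 1) * Qm g f = t • vecMulVec v f := by
  have := embM_upM v w g f t
  unfold embM tvM at this
  exact add_left_cancel this

lemma Pm_lo (v w g f : ι → K) (t : K) :
    Pm v w * ((loM t : Matrix (Fin 2) (Fin 2) K) - 1) * Qm g f = t • vecMulVec w g := by
  have := embM_loM v w g f t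
  unfold embM tvM at this
  exact add_left_cancel this

lemma Qm_mul_Pm_zero {v w g f : ι → K} (h1 : g ⬝ᵥ v = 0) (h2 : g ⬝ᵥ w = 0) (h3 : f ⬝ᵥ v = 0) (h4 : f ⬝ᵥ w = 0) :
    Qm g f * Pm v w = 0 := by
  ext i j
  rw [Matrix.mul_apply]
  fin_cases i <;> fin_cases j <;> simp [Qm, Pm] <;>
    first
    | exact h1
    | exact h2
    | exact h3
    | exact h4

end matr

variable {k : ℕ} {F : Type*} [Field F]

local notation "Q" => quadFormPlus k F

/-- abbreviation for independence -/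
abbrev Ind (p r : Fin k ⊕ Fin k → F) : Prop := ∀ s t : F, s • p + t • r = 0 → s = 0 ∧ t = 0

lemma phi_norm {p r p' r' : Fin k ⊕ Fin k → F} (hi : Ind p r) (hL : IsL p r) (hi' : Ind p' r') (hL' : IsL p' r')
    (h1 : pB p p' = 1) (h2 : pB r r' = 1) (h3 : pB p r' = 0) (h4 : pB r p' = 0) :
    PhiPair F (TS p r) (TS p' r') := by
  have h11 : Qm (sw p') (sw r) * Pm p r' = 1 := by
    apply Qm_mul_Pm
    · rw [sw_dot]; exact hL'.rp
    · rw [sw_dot]; exact hL.hpr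
    · rw [sw_dot]; exact h1
    · rw [sw_dot, pB_comm]; exact h2
  have h22 : Qm (sw r') (-sw p) * Pm r (-p') = 1 := by
    apply Qm_mul_Pm
    · rw [dotProduct_neg, sw_dot, hL'.hpr, neg_zero]
    · rw [neg_dotProduct, sw_dot, hL.rp, neg_zero]
    · rw [sw_dot]; exact h2
    · rw [neg_dotProduct, dotProduct_neg, sw_dot, neg_neg, pB_comm]; exact h1
  have h12 : Qm (sw p') (sw r) * Pm r (-p') = 0 := by
    apply Qm_mul_Pm_zero
    · rw [sw_dot]; exact h4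
    · rw [dotProduct_neg, sw_dot, hL'.pp, neg_zero]
    · rw [sw_dot]; exact hL.rr
    · rw [dotProduct_neg, sw_dot, pB_comm, h4, neg_zero]
  have h21 : Qm (sw r') (-sw p) * Pm p r' = 0 := by
    apply Qm_mul_Pm_zero
    · rw [sw_dot]; exact h3
    · rw [sw_dot]; exact hL'.rr
    · rw [neg_dotProduct, sw_dot, hL.pp, neg_zero]
    · rw [neg_dotProduct, sw_dot, pB_comm, h3, neg_zero]
  let ψ := emb2Hom h11 h12 h21 h22
  have ψu : ∀ t, ψ (upM t) = sgM p r t := by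
    intro t
    show emb2 _ _ _ _ (upM t : Matrix (Fin 2) (Fin 2) F) = _
    unfold emb2 sgM
    rw [Pm_up, Pm_up, vecMulVec_neg, smul_sub, smul_neg, add_assoc, sub_eq_add_neg]
  have ψl : ∀ t, ψ (loM t) = sgM p' r' (-t) := by
    intro t
    show emb2 _ _ _ _ (loM t : Matrix (Fin 2) (Fin 2) F) = _
    unfold emb2 sgM
    rw [Pm_lo, Pm_lo, neg_vecMulVec, smul_sub, smul_neg, add_assoc, neg_smul, neg_smul]
    congr 1
    abel
  let ρ : GO k F →* Matrix (Fin k ⊕ Fin k) (Fin k ⊕ Fin k) F :=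
    { toFun := mat, map_one' := rfl, map_mul' := fun _ _ => rfl }
  have hρ : Function.Injective ρ := fun a b e => mat_inj e
  obtain ⟨φ, hφ⟩ := lift_sl2 ρ hρ ψ (fun t => ⟨sgG hL t, (ψu t).symm⟩) (fun t => ⟨sgG hL' (-t), (ψl t).symm⟩)
  have hφinj : Function.Injective φ := by
    intro x y e
    have h2' : ψ x = ψ y := by rw [← hφ, ← hφ, e]
    have h3' : emb2 (Pm p r') (Pm r (-p')) (Qm (sw p') (sw r)) (Qm (sw r') (-sw p)) x =
      emb2 (Pm p r') (Pm r (-p')) (Qm (sw p') (sw r)) (Qm (sw r') (-sw p)) y := h2'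
    apply Subtype.ext
    rw [← emb2_recover h11 h12 x.1 (Q₂ := Qm (sw r') (-sw p)), ← emb2_recover h11 h12 y.1 (Q₂ := Qm (sw r') (-sw p)), h3']
  have hφu : ∀ t, φ (upM t) = sgG hL t := fun t => mat_inj ((hφ _).trans (ψu t))
  have hφl : ∀ t, φ (loM t) = sgG hL' (-t) := fun t => mat_inj ((hφ _).trans (ψl t))
  refine ⟨φ, hφinj, ?_, ?_⟩
  · ext g
    rw [Subgroup.mem_map, mem_TS hi hL]
    constructor
    · rintro ⟨x, hx, rfl⟩
      obtain ⟨t, rfl⟩ := mem_upper.mp hx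
      exact ⟨_, hφu t⟩
    · rintro ⟨c, rfl⟩
      exact ⟨upM c, mem_upper.mpr ⟨c, rfl⟩, hφu c⟩
  · ext g
    rw [Subgroup.mem_map, mem_TS hi' hL']
    constructor
    · rintro ⟨x, hx, rfl⟩
      obtain ⟨t, rfl⟩ := mem_lower.mp hx
      exact ⟨_, hφl t⟩
    · rintro ⟨c, rfl⟩
      refine ⟨loM (-c), mem_lower.mpr ⟨_, rfl⟩, ?_⟩
      rw [hφl, neg_neg]

lemma IsL.base {p r : Fin k ⊕ Fin k → F} (h : IsL p r) (a b c d : F) : IsL (a • p + b • r) (c • p + d • r) := by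
  refine ⟨?_, ?_, ?_⟩
  · rw [Q_add, Q_smul, Q_smul, h.hp, h.hr, pB_smul_left, pB_smul_right, h.hpr]; ring
  · rw [Q_add, Q_smul, Q_smul, h.hp, h.hr, pB_smul_left, pB_smul_right, h.hpr]; ring
  · simp only [pB_add_left, pB_add_right, pB_smul_left, pB_smul_right, h.pp, h.rr, h.hpr, h.rp]
    ring

lemma Ind.base {p r : Fin k ⊕ Fin k → F} (h : Ind p r) {a b c d : F} (hdet : a * d - b * c ≠ 0) :
    Ind (a • p + b • r) (c • p + d • r) := by
  intro s t e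
  have e1 : (s * a + t * c) • p + (s * b + t * d) • r = 0 := by
    rw [← e]
    module
  obtain ⟨h1, h2⟩ := h _ _ e1
  constructor
  · have : s * (a * d - b * c) = 0 := by linear_combination d * h1 - c * h2
    exact (mul_eq_zero.mp this).resolve_right hdet
  · have : t * (a * d - b * c) = 0 := by linear_combination a * h2 - b * h1
    exact (mul_eq_zero.mp this).resolve_right hdet

lemma Ind.symm {p r : Fin k ⊕ Fin k → F} (h : Ind p r) : Ind r p := by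
  intro s t e
  have := h t s (by rw [add_comm]; exact e)
  exact ⟨this.2, this.1⟩

lemma phi_det {p r p' r' : Fin k ⊕ Fin k → F} (hi : Ind p r) (hL : IsL p r) (hi' : Ind p' r') (hL' : IsL p' r')
    (hδ : pB p p' * pB r r' - pB p r' * pB r p' ≠ 0) : PhiPair F (TS p r) (TS p' r') := by
  obtain ⟨a, ha⟩ : ∃ a, a = pB p p' := ⟨_, rfl⟩
  obtain ⟨b, hb⟩ : ∃ b, b = pB p r' := ⟨_, rfl⟩
  obtain ⟨c, hc⟩ : ∃ c, c = pB r p' := ⟨_, rfl⟩
  obtain ⟨d, hd⟩ : ∃ d, d = pB r r' := ⟨_, rfl⟩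
  rw [← ha, ← hb, ← hc, ← hd] at hδ
  obtain ⟨δ, hδe⟩ : ∃ δ, δ = a * d - b * c := ⟨_, rfl⟩
  rw [← hδe] at hδ
  have hdet : (d / δ) * (a / δ) - (-c / δ) * (-b / δ) ≠ 0 := by
    have : (d / δ) * (a / δ) - (-c / δ) * (-b / δ) = 1 / δ := by
      field_simp
      rw [hδe]
      ring
    rw [this]
    exact one_div_ne_zero hδ
  rw [← TS_base_change p' r' hdet]
  apply phi_norm hi hL (hi'.base hdet) (hL'.base _ _ _ _)
  · simp only [pB_add_right, pB_smul_right, ← ha, ← hb]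
    field_simp
    rw [hδe]
    ring
  · simp only [pB_add_right, pB_smul_right, ← hc, ← hd]
    field_simp
    rw [hδe]
    ring
  · simp only [pB_add_right, pB_smul_right, ← ha, ← hb]
    field_simp
    ring
  · simp only [pB_add_right, pB_smul_right, ← hc, ← hd]
    field_simp
    ring

/-- commuting -/
lemma sg_comm {p r p' r' : Fin k ⊕ Fin k → F} (hi : Ind p r) (hL : IsL p r) (hi' : Ind p' r') (hL' : IsL p' r')
    (h : ∀ v, sgX p r (sgX p' r' v) = sgX p' r' (sgX p r v)) : CommPair (TS p r) (TS p' r') := by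
  intro a ha b hb
  obtain ⟨c, rfl⟩ := (mem_TS hi hL).mp ha
  obtain ⟨d, rfl⟩ := (mem_TS hi' hL').mp hb
  apply mat_inj
  show sgM p r c * sgM p' r' d = sgM p' r' d * sgM p r c
  apply mulVec_injective
  funext v
  rw [← mulVec_mulVec, ← mulVec_mulVec]
  simp only [sgM_act, sgX_add, sgX_smul, h]
  module

/-- abstract commutator case -/
lemma case_of_param {G : Type*} [Group G] {S : Set (Subgroup G)} {A B C : Subgroup G} (a b z : F → G)
    (ha : ∀ x, x ∈ A ↔ ∃ c, x = a c) (hb : ∀ x, x ∈ B ↔ ∃ c, x = b c) (hz : ∀ x, x ∈ C ↔ ∃ c, x = z c)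
    (ha0 : a 0 = 1) (hb0 : b 0 = 1)
    (comm : ∀ c d, a c * b d * (a c)⁻¹ * (b d)⁻¹ = z (c * d))
    (hza : ∀ e c, z e * a c = a c * z e) (hzb : ∀ e c, z e * b c = b c * z e) (hC : C ∈ S) :
    RootCommutatorCase S A B := by
  have hcm : ⁅A, B⁆ = C := by
    apply le_antisymm
    · rw [Subgroup.commutator_le]
      intro x hx y hy
      obtain ⟨c, rfl⟩ := (ha x).mp hx
      obtain ⟨d, rfl⟩ := (hb y).mp hy
      rw [commutatorElement_def, comm]
      exact (hz _).mpr ⟨_, rfl⟩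
    · intro t ht
      obtain ⟨e, rfl⟩ := (hz t).mp ht
      have h1 := comm 1 e
      rw [one_mul] at h1
      rw [← h1, ← commutatorElement_def]
      exact Subgroup.commutator_mem_commutator ((ha _).mpr ⟨_, rfl⟩) ((hb _).mpr ⟨_, rfl⟩)
  refine ⟨by rw [hcm]; exact hC, ?_, ?_, ?_⟩
  · rw [hcm]
    intro c hc x hx
    obtain ⟨e, rfl⟩ := (hz c).mp hc
    refine sup_induction (P := fun x => z e * x = x * z e) ?_ ?_ (by simp) ?_ ?_ hx
    · intro y hy
      obtain ⟨d, rfl⟩ := (ha y).mp hy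
      exact hza e d
    · intro y hy
      obtain ⟨d, rfl⟩ := (hb y).mp hy
      exact hzb e d
    · intro x y hx hy
      rw [← mul_assoc, hx, mul_assoc, hy, mul_assoc]
    · intro x hx
      calc z e * x⁻¹ = x⁻¹ * (x * z e) * x⁻¹ := by group
        _ = x⁻¹ * (z e * x) * x⁻¹ := by rw [hx]
        _ = _ := by group
  · intro x hx hx1
    rw [hcm]
    obtain ⟨c, rfl⟩ := (ha x).mp hx
    have hc0 : c ≠ 0 := by
      rintro rfl
      exact hx1 ha0
    apply le_antisymm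
    · rw [Subgroup.closure_le]
      rintro _ ⟨y, hy, rfl⟩
      obtain ⟨d, rfl⟩ := (hb y).mp hy
      simp only []
      rw [comm]
      exact (hz _).mpr ⟨_, rfl⟩
    · intro t ht
      obtain ⟨e, rfl⟩ := (hz t).mp ht
      apply Subgroup.subset_closure
      refine ⟨b (c⁻¹ * e), (hb _).mpr ⟨_, rfl⟩, ?_⟩
      simp only []
      rw [comm]
      congr 1
      field_simp
  · intro y hy hy1
    rw [hcm]
    obtain ⟨d, rfl⟩ := (hb y).mp hy
    have hd0 : d ≠ 0 := by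
      rintro rfl
      exact hy1 hb0
    apply le_antisymm
    · rw [Subgroup.closure_le]
      rintro _ ⟨x, hx, rfl⟩
      obtain ⟨c, rfl⟩ := (ha x).mp hx
      simp only []
      rw [comm]
      exact (hz _).mpr ⟨_, rfl⟩
    · intro t ht
      obtain ⟨e, rfl⟩ := (hz t).mp ht
      apply Subgroup.subset_closure
      refine ⟨a (e * d⁻¹), (ha _).mpr ⟨_, rfl⟩, ?_⟩
      simp only []
      rw [comm]
      congr 1
      field_simp

end Cfsg.Agent.RootSub.Tv.Orth
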