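import Cfsg.Agent.RootSub.TvOrth2

set_option autoImplicit false
set_option linter.unusedSectionVars false
set_option linter.unusedSimpArgs false
set_option linter.unusedVariables false

namespace Cfsg.Agent.RootSub.Tv.Orth

open Cfsg Matrix

variable {k : ℕ} {F : Type*} [Field F]

local notation "Q" => quadFormPlus k F

lemma Ind.ne_left {p r : Fin k ⊕ Fin k → F} (h : Ind p r) : p ≠ 0 := by
  rintro rfl
  have := h 1 0 (by simp)
  exact one_ne_zero this.1

lemma Ind.ne_right {p r : Fin k ⊕ Fin k → F} (h : Ind p r) : r ≠ 0 := h.symm.ne_left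

lemma sgM_comm {p r p' r' : Fin k ⊕ Fin k → F} (h : ∀ v, sgX p r (sgX p' r' v) = sgX p' r' (sgX p r v)) (c d : F) :
    sgM p r c * sgM p' r' d = sgM p' r' d * sgM p r c := by
  apply mulVec_injective
  funext v
  rw [← mulVec_mulVec, ← mulVec_mulVec]
  simp only [sgM_act, sgX_add, sgX_smul, h]
  module

lemma rank1_norm {p r p' r' : Fin k ⊕ Fin k → F} (hi : Ind p r) (hL : IsL p r) (hi' : Ind p' r') (hL' : IsL p' r')
    (h1 : pB p p' = 1) (h2 : pB p r' = 0) (h3 : pB r p' = 0) (h4 : pB r r' = 0) {S : Set (Subgroup (GO k F))}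
    (hS : ∀ a b : Fin k ⊕ Fin k → F, Ind a b → IsL a b → TS a b ∈ S) :
    CommPair (TS p r) (TS p' r') ∨ RootCommutatorCase S (TS p r) (TS p' r') := by
  have h1' : pB p' p = 1 := by rw [pB_comm]; exact h1
  have h2' : pB r' p = 0 := by rw [pB_comm]; exact h2
  have h3' : pB p' r = 0 := by rw [pB_comm]; exact h3
  have h4' : pB r' r = 0 := by rw [pB_comm]; exact h4
  have hXY : ∀ v, sgX p r (sgX p' r' v) = (-pB v r') • r := by
    intro v
    simp only [sgX, pB_sub_left, pB_smul_left, h1', h2', h3', h4']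
    module
  have hYX : ∀ v, sgX p' r' (sgX p r v) = (-pB v r) • r' := by
    intro v
    simp only [sgX, pB_sub_left, pB_smul_left, h1, h2, h3, h4]
    module
  by_cases hr : Ind r' r
  · right
    have hZ : IsL r' r := ⟨hL'.hr, hL.hr, h4'⟩
    have hXr : sgX p r r = 0 := by
      simp only [sgX, hL.rr, hL.rp]
      module
    have hXr' : sgX p r r' = 0 := by
      simp only [sgX, h2', h4']
      module
    have hYr : sgX p' r' r = 0 := by
      simp only [sgX, h3, h4]
      module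
    have hYr' : sgX p' r' r' = 0 := by
      simp only [sgX, hL'.rr, hL'.rp]
      module
    have hXZ : ∀ v, sgX p r (sgX r' r v) = sgX r' r (sgX p r v) := by
      intro v
      simp only [sgX, pB_sub_left, pB_smul_left, hL.rr, hL.rp, hL.pp, hL.hpr, h1, h2, h3, h4, h1', h2', h3', h4']
      module
    have hYZ : ∀ v, sgX p' r' (sgX r' r v) = sgX r' r (sgX p' r' v) := by
      intro v
      simp only [sgX, pB_sub_left, pB_smul_left, hL'.rr, hL'.rp, hL'.pp, hL'.hpr, h1, h2, h3, h4, h1', h2', h3', h4']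
      module
    refine case_of_param (F := F) (sgG hL) (sgG hL') (sgG hZ) (fun x => mem_TS hi hL) (fun x => mem_TS hi' hL')
      (fun x => mem_TS hr hZ) (sgG_zero hL) (sgG_zero hL') ?_ ?_ ?_ (hS _ _ hr hZ)
    · intro c d
      rw [sgG_inv, sgG_inv]
      apply mat_inj
      show sgM p r c * sgM p' r' d * sgM p r (-c) * sgM p' r' (-d) = sgM r' r (c * d)
      apply mulVec_injective
      funext v
      simp only [← mulVec_mulVec, sgM_act, sgX_add, sgX_smul, hXY, hYX, sgX_sq hL, sgX_sq hL', hXr, hXr', hYr, hYr']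
      simp only [sgX, pB_zero_left]
      module
    · intro e c
      exact mat_inj (sgM_comm (fun v => (hXZ v).symm) e c)
    · intro e c
      exact mat_inj (sgM_comm (fun v => (hYZ v).symm) e c)
  · left
    unfold Ind at hr
    push Not at hr
    obtain ⟨s, t, e, hst⟩ := hr
    have hs : s ≠ 0 := by
      intro h0
      have h5 := hst h0
      rw [h0, zero_smul, zero_add] at e
      rcases smul_eq_zero.mp e with e | e
      · exact h5 e
      · exact hi.ne_right e
    have hrr : r' = (-(t / s)) • r := by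
      have : s • r' = (-t) • r := by
        rw [neg_smul]
        exact eq_neg_of_add_eq_zero_left e
      calc r' = s⁻¹ • (s • r') := by rw [smul_smul, inv_mul_cancel₀ hs, one_smul]
        _ = _ := by rw [this, smul_smul]; congr 1; field_simp
    refine sg_comm hi hL hi' hL' fun v => ?_
    rw [hXY, hYX, hrr, pB_smul_right, smul_smul]
    congr 1
    ring

lemma rank1_gen {p r p' r' : Fin k ⊕ Fin k → F} (hi : Ind p r) (hL : IsL p r) (hi' : Ind p' r') (hL' : IsL p' r')
    (ha : pB p p' ≠ 0) (hδ : pB p p' * pB r r' - pB p r' * pB r p' = 0) {S : Set (Subgroup (GO k F))}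
    (hS : ∀ a b : Fin k ⊕ Fin k → F, Ind a b → IsL a b → TS a b ∈ S) :
    CommPair (TS p r) (TS p' r') ∨ RootCommutatorCase S (TS p r) (TS p' r') := by
  obtain ⟨a, hae⟩ : ∃ a, a = pB p p' := ⟨_, rfl⟩
  obtain ⟨b, hb⟩ : ∃ b, b = pB p r' := ⟨_, rfl⟩
  obtain ⟨c, hc⟩ : ∃ c, c = pB r p' := ⟨_, rfl⟩
  obtain ⟨d, hd⟩ : ∃ d, d = pB r r' := ⟨_, rfl⟩
  rw [← hae] at ha
  rw [← hae, ← hb, ← hc, ← hd] at hδ
  have hdet1 : (1 : F) * 1 - 0 * (-c / a) ≠ 0 := by simp
  have hdet2 : (1 / a) * 1 - 0 * (-b / a) ≠ 0 := by simpa using ha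
  rw [← TS_base_change p r hdet1, ← TS_base_change p' r' hdet2]
  apply rank1_norm (hi.base hdet1) (hL.base _ _ _ _) (hi'.base hdet2) (hL'.base _ _ _ _) _ _ _ _ hS
  · simp only [pB_add_left, pB_add_right, pB_smul_left, pB_smul_right, ← hae, ← hb, ← hc, ← hd]
    field_simp
    ring
  · simp only [pB_add_left, pB_add_right, pB_smul_left, pB_smul_right, ← hae, ← hb, ← hc, ← hd]
    field_simp
    ring
  · simp only [pB_add_left, pB_add_right, pB_smul_left, pB_smul_right, ← hae, ← hb, ← hc, ← hd]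
    field_simp
    ring
  · simp only [pB_add_left, pB_add_right, pB_smul_left, pB_smul_right, ← hae, ← hb, ← hc, ← hd]
    field_simp
    linear_combination hδ

lemma pair_cases {p r p' r' : Fin k ⊕ Fin k → F} (hi : Ind p r) (hL : IsL p r) (hi' : Ind p' r') (hL' : IsL p' r')
    {S : Set (Subgroup (GO k F))} (hS : ∀ a b : Fin k ⊕ Fin k → F, Ind a b → IsL a b → TS a b ∈ S) :
    CommPair (TS p r) (TS p' r') ∨ PhiPair F (TS p r) (TS p' r') ∨ RootCommutatorCase S (TS p r) (TS p' r') := by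
  by_cases hδ : pB p p' * pB r r' - pB p r' * pB r p' = 0
  · by_cases h1 : pB p p' = 0
    · by_cases h2 : pB p r' = 0
      · by_cases h3 : pB r p' = 0
        · by_cases h4 : pB r r' = 0
          · left
            refine sg_comm hi hL hi' hL' fun v => ?_
            have h1' : pB p' p = 0 := by rw [pB_comm]; exact h1
            have h2' : pB r' p = 0 := by rw [pB_comm]; exact h2
            have h3' : pB p' r = 0 := by rw [pB_comm]; exact h3
            have h4' : pB r' r = 0 := by rw [pB_comm]; exact h4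
            simp only [sgX, pB_sub_left, pB_smul_left, h1, h2, h3, h4, h1', h2', h3', h4']
            module
          · have := rank1_gen hi.symm hL.symm hi'.symm hL'.symm h4 (by linear_combination hδ) hS
            rw [TS_symm p r, TS_symm p' r'] at this
            rcases this with h | h
            · exact Or.inl h
            · exact Or.inr (Or.inr h)
        · have := rank1_gen hi.symm hL.symm hi' hL' h3 (by linear_combination -hδ) hS
          rw [TS_symm p r] at this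
          rcases this with h | h
          · exact Or.inl h
          · exact Or.inr (Or.inr h)
      · have := rank1_gen hi hL hi'.symm hL'.symm h2 (by linear_combination -hδ) hS
        rw [TS_symm p' r'] at this
        rcases this with h | h
        · exact Or.inl h
        · exact Or.inr (Or.inr h)
    · rcases rank1_gen hi hL hi' hL' h1 hδ hS with h | h
      · exact Or.inl h
      · exact Or.inr (Or.inr h)
  · exact Or.inr (Or.inl (phi_det hi hL hi' hL' hδ))

/-! ### Connectivity -/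

/-- the bilinear form -/
noncomputable def pBf : LinearMap.BilinForm F (Fin k ⊕ Fin k → F) :=
  LinearMap.mk₂ F pB pB_add_left (fun c u v => by rw [pB_smul_left]; rfl) pB_add_right (fun c u v => by rw [pB_smul_right]; rfl)

@[simp] lemma pBf_apply (x y : Fin k ⊕ Fin k → F) : pBf x y = pB x y := rfl

lemma pBf_nondeg : (pBf (k := k) (F := F)).Nondegenerate := by
  constructor
  · intro x hx
    exact sw_inj_test hx
  · intro y hy
    apply sw_inj_test
    intro w
    rw [pB_comm]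
    exact hy w

lemma pBf_refl : (pBf (k := k) (F := F)).IsRefl := by
  intro x y h
  have h1 : pB x y = 0 := h
  show pB y x = 0
  rw [pB_comm, h1]

lemma exists_aniso (hk : 3 ≤ k) {a b c : Fin k ⊕ Fin k → F} (hab : pB a b ≠ 0) :
    ∃ w, pB w a = 0 ∧ pB w b = 0 ∧ pB w c = 0 ∧ Q w ≠ 0 := by
  by_contra hcon
  push Not at hcon
  classical
  let S : Submodule F (Fin k ⊕ Fin k → F) := Submodule.span F ({a, b, c} : Finset (Fin k ⊕ Fin k → F))
  let W := (pBf (k := k) (F := F)).orthogonal S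
  have hmem : ∀ w ∈ W, ∀ s ∈ S, pB s w = 0 := by
    intro w hw s hs
    exact (LinearMap.BilinForm.mem_orthogonal_iff.mp hw) s hs
  have ha : a ∈ S := Submodule.subset_span (by simp)
  have hb : b ∈ S := Submodule.subset_span (by simp)
  have hc : c ∈ S := Submodule.subset_span (by simp)
  have hQW : ∀ w ∈ W, Q w = 0 := by
    intro w hw
    apply hcon
    · rw [pB_comm]; exact hmem w hw a ha
    · rw [pB_comm]; exact hmem w hw b hb
    · rw [pB_comm]; exact hmem w hw c hc
  have hWW : W ≤ (pBf (k := k) (F := F)).orthogonal W := by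
    intro w hw
    rw [LinearMap.BilinForm.mem_orthogonal_iff]
    intro w' hw'
    show pB w' w = 0
    have h1 := Q_add w' w
    rw [hQW w' hw', hQW w hw, hQW _ (W.add_mem hw' hw)] at h1
    simpa using h1.symm
  have hWS : W ≤ S := by
    have := LinearMap.BilinForm.orthogonal_orthogonal (pBf_nondeg (k := k) (F := F)) pBf_refl S
    rwa [this] at hWW
  have hfS : Module.finrank F S ≤ 3 := by
    have h1 := finrank_span_finset_le_card (R := F) ({a, b, c} : Finset (Fin k ⊕ Fin k → F))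
    have h2 : ({a, b, c} : Finset (Fin k ⊕ Fin k → F)).card ≤ 3 := Finset.card_le_three
    exact h1.trans h2
  have hfW : Module.finrank F W = 2 * k - Module.finrank F S := by
    have := LinearMap.BilinForm.finrank_orthogonal (pBf_nondeg (k := k) (F := F)) S
    rw [Module.finrank_fintype_fun_eq_card] at this
    simpa [two_mul] using this
  have hle := Submodule.finrank_mono hWS
  have heq : W = S := Submodule.eq_of_le_of_finrank_eq hWS (by omega)
  have : a ∈ W := by rw [heq]; exact ha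
  exact hab (by rw [pB_comm]; exact hmem a this b hb)

lemma exists_y (hk : 3 ≤ k) {x a₁ a₂ : Fin k ⊕ Fin k → F} (hQ1 : Q a₁ = 0) (hQ2 : Q a₂ = 0) (hx1 : pB x a₁ = 0)
    (hx2 : pB x a₂ = 0) (i1 : Ind x a₁) (i2 : Ind x a₂) :
    ∃ y, Q y = 0 ∧ pB y x = 0 ∧ pB y a₁ ≠ 0 ∧ pB y a₂ ≠ 0 := by
  by_cases h12 : pB a₁ a₂ = 0
  · obtain ⟨u₁, hu₁, hu₁'⟩ := exists_dual_pair i1 0 1
    obtain ⟨u₂, hu₂, hu₂'⟩ := exists_dual_pair i2 0 1
    obtain ⟨u, hu, hu1, hu2⟩ : ∃ u, pB u x = 0 ∧ pB u a₁ ≠ 0 ∧ pB u a₂ ≠ 0 := by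
      by_cases c1 : pB u₁ a₂ = 0
      · by_cases c2 : pB u₂ a₁ = 0
        · refine ⟨u₁ + u₂, ?_, ?_, ?_⟩
          · rw [pB_add_left, hu₁, hu₂, add_zero]
          · rw [pB_add_left, hu₁', c2, add_zero]; exact one_ne_zero
          · rw [pB_add_left, c1, hu₂', zero_add]; exact one_ne_zero
        · exact ⟨u₂, hu₂, c2, by rw [hu₂']; exact one_ne_zero⟩
      · exact ⟨u₁, hu₁, by rw [hu₁']; exact one_ne_zero, c1⟩
    refine ⟨u + (-(Q u / pB u a₁)) • a₁, ?_, ?_, ?_, ?_⟩
    · rw [Q_add, Q_smul, hQ1, pB_smul_right]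
      field_simp
      ring
    · rw [pB_add_left, pB_smul_left, hu, pB_comm a₁, hx1]; ring
    · rw [pB_add_left, pB_smul_left, pB_self_eq hQ1]; simpa using hu1
    · rw [pB_add_left, pB_smul_left, h12]; simpa using hu2
  · obtain ⟨w, hw1, hw2, hw3, hw⟩ := exists_aniso hk (c := x) h12
    refine ⟨a₁ + (-(Q w / pB a₁ a₂)) • a₂ + w, ?_, ?_, ?_, ?_⟩
    · rw [Q_add, Q_add, Q_smul, hQ1, hQ2, pB_smul_right, pB_add_left, pB_smul_left, pB_comm a₁ w, pB_comm a₂ w, hw1, hw2]
      field_simp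
      ring
    · rw [pB_add_left, pB_add_left, pB_smul_left, hw3, pB_comm a₁, pB_comm a₂, hx1, hx2]; ring
    · rw [pB_add_left, pB_add_left, pB_smul_left, pB_self_eq hQ1, hw1, pB_comm a₂ a₁]
      field_simp
      simpa using hw
    · rw [pB_add_left, pB_add_left, pB_smul_left, pB_self_eq hQ2, hw2]
      simpa using h12

lemma path_perp (hk : 3 ≤ k) {r₀ s p' s' : Fin k ⊕ Fin k → F} (hi : Ind r₀ s) (hL : IsL r₀ s) (hi' : Ind p' s') (hL' : IsL p' s')
    (h1 : pB r₀ p' = 0) (h2 : pB r₀ s' = 0) :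
    ∃ x y, Ind x y ∧ IsL x y ∧ PhiPair F (TS r₀ s) (TS x y) ∧ PhiPair F (TS x y) (TS p' s') := by
  have hr₀ := hi.ne_left
  have hp' := hi'.ne_left
  have hsw : ∀ {u : Fin k ⊕ Fin k → F}, u ≠ 0 → sw u ≠ 0 := by
    intro u hu e
    apply hu
    apply sw_inj_test
    intro w
    rw [pB_comm, pB, e]
    simp
  obtain ⟨z, hz1, hz2⟩ := exists_nonvanishing (hsw hr₀) (hsw hp')
  rw [sw_dot] at hz1 hz2
  obtain ⟨t, ht⟩ : ∃ t, t = -(Q z / pB z r₀) := ⟨_, rfl⟩
  obtain ⟨x, hx⟩ : ∃ x, x = z + t • r₀ := ⟨_, rfl⟩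
  have hQx : Q x = 0 := by
    rw [hx, Q_add, Q_smul, hL.hp, pB_smul_right, ht]
    field_simp
    ring
  have he : pB x r₀ = pB z r₀ := by
    rw [hx, pB_add_left, pB_smul_left, hL.pp]; ring
  have he' : pB x p' = pB z p' := by
    rw [hx, pB_add_left, pB_smul_left, h1]; ring
  have hs' : pB x s' = pB z s' := by
    rw [hx, pB_add_left, pB_smul_left, h2]; ring
  rw [← he] at hz1
  rw [← he'] at hz2
  obtain ⟨e, hee⟩ : ∃ e, e = pB x r₀ := ⟨_, rfl⟩
  obtain ⟨e', hee'⟩ : ∃ e', e' = pB x p' := ⟨_, rfl⟩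
  rw [← hee] at hz1
  rw [← hee'] at hz2
  obtain ⟨a₁, ha₁⟩ : ∃ a₁, a₁ = (-(pB x s / e)) • r₀ + (1 : F) • s := ⟨_, rfl⟩
  obtain ⟨a₂, ha₂⟩ : ∃ a₂, a₂ = (-(pB x s' / e')) • p' + (1 : F) • s' := ⟨_, rfl⟩
  have hx1 : pB x a₁ = 0 := by
    rw [ha₁, pB_add_right, pB_smul_right, pB_smul_right, ← hee]
    field_simp
    ring
  have hx2 : pB x a₂ = 0 := by
    rw [ha₂, pB_add_right, pB_smul_right, pB_smul_right, ← hee']
    field_simp
    ring
  have hQ1 : Q a₁ = 0 := by
    rw [ha₁, Q_add, Q_smul, Q_smul, hL.hp, hL.hr, pB_smul_left, pB_smul_right, hL.hpr]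
    ring
  have hQ2 : Q a₂ = 0 := by
    rw [ha₂, Q_add, Q_smul, Q_smul, hL'.hp, hL'.hr, pB_smul_left, pB_smul_right, hL'.hpr]
    ring
  have hb1 : pB a₁ r₀ = 0 := by
    rw [ha₁, pB_add_left, pB_smul_left, pB_smul_left, hL.pp, hL.rp]; ring
  have hb2 : pB a₂ p' = 0 := by
    rw [ha₂, pB_add_left, pB_smul_left, pB_smul_left, hL'.pp, hL'.rp]; ring
  have ha₁0 : a₁ ≠ 0 := by
    intro e0
    rw [ha₁] at e0
    exact one_ne_zero (hi _ _ e0).2
  have ha₂0 : a₂ ≠ 0 := by
    intro e0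
    rw [ha₂] at e0
    exact one_ne_zero (hi' _ _ e0).2
  have i1 : Ind x a₁ := by
    intro α β e0
    have h3 := congrArg (fun v => pB v r₀) e0
    simp only [pB_add_left, pB_smul_left, hb1, ← hee, pB_zero_left, mul_zero, add_zero] at h3
    have hα : α = 0 := (mul_eq_zero.mp h3).resolve_right hz1
    refine ⟨hα, ?_⟩
    rw [hα, zero_smul, zero_add] at e0
    exact (smul_eq_zero.mp e0).resolve_right ha₁0
  have i2 : Ind x a₂ := by
    intro α β e0
    have h3 := congrArg (fun v => pB v p') e0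
    simp only [pB_add_left, pB_smul_left, hb2, ← hee', pB_zero_left, mul_zero, add_zero] at h3
    have hα : α = 0 := (mul_eq_zero.mp h3).resolve_right hz2
    refine ⟨hα, ?_⟩
    rw [hα, zero_smul, zero_add] at e0
    exact (smul_eq_zero.mp e0).resolve_right ha₂0
  obtain ⟨y, hQy, hyx, hy1, hy2⟩ := exists_y hk hQ1 hQ2 hx1 hx2 i1 i2
  have hLx : IsL x y := ⟨hQx, hQy, by rw [pB_comm]; exact hyx⟩
  have hx0 : x ≠ 0 := i1.ne_left
  have hIx : Ind x y := by
    intro α β e0
    have h3 := congrArg (fun v => pB v a₁) e0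
    simp only [pB_add_left, pB_smul_left, hx1, pB_zero_left, mul_zero, zero_add] at h3
    have hβ : β = 0 := (mul_eq_zero.mp h3).resolve_right hy1
    refine ⟨?_, hβ⟩
    rw [hβ, zero_smul, add_zero] at e0
    exact (smul_eq_zero.mp e0).resolve_right hx0
  refine ⟨x, y, hIx, hLx, ?_, ?_⟩
  · apply phi_det hi hL hIx hLx
    have : pB r₀ x * pB s y - pB r₀ y * pB s x = e * pB y a₁ := by
      rw [ha₁, pB_add_right, pB_smul_right, pB_smul_right, pB_comm r₀ x, ← hee, pB_comm s y, pB_comm r₀ y, pB_comm s x]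
      field_simp
      ring
    rw [this]
    exact mul_ne_zero hz1 hy1
  · apply phi_det hIx hLx hi' hL'
    have : pB x p' * pB y s' - pB x s' * pB y p' = e' * pB y a₂ := by
      rw [ha₂, pB_add_right, pB_smul_right, pB_smul_right, ← hee']
      field_simp
      ring
    rw [this]
    exact mul_ne_zero hz2 hy2

/-- The set of Siegel groups -/
def clsO (k : ℕ) (F : Type*) [Field F] : Set (Subgroup (GO k F)) :=
  {A | ∃ p r : Fin k ⊕ Fin k → F, LinearIndependent F ![p, r] ∧ quadFormPlus k F p = 0 ∧ quadFormPlus k F r = 0 ∧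
    quadFormPlus k F (p + r) = 0 ∧ A = TS p r}

lemma mem_clsO {A : Subgroup (GO k F)} : A ∈ clsO k F ↔ ∃ p r : Fin k ⊕ Fin k → F, Ind p r ∧ IsL p r ∧ A = TS p r := by
  constructor
  · rintro ⟨p, r, h1, h2, h3, h4, rfl⟩
    exact ⟨p, r, LinearIndependent.pair_iff.mp h1, IsL.of_statement h2 h3 h4, rfl⟩
  · rintro ⟨p, r, h1, h2, rfl⟩
    refine ⟨p, r, LinearIndependent.pair_iff.mpr h1, h2.hp, h2.hr, ?_, rfl⟩
    rw [Q_add, h2.hp, h2.hr, h2.hpr]
    ring

lemma clsO_data : SubData F (clsO k F) := by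
  refine ⟨?_, ?_, ?_, ?_⟩
  · intro A hA
    obtain ⟨p, r, h1, h2, rfl⟩ := mem_clsO.mp hA
    exact TS_comm h1 h2
  · intro A hA
    obtain ⟨p, r, h1, h2, rfl⟩ := mem_clsO.mp hA
    exact TS_ne_bot h1 h2
  · intro A hA g
    obtain ⟨p, r, h1, h2, rfl⟩ := mem_clsO.mp hA
    rw [conj_TS]
    refine mem_clsO.mpr ⟨_, _, ?_, ?_, rfl⟩
    · intro s t e
      apply h1
      have h3 : mat g⁻¹ *ᵥ (s • (mat g *ᵥ p) + t • (mat g *ᵥ r)) = 0 := by rw [e]; simp
      rwa [mulVec_add, mulVec_smul, mulVec_smul, act_inv_act, act_inv_act] at h3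
    · refine ⟨?_, ?_, ?_⟩
      · rw [Q_pres]; exact h2.hp
      · rw [Q_pres]; exact h2.hr
      · rw [pB_pres]; exact h2.hpr
  · intro A hA B hB
    obtain ⟨p, r, h1, h2, rfl⟩ := mem_clsO.mp hA
    obtain ⟨p', r', h1', h2', rfl⟩ := mem_clsO.mp hB
    exact pair_cases h1 h2 h1' h2' fun a b ha hb => mem_clsO.mpr ⟨a, b, ha, hb, rfl⟩

lemma clsO_path (hk : 3 ≤ k) : PathData F (clsO k F) := by
  intro A hA B hB
  obtain ⟨p, r, hi, hL, rfl⟩ := mem_clsO.mp hA
  obtain ⟨p', r', hi', hL', rfl⟩ := mem_clsO.mp hB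
  by_cases hδ : pB p p' * pB r r' - pB p r' * pB r p' = 0
  · right; right
    obtain ⟨α, β, hαβ, h1, h2⟩ : ∃ α β : F, (α ≠ 0 ∨ β ≠ 0) ∧ α * pB p p' + β * pB r p' = 0 ∧ α * pB p r' + β * pB r r' = 0 := by
      by_cases c1 : pB r r' = 0
      · by_cases c2 : pB p r' = 0
        · by_cases c3 : pB r p' = 0
          · by_cases c4 : pB p p' = 0
            · exact ⟨0, 1, Or.inr one_ne_zero, by rw [c3]; ring, by rw [c1]; ring⟩
            · exact ⟨pB r p', -pB p p', Or.inr (neg_ne_zero.mpr c4), by ring, by rw [c1, c2]; ring⟩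
          · exact ⟨pB r p', -pB p p', Or.inl c3, by ring, by rw [c1, c2]; ring⟩
        · exact ⟨pB r r', -pB p r', Or.inr (neg_ne_zero.mpr c2), by linear_combination hδ, by ring⟩
      · exact ⟨pB r r', -pB p r', Or.inl c1, by linear_combination hδ, by ring⟩
    obtain ⟨γ, τ, hdet⟩ : ∃ γ τ : F, α * τ - β * γ ≠ 0 := by
      rcases hαβ with h | h
      · exact ⟨0, 1, by simpa using h⟩
      · exact ⟨1, 0, by simpa using h⟩
    have e1 : TS (α • p + β • r) (γ • p + τ • r) = TS p r := TS_base_change p r hdet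
    obtain ⟨x, y, hI, hLx, h3, h4⟩ := path_perp hk (hi.base hdet) (hL.base _ _ _ _) hi' hL'
      (by simp only [pB_add_left, pB_smul_left]; exact h1) (by simp only [pB_add_left, pB_smul_left]; exact h2)
    rw [e1] at h3
    exact ⟨TS x y, mem_clsO.mpr ⟨x, y, hI, hLx, rfl⟩, h3, h4⟩
  · exact Or.inr (Or.inl (phi_det hi hL hi' hL' hδ))

theorem s5072_main (hk : 3 ≤ k) :
    IsKRootSubgroupSet F (subFam (clsO k F)) ∧ IsConnectedFamily (FAdj (clsO k F)) (clsO k F) :=
  ⟨clsO_data.kroot, (clsO_path hk).conn'⟩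

end Cfsg.Agent.RootSub.Tv.Orth
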