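import Cfsg.Agent.RootSub.TvSL
import Cfsg.Agent.Lib.SympGen

set_option autoImplicit false
set_option linter.unusedSectionVars false
set_option linter.unusedSimpArgs false
set_option linter.unusedVariables false

namespace Cfsg.Agent.RootSub.Tv.Sp

open Cfsg Matrix Cfsg.Agent.Lib.SympForm

variable {F : Type*} [Field F] {m : ℕ}

/-- The group `T(p)`. -/
def Tp (p : Fin m ⊕ Fin m → F) : Subgroup (symplecticGroup (Fin m) F) :=
  Subgroup.closure {g | ∃ c : F, ∀ v : Fin m ⊕ Fin m → F,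
    (g : Matrix (Fin m ⊕ Fin m) (Fin m ⊕ Fin m) F) *ᵥ v = v + (c * (v ⬝ᵥ (J (Fin m) F *ᵥ p))) • p}

lemma transvElt_add (p : Fin m ⊕ Fin m → F) (c d : F) : transvElt p c * transvElt p d = transvElt p (c + d) :=
  Subtype.ext (sympTransvection_add p c d)

lemma transvElt_val (p : Fin m ⊕ Fin m → F) (c : F) :
    ((transvElt p c : symplecticGroup (Fin m) F) : Matrix (Fin m ⊕ Fin m) (Fin m ⊕ Fin m) F) =
      tvM p (J (Fin m) F *ᵥ p) c := rfl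

lemma transvElt_zero (p : Fin m ⊕ Fin m → F) : transvElt p 0 = 1 := Subtype.ext (tvM_zero _ _)

lemma transvElt_inv (p : Fin m ⊕ Fin m → F) (c : F) : (transvElt p c)⁻¹ = transvElt p (-c) := by
  rw [inv_eq_iff_mul_eq_one, transvElt_add, add_neg_cancel, transvElt_zero]

lemma mem_Tp {p : Fin m ⊕ Fin m → F} {g : symplecticGroup (Fin m) F} : g ∈ Tp p ↔ ∃ c, g = transvElt p c := by
  constructor
  · intro hg
    induction hg using Subgroup.closure_induction with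
    | mem x hx =>
      obtain ⟨c, hc⟩ := hx
      refine ⟨c, Subtype.ext (mulVec_injective (funext fun v => ?_))⟩
      rw [hc v]
      exact (mulVec_sympTransvection p c v).symm
    | one => exact ⟨0, (transvElt_zero p).symm⟩
    | mul x y _ _ hx hy =>
      obtain ⟨c, rfl⟩ := hx
      obtain ⟨d, rfl⟩ := hy
      exact ⟨c + d, transvElt_add p c d⟩
    | inv x _ hx =>
      obtain ⟨c, rfl⟩ := hx
      exact ⟨-c, transvElt_inv p c⟩
  · rintro ⟨c, rfl⟩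
    refine Subgroup.subset_closure ⟨c, fun v => ?_⟩
    exact mulVec_sympTransvection p c v

lemma transvElt_mem_Tp (p : Fin m ⊕ Fin m → F) (c : F) : transvElt p c ∈ Tp p := mem_Tp.mpr ⟨c, rfl⟩

lemma coe_mul_inv (g : symplecticGroup (Fin m) F) (x : Fin m ⊕ Fin m → F) :
    (g : Matrix (Fin m ⊕ Fin m) (Fin m ⊕ Fin m) F) *ᵥ ((g⁻¹ : symplecticGroup (Fin m) F) : Matrix (Fin m ⊕ Fin m) (Fin m ⊕ Fin m) F) *ᵥ x = x := by
  rw [← mulVec_val_mul, mul_inv_cancel]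
  simp

lemma conj_transvElt (g : symplecticGroup (Fin m) F) (p : Fin m ⊕ Fin m → F) (c : F) :
    g * transvElt p c * g⁻¹ = transvElt ((g : Matrix (Fin m ⊕ Fin m) (Fin m ⊕ Fin m) F) *ᵥ p) c := by
  refine Subtype.ext (mulVec_injective (funext fun x => ?_))
  rw [mulVec_val_mul, mulVec_val_mul]
  show (g : Matrix (Fin m ⊕ Fin m) (Fin m ⊕ Fin m) F) *ᵥ (sympTransvection m p c *ᵥ _) = sympTransvection m _ c *ᵥ x
  rw [mulVec_sympTransvection, mulVec_sympTransvection, mulVec_add, mulVec_smul, coe_mul_inv]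
  congr 3
  rw [← sp_preserves g, coe_mul_inv]

lemma conj_Tp (g : symplecticGroup (Fin m) F) (p : Fin m ⊕ Fin m → F) :
    conjBy (Tp p) g = Tp ((g : Matrix (Fin m ⊕ Fin m) (Fin m ⊕ Fin m) F) *ᵥ p) := by
  ext t
  rw [mem_Tp, mem_conj]
  constructor
  · intro ht
    obtain ⟨c, hc⟩ := mem_Tp.mp ht
    refine ⟨c, ?_⟩
    rw [← conj_transvElt, ← hc]
    group
  · rintro ⟨c, rfl⟩
    rw [← conj_transvElt, mem_Tp]
    exact ⟨c, by group⟩

lemma dot_self (p : Fin m ⊕ Fin m → F) : (J (Fin m) F *ᵥ p) ⬝ᵥ p = 0 := by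
  rw [dotProduct_comm]
  exact sympForm_self p

lemma dot_eq (p q : Fin m ⊕ Fin m → F) : (J (Fin m) F *ᵥ p) ⬝ᵥ q = sympForm m F q p := by
  rw [dotProduct_comm]
  rfl

lemma Tp_comm (p : Fin m ⊕ Fin m → F) : IsMulCommutative (Tp p) := by
  apply isMulCommutative_of_comm
  intro x hx y hy
  obtain ⟨c, rfl⟩ := mem_Tp.mp hx
  obtain ⟨d, rfl⟩ := mem_Tp.mp hy
  rw [transvElt_add, transvElt_add, add_comm]

lemma J_ne_zero {p : Fin m ⊕ Fin m → F} (hp : p ≠ 0) : J (Fin m) F *ᵥ p ≠ 0 := by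
  obtain ⟨w, hw⟩ := exists_sympForm_ne_zero hp
  intro e
  apply hw
  rw [sympForm_antisymm, neg_eq_zero]
  show w ⬝ᵥ (J (Fin m) F *ᵥ p) = 0
  rw [e]
  simp

lemma Tp_ne_bot {p : Fin m ⊕ Fin m → F} (hp : p ≠ 0) : Tp p ≠ ⊥ := by
  intro e
  have h1 := transvElt_mem_Tp p 1
  rw [e, Subgroup.mem_bot] at h1
  exact tvM_ne_one hp (J_ne_zero hp) (one_ne_zero) (congrArg Subtype.val h1)

lemma Tp_bot {p q : Fin m ⊕ Fin m → F} (h : sympForm m F p q = 0) : ⁅Tp p, Tp q⁆ = ⊥ := by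
  apply commutator_bot_of_comm
  intro a ha b hb
  obtain ⟨c, rfl⟩ := mem_Tp.mp ha
  obtain ⟨d, rfl⟩ := mem_Tp.mp hb
  refine Subtype.ext (tvM_comm ?_ ?_ c d)
  · rw [dot_eq, sympForm_antisymm, h, neg_zero]
  · rw [dot_eq, h]

lemma Tp_rankOne {p q : Fin m ⊕ Fin m → F} (h : sympForm m F p q ≠ 0) :
    IsRankOnePair (Tp p) (Tp q) ∧ IsPSL2PairOver F (Tp p) (Tp q) := by
  set f := J (Fin m) F *ᵥ p with hf
  set g := J (Fin m) F *ᵥ q with hg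
  have hfq : f ⬝ᵥ q ≠ 0 := by
    rw [hf, dot_eq, sympForm_antisymm]
    exact neg_ne_zero.mpr h
  have hgp : g ⬝ᵥ p ≠ 0 := by
    rw [hg, dot_eq]
    exact h
  have hf' : ((f ⬝ᵥ q)⁻¹ • f) ⬝ᵥ p = 0 := by rw [smul_dotProduct, hf, dot_self]; simp
  have hg' : ((g ⬝ᵥ p)⁻¹ • g) ⬝ᵥ q = 0 := by rw [smul_dotProduct, hg, dot_self]; simp
  have hf1 : ((f ⬝ᵥ q)⁻¹ • f) ⬝ᵥ q = 1 := by rw [smul_dotProduct]; simp [hfq]
  have hg1 : ((g ⬝ᵥ p)⁻¹ • g) ⬝ᵥ p = 1 := by rw [smul_dotProduct]; simp [hgp]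
  have hQP := Qm_mul_Pm hg' hf' hg1 hf1
  have e1 : ∀ t, embM (Pm p q) (Qm ((g ⬝ᵥ p)⁻¹ • g) ((f ⬝ᵥ q)⁻¹ • f)) (upM t : Matrix (Fin 2) (Fin 2) F) =
      tvM p f (t * (f ⬝ᵥ q)⁻¹) := by
    intro t
    rw [embM_upM, tvM_smul_right]
  have e2 : ∀ t, embM (Pm p q) (Qm ((g ⬝ᵥ p)⁻¹ • g) ((f ⬝ᵥ q)⁻¹ • f)) (loM t : Matrix (Fin 2) (Fin 2) F) =
      tvM q g (t * (g ⬝ᵥ p)⁻¹) := by
    intro t
    rw [embM_loM, tvM_smul_right]
  obtain ⟨φ, hφ⟩ := lift_sl2 (symplecticGroup (Fin m) F).subtype Subtype.val_injective (embH hQP)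
    (fun t => ⟨transvElt p (t * (f ⬝ᵥ q)⁻¹), (e1 t).symm⟩) (fun t => ⟨transvElt q (t * (g ⬝ᵥ p)⁻¹), (e2 t).symm⟩)
  have hφinj : Function.Injective φ := by
    intro x y e
    have h1 := hφ x
    have h2 := hφ y
    rw [e, h2] at h1
    have h3 : embM (Pm p q) (Qm ((g ⬝ᵥ p)⁻¹ • g) ((f ⬝ᵥ q)⁻¹ • f)) y = embM (Pm p q) (Qm ((g ⬝ᵥ p)⁻¹ • g) ((f ⬝ᵥ q)⁻¹ • f)) x := h1
    apply Subtype.ext
    rw [← embM_recover hQP x.1, ← embM_recover hQP y.1, h3]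
  have hφu : ∀ t, φ (upM t) = transvElt p (t * (f ⬝ᵥ q)⁻¹) := fun t => Subtype.ext ((hφ _).trans (e1 t))
  have hφl : ∀ t, φ (loM t) = transvElt q (t * (g ⬝ᵥ p)⁻¹) := fun t => Subtype.ext ((hφ _).trans (e2 t))
  have m1 : (upperUnipotentSL2 F).map φ = Tp p := by
    ext t
    rw [Subgroup.mem_map, mem_Tp]
    constructor
    · rintro ⟨x, hx, rfl⟩
      obtain ⟨c, rfl⟩ := mem_upper.mp hx
      exact ⟨_, hφu c⟩
    · rintro ⟨c, rfl⟩
      refine ⟨upM (c * (f ⬝ᵥ q)), mem_upper.mpr ⟨_, rfl⟩, ?_⟩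
      rw [hφu, mul_assoc, mul_inv_cancel₀ hfq, mul_one]
  have m2 : (lowerUnipotentSL2 F).map φ = Tp q := by
    ext t
    rw [Subgroup.mem_map, mem_Tp]
    constructor
    · rintro ⟨x, hx, rfl⟩
      obtain ⟨c, rfl⟩ := mem_lower.mp hx
      exact ⟨_, hφl c⟩
    · rintro ⟨c, rfl⟩
      refine ⟨loM (c * (g ⬝ᵥ p)), mem_lower.mpr ⟨_, rfl⟩, ?_⟩
      rw [hφl, mul_assoc, mul_inv_cancel₀ hgp, mul_one]
  have := rankOne_of_injective φ hφinj
  rwa [m1, m2] at this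

/-- The set of symplectic root groups. -/
def clsSp (m : ℕ) (F : Type*) [Field F] : Set (Subgroup (symplecticGroup (Fin m) F)) :=
  {A | ∃ p : Fin m ⊕ Fin m → F, p ≠ 0 ∧ A = Tp p}

lemma clsSp_set : IsRootSubgroupSet (clsSp m F) where
  commutative := by
    rintro A ⟨p, hp, rfl⟩
    exact Tp_comm p
  ne_bot := by
    rintro A ⟨p, hp, rfl⟩
    exact Tp_ne_bot hp
  generates := by
    rw [eq_top_iff, ← Lib.SympGen.transvGroup_eq_top, Subgroup.closure_le]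
    rintro A ⟨w, c, hA⟩
    have hA' : A = transvElt w c := Subtype.ext hA
    by_cases hw : w = 0
    · have : A = 1 := by
        subst hw
        rw [hA']
        apply Subtype.ext
        show tvM _ _ _ = 1
        simp [tvM]
      rw [this]
      exact Subgroup.one_mem _
    · have h1 : Tp w ≤ ⨆ A ∈ clsSp m F, A := le_iSup₂_of_le _ ⟨w, hw, rfl⟩ le_rfl
      rw [hA']
      exact h1 (transvElt_mem_Tp w c)
  conj_mem := by
    rintro A ⟨p, hp, rfl⟩ g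
    refine ⟨(g : Matrix (Fin m ⊕ Fin m) (Fin m ⊕ Fin m) F) *ᵥ p, ?_, conj_Tp g p⟩
    intro e
    apply hp
    have : ((g⁻¹ : symplecticGroup (Fin m) F) : Matrix (Fin m ⊕ Fin m) (Fin m ⊕ Fin m) F) *ᵥ ((g : Matrix (Fin m ⊕ Fin m) (Fin m ⊕ Fin m) F) *ᵥ p) = 0 := by
      rw [e]; simp
    rw [← mulVec_val_mul, inv_mul_cancel] at this
    simpa using this
  pair := by
    rintro A ⟨p, hp, rfl⟩ B ⟨q, hq, rfl⟩
    by_cases h : sympForm m F p q = 0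
    · exact Or.inl (Tp_bot h)
    · exact Or.inr (Or.inl (Tp_rankOne h).1)

lemma clsSp_class (hne : ∃ p : Fin m ⊕ Fin m → F, p ≠ 0) : IsRootSubgroupClass (clsSp m F) := by
  refine ⟨clsSp_set, ?_, ?_⟩
  · obtain ⟨p, hp⟩ := hne
    exact ⟨_, p, hp, rfl⟩
  · rintro A ⟨p, hp, rfl⟩ B ⟨q, hq, rfl⟩
    obtain ⟨g, -, hg⟩ := exists_transv_vector hp hq
    exact ⟨g, by rw [conj_Tp, hg]⟩

lemma clsSp_deg : IsDegenerateRootSet (clsSp m F) := by
  rintro A ⟨p, hp, rfl⟩ B ⟨q, hq, rfl⟩ hc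
  by_cases h : sympForm m F p q = 0
  · exact clsSp_set.ne_bot _ hc.1 (Tp_bot h)
  · exact not_rankOne_of_commutator_case hc (Tp_rankOne h).1

lemma clsSp_kroot : IsKRootSubgroupSet F (clsSp m F) := by
  refine ⟨clsSp_set, ?_⟩
  rintro A ⟨p, hp, rfl⟩ B ⟨q, hq, rfl⟩ hAB
  by_cases h : sympForm m F p q = 0
  · exact (not_comm_of_rankOne hAB (fun a ha b hb => comm_of_commutator_bot (Tp_bot h) ha hb)).elim
  · exact (Tp_rankOne h).2

lemma clsSp_conn : IsConnectedFamily (FAdj (clsSp m F)) (clsSp m F) := by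
  rintro A hA B hB
  obtain ⟨p, hp, rfl⟩ := hA
  obtain ⟨q, hq, rfl⟩ := hB
  obtain ⟨w, hw, hw'⟩ : ∃ w, sympForm m F p w ≠ 0 ∧ sympForm m F q w ≠ 0 := by
    obtain ⟨w1, h1⟩ := exists_sympForm_ne_zero hp
    obtain ⟨w2, h2⟩ := exists_sympForm_ne_zero hq
    by_cases h3 : sympForm m F q w1 = 0
    · by_cases h4 : sympForm m F p w2 = 0
      · refine ⟨w1 + w2, ?_, ?_⟩
        · rw [sympForm_add_right, h4, add_zero]; exact h1
        · rw [sympForm_add_right, h3, zero_add]; exact h2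
      · exact ⟨w2, h4, h2⟩
    · exact ⟨w1, h1, h3⟩
  have hw0 : w ≠ 0 := by
    rintro rfl
    rw [sympForm_zero_right] at hw
    exact hw rfl
  have hw'' : sympForm m F w q ≠ 0 := by
    rw [sympForm_antisymm]; exact neg_ne_zero.mpr hw'
  refine (Relation.ReflTransGen.single ⟨⟨p, hp, rfl⟩, ⟨w, hw0, rfl⟩, (Tp_rankOne hw).1⟩).trans
    (Relation.ReflTransGen.single ⟨⟨w, hw0, rfl⟩, ⟨q, hq, rfl⟩, (Tp_rankOne hw'').1⟩)

end Cfsg.Agent.RootSub.Tv.Sp
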