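import Cfsg.Agent.RootSub.Basic

set_option autoImplicit false

namespace Cfsg.Agent.RootSub

open Cfsg

theorem rank_one_of_regular {Y Ω : Type*} [Group Y] [MulAction Y Ω]
    (hΩ : 3 ≤ ENat.card Ω) (α : Ω) (A : Subgroup Y)
    (hA : A ≤ MulAction.stabilizer Y α) (hAn : ∀ y ∈ MulAction.stabilizer Y α, Cfsg.conjBy A y = A)
    (hnil : Group.IsNilpotent A) (hreg : ∀ β γ : Ω, β ≠ α → γ ≠ α → ∃! a : Y, a ∈ A ∧ a • β = γ)
    (y : Y) (hy : y ∉ MulAction.stabilizer Y α) :
    Cfsg.IsRankOnePair A (Cfsg.conjBy A y) ∧ Subgroup.normalClosure (A : Set Y) = A ⊔ Cfsg.conjBy A y := by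
  classical
  have hconj : ∀ g g' : Y, g • α = g' • α → Cfsg.conjBy A g = Cfsg.conjBy A g' := by
    intro g g' e
    have hs : g'⁻¹ * g ∈ MulAction.stabilizer Y α := by
      rw [MulAction.mem_stabilizer_iff, mul_smul, e, inv_smul_smul]
    rw [conj_eq_conj_iff]
    exact mem_normalizer_of_conj_eq (hAn _ hs)
  have hfix : ∀ a ∈ A, a • α = α := fun a ha => hA ha
  set β := y • α with hβ
  have hβα : β ≠ α := hy
  -- a nontrivial element of A moves any other point
  have hmove : ∀ a ∈ A, a ≠ 1 → ∀ γ : Ω, γ ≠ α → a • γ ≠ γ := by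
    intro a ha ha1 γ hγ e
    obtain ⟨c, -, huniq⟩ := hreg γ γ hγ hγ
    have h1 := huniq a ⟨ha, e⟩
    have h2 := huniq 1 ⟨A.one_mem, one_smul _ _⟩
    exact ha1 (h1.trans h2.symm)
  set B := conjBy A y with hB
  have hBfix : ∀ b ∈ B, b • β = β := by
    intro b hb
    rw [mem_conj] at hb
    have h3 := hfix _ hb
    rw [hβ, ← mul_smul]
    have : b * y = y * (y⁻¹ * b * y) := by group
    rw [this, mul_smul, h3]
  have hBreg : ∀ γ δ : Ω, γ ≠ β → δ ≠ β → ∃ b ∈ B, b • γ = δ := by
    intro γ δ hγ hδ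
    have h1 : y⁻¹ • γ ≠ α := by
      intro e; apply hγ; rw [inv_smul_eq_iff] at e; exact e
    have h2 : y⁻¹ • δ ≠ α := by
      intro e; apply hδ; rw [inv_smul_eq_iff] at e; exact e
    obtain ⟨a, ⟨ha, e⟩, -⟩ := hreg _ _ h1 h2
    refine ⟨y * a * y⁻¹, conj_mem_conj y ha, ?_⟩
    rw [mul_smul, mul_smul, e, smul_inv_smul]
  have hBmove : ∀ b ∈ B, b ≠ 1 → b • α ≠ α := by
    intro b hb hb1 e
    apply hb1
    rw [mem_conj] at hb
    by_contra hne
    have h1 : y⁻¹ * b * y ≠ 1 := by
      intro h2; apply hb1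
      have : b * y = y := by
        have := congrArg (fun t => y * t) h2
        simpa [mul_assoc] using this
      simpa using this
    have hya : y⁻¹ • α ≠ α := by
      intro e2
      rw [inv_smul_eq_iff] at e2
      exact hβα e2.symm
    apply hmove _ hb h1 _ hya
    simp [mul_smul, e]
  -- three points
  have h3pts : ∃ γ : Ω, γ ≠ α ∧ γ ≠ β := by
    by_contra hcon
    push Not at hcon
    have : (Set.univ : Set Ω) ⊆ {α, β} := by
      intro γ _
      by_cases h : γ = α
      · exact Or.inl h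
      · exact Or.inr (hcon γ h)
    have h1 := Set.encard_le_encard this
    rw [Set.encard_univ, Set.encard_pair hβα.symm] at h1
    have := hΩ.trans h1
    exact absurd this (by decide)
  obtain ⟨γ, hγ1, hγ2⟩ := h3pts
  have hpair : IsRankOnePair A B := by
    refine ⟨?_, hnil, conj_nilpotent hnil y, ?_, ?_⟩
    · intro e
      obtain ⟨a, ⟨ha, ea⟩, -⟩ := hreg β γ hβα hγ1
      have : a ∈ B := e ▸ ha
      have := hBfix a this
      rw [ea] at this
      exact hγ2 this
    · intro a ha ha1
      have h1 : a⁻¹ • β ≠ β := hmove _ (A.inv_mem ha) (by simpa using ha1) β hβα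
      have h2 : a⁻¹ • β ≠ α := by
        intro e
        have := hfix a ha
        rw [inv_smul_eq_iff] at e
        rw [this] at e
        exact hβα e
      obtain ⟨c, hc, ec⟩ := hBreg α (a⁻¹ • β) hβα.symm h1
      refine ⟨c⁻¹, B.inv_mem hc, ?_, ?_⟩
      · intro h3
        have : c = 1 := by simpa using h3
        rw [this, one_smul] at ec
        exact h2 ec.symm
      · rw [inv_inv, hB, conj_conj]
        apply hconj
        rw [ec, mul_smul]
    · intro b hb hb1
      have h1 : b⁻¹ • α ≠ α := hBmove _ (B.inv_mem hb) (by simpa using hb1)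
      have h2 : b⁻¹ • α ≠ β := by
        intro e
        have := hBfix b hb
        rw [inv_smul_eq_iff] at e
        rw [this] at e
        exact hβα e.symm
      obtain ⟨c, ⟨hc, ec⟩, -⟩ := hreg β (b⁻¹ • α) hβα h1
      refine ⟨c⁻¹, A.inv_mem hc, ?_, ?_⟩
      · intro h3
        have : c = 1 := by simpa using h3
        rw [this, one_smul] at ec
        exact h2 ec.symm
      · rw [inv_inv, hB, conj_conj]
        apply hconj
        rw [mul_smul]
        exact ec
  refine ⟨hpair, le_antisymm ?_ ?_⟩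
  · rw [Subgroup.normalClosure, Subgroup.closure_le]
    intro x hx
    rw [Group.mem_conjugatesOfSet_iff] at hx
    obtain ⟨a, ha, hc⟩ := hx
    obtain ⟨g, rfl⟩ := isConj_iff.mp hc
    suffices hle : conjBy A g ≤ A ⊔ B from hle (conj_mem_conj g ha)
    by_cases hg : g • α = α
    · have := hconj g 1 (by simpa using hg)
      rw [this]
      simp
    · obtain ⟨a', ⟨ha', ea'⟩, -⟩ := hreg β (g • α) hβα hg
      have := hconj g (a' * y) (by rw [mul_smul]; exact ea'.symm)
      rw [this, ← conj_conj]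
      exact conj_le_of_le (Subgroup.mem_sup_left ha') le_sup_right
  · refine sup_le (Subgroup.le_normalClosure) ?_
    rintro _ ⟨a, ha, rfl⟩
    exact (Subgroup.normalClosure_normal (s := (A : Set Y))).conj_mem a (Subgroup.le_normalClosure ha) y

end Cfsg.Agent.RootSub
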