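import Cfsg.Agent.RootSub.Lines

set_option autoImplicit false

namespace Cfsg.Agent.RootSub

open Cfsg

variable {G : Type*} [Group G] {S : Set (Subgroup G)}

/-! ### Lines: auxiliary facts -/

lemma mem_sup_central {U C : Subgroup G} (hcomm : ∀ c ∈ C, ∀ u ∈ U, c * u = u * c) {x : G} (hx : x ∈ U ⊔ C) :
    ∃ u ∈ U, ∃ c ∈ C, x = u * c := by
  refine sup_induction (P := fun x => ∃ a ∈ U, ∃ c ∈ C, x = a * c) ?_ ?_ ?_ ?_ ?_ hx
  · intro a ha
    exact ⟨a, ha, 1, C.one_mem, by simp⟩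
  · intro c hc'
    exact ⟨1, U.one_mem, c, hc', by simp⟩
  · exact ⟨1, U.one_mem, 1, C.one_mem, by simp⟩
  · rintro _ _ ⟨a₁, ha₁, c₁, hc₁, rfl⟩ ⟨a₂, ha₂, c₂, hc₂, rfl⟩
    refine ⟨a₁ * a₂, U.mul_mem ha₁ ha₂, c₁ * c₂, C.mul_mem hc₁ hc₂, ?_⟩
    calc a₁ * c₁ * (a₂ * c₂) = a₁ * (c₁ * a₂) * c₂ := by group
      _ = a₁ * (a₂ * c₁) * c₂ := by rw [hcomm c₁ hc₁ a₂ ha₂]
      _ = _ := by group
  · rintro _ ⟨a, ha, c, hc', rfl⟩
    refine ⟨a⁻¹, U.inv_mem ha, c⁻¹, C.inv_mem hc', ?_⟩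
    rw [mul_inv_rev]
    exact hcomm c⁻¹ (C.inv_mem hc') a⁻¹ (U.inv_mem ha)

lemma comm_elt_mul_left {x y z : G} (_hx : z * x = x * z) (hy : z * y = y * z) :
    (x * z) * y * (x * z)⁻¹ * y⁻¹ = x * y * x⁻¹ * y⁻¹ := by
  calc (x * z) * y * (x * z)⁻¹ * y⁻¹ = x * (z * y) * z⁻¹ * x⁻¹ * y⁻¹ := by group
    _ = x * (y * z) * z⁻¹ * x⁻¹ * y⁻¹ := by rw [hy]
    _ = _ := by group

lemma comm_elt_mul_right {x y z : G} (hx : z * x = x * z) (_hy : z * y = y * z) :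
    x * (y * z) * x⁻¹ * (y * z)⁻¹ = x * y * x⁻¹ * y⁻¹ := by
  calc x * (y * z) * x⁻¹ * (y * z)⁻¹ = x * y * (z * x⁻¹) * z⁻¹ * y⁻¹ := by group
    _ = x * y * (x⁻¹ * z) * z⁻¹ * y⁻¹ := by
        have : z * x⁻¹ = x⁻¹ * z := by
          have h2 : x⁻¹ * (x * z) * x⁻¹ = x⁻¹ * (z * x) * x⁻¹ := by rw [hx]
          simpa [mul_assoc] using h2
        rw [this]
    _ = _ := by group

/-- Members of the two lines through the commutator have the same commutator. -/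
lemma comm_eq_of_lines {A B H₁ H₂ : Subgroup G} (hc : RootCommutatorCase S A B)
    (h₁ : H₁ ≤ A ⊔ ⁅A, B⁆) (h₁' : A ≤ H₁ ⊔ ⁅A, B⁆) (h₂ : H₂ ≤ B ⊔ ⁅A, B⁆) (h₂' : B ≤ H₂ ⊔ ⁅A, B⁆) :
    ⁅H₁, H₂⁆ = ⁅A, B⁆ := by
  set C := ⁅A, B⁆ with hC
  have hcA : ∀ c ∈ C, ∀ a ∈ A, c * a = a * c := fun c hc' a ha => hc.2.1 c hc' a (Subgroup.mem_sup_left ha)
  have hcB : ∀ c ∈ C, ∀ a ∈ B, c * a = a * c := fun c hc' a ha => hc.2.1 c hc' a (Subgroup.mem_sup_right ha)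
  have hcC : ∀ c ∈ C, ∀ a ∈ C, c * a = a * c := fun c hc' a ha => hc.2.1 c hc' a (comm_le_sup ha)
  have hL : A ⊔ C ≤ A ⊔ B := sup_le le_sup_left comm_le_sup
  have hR : B ⊔ C ≤ A ⊔ B := sup_le le_sup_right comm_le_sup
  have hcH₁ : ∀ c ∈ C, ∀ a ∈ H₁, c * a = a * c := fun c hc' a ha => hc.2.1 c hc' a (hL (h₁ ha))
  have hcH₂ : ∀ c ∈ C, ∀ a ∈ H₂, c * a = a * c := fun c hc' a ha => hc.2.1 c hc' a (hR (h₂ ha))
  apply le_antisymm
  · rw [Subgroup.commutator_le]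
    intro x hx y hy
    obtain ⟨a, ha, c₁, hc₁, rfl⟩ := mem_sup_central hcA (h₁ hx)
    obtain ⟨b, hb, c₂, hc₂, rfl⟩ := mem_sup_central hcB (h₂ hy)
    rw [commutatorElement_def, comm_elt_mul_left (hcA c₁ hc₁ a ha)
      (by
        have h3 := hc.2.1 c₁ hc₁ (b * c₂) (hR (Subgroup.mul_mem _ (Subgroup.mem_sup_left hb) (Subgroup.mem_sup_right hc₂)))
        exact h3), comm_elt_mul_right (hcA c₂ hc₂ a ha) (hcB c₂ hc₂ b hb)]
    exact mem_comm ha hb
  · rw [Subgroup.commutator_le]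
    intro x hx y hy
    obtain ⟨a, ha, c₁, hc₁, rfl⟩ := mem_sup_central hcH₁ (h₁' hx)
    obtain ⟨b, hb, c₂, hc₂, rfl⟩ := mem_sup_central hcH₂ (h₂' hy)
    rw [commutatorElement_def, comm_elt_mul_left (hcH₁ c₁ hc₁ a ha)
      (by
        have hm : b * c₂ ∈ A ⊔ B := (A ⊔ B).mul_mem (hR (h₂ hb)) (comm_le_sup hc₂)
        exact hc.2.1 c₁ hc₁ _ hm), comm_elt_mul_right (hcH₁ c₂ hc₂ a ha) (hcH₂ c₂ hc₂ b hb)]
    exact mem_comm ha hb

/-- `e` moves `B` within the line `B ⁅B, E⁆`. -/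
lemma line_pt {B E : Subgroup G} (hk : RootCommutatorCase S B E) {e : G} (he : e ∈ E) (he1 : e ≠ 1) :
    conjBy B e ≤ B ⊔ ⁅B, E⁆ ∧ ⁅B, E⁆ ≤ B ⊔ conjBy B e := by
  constructor
  · rintro _ ⟨b, hb, rfl⟩
    simp only [MulEquiv.coe_toMonoidHom, MulAut.conj_apply]
    have e1 : e * b * e⁻¹ = b * (b⁻¹ * e * b⁻¹⁻¹ * e⁻¹) := by group
    rw [e1]
    exact Subgroup.mul_mem _ (Subgroup.mem_sup_left hb) (Subgroup.mem_sup_right (mem_comm (B.inv_mem hb) he))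
  · intro x hx
    obtain ⟨b, hb, rfl⟩ := exists_comm_left hk he he1 hx
    have e1 : b * e * b⁻¹ * e⁻¹ = b * (e * b⁻¹ * e⁻¹) := by group
    rw [e1]
    exact Subgroup.mul_mem _ (Subgroup.mem_sup_left hb) (Subgroup.mem_sup_right (conj_mem_conj e (B.inv_mem hb)))

lemma le_of_line_case_left (hS : IsRootSubgroupSet S) {U V : Subgroup G} (hU : U ∈ S) (hc : RootCommutatorCase S U V)
    {D : Subgroup G} (hD : D ∈ S) (hUD : IsRankOnePair U D) : U ∈ linePartners S ⁅U, V⁆ := by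
  have hl := line_structure hS hc hD hUD
  refine ⟨⟨hU, (comm_ne_left hS hc).symm, ?_⟩, ?_⟩
  · apply commutator_bot_of_comm
    intro c hc' a ha
    exact hc.2.1 c hc' a (Subgroup.mem_sup_left ha)
  · rw [sup_comm]; exact hl.2

lemma comm_mem_line (hS : IsRootSubgroupSet S) {U V : Subgroup G} (hc : RootCommutatorCase S U V)
    {D : Subgroup G} (hD : D ∈ S) (hUD : IsRankOnePair U D) : ⁅U, V⁆ ∈ linePartners S U := by
  have hl := line_structure hS hc hD hUD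
  refine ⟨⟨hc.1, comm_ne_left hS hc, ?_⟩, hl.2⟩
  apply commutator_bot_of_comm
  intro a ha c hc'
  exact (hc.2.1 c hc' a (Subgroup.mem_sup_left ha)).symm

/-- Conjugating a line partner. -/
lemma line_conj (hS : IsRootSubgroupSet S) {A B : Subgroup G} (hB : B ∈ linePartners S A) (g : G) :
    conjBy B g ∈ linePartners S (conjBy A g) := by
  obtain ⟨⟨hBS, hne, hbot⟩, hp⟩ := hB
  refine ⟨⟨hS.conj_mem B hBS g, ?_, conj_bot_of_bot hbot g⟩, ?_⟩
  · intro e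
    exact hne (conj_injective g e)
  · rw [← conj_sup]
    refine ⟨fun C hC => hC.2, ?_, ?_⟩
    · intro x hx hx1
      have hx' : g⁻¹ * x * g ∈ A ⊔ B := mem_conj.mp hx
      have hne1 : g⁻¹ * x * g ≠ 1 := by
        intro e
        apply hx1
        have := congrArg (fun t => g * t * g⁻¹) e
        simpa [mul_assoc] using this
      obtain ⟨C, hC, hxC⟩ := hp.2.1 _ hx' hne1
      exact ⟨conjBy C g, ⟨hS.conj_mem C hC.1 g, conj_le_conj g hC.2⟩, mem_conj.mpr hxC⟩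
    · intro C₁ hC₁ C₂ hC₂ hne2
      have hm : ∀ C ∈ membersIn S (conjBy (A ⊔ B) g), conjBy C g⁻¹ ∈ membersIn S (A ⊔ B) := by
        intro C hC
        refine ⟨hS.conj_mem C hC.1 g⁻¹, ?_⟩
        have := conj_le_conj g⁻¹ hC.2
        rwa [conj_inv_conj] at this
      have hne3 : conjBy C₁ g⁻¹ ≠ conjBy C₂ g⁻¹ := fun e => hne2 (conj_injective _ e)
      have h3 := hp.2.2 _ (hm C₁ hC₁) _ (hm C₂ hC₂) hne3
      rw [eq_bot_iff]
      rintro x ⟨hx₁, hx₂⟩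
      have hm2 : g⁻¹ * x * g ∈ conjBy C₁ g⁻¹ ⊓ conjBy C₂ g⁻¹ := by
        have hx₁' : x ∈ C₁ := hx₁
        have hx₂' : x ∈ C₂ := hx₂
        refine Subgroup.mem_inf.mpr ⟨?_, ?_⟩
        · rw [mem_conj]; simpa [mul_assoc] using hx₁'
        · rw [mem_conj]; simpa [mul_assoc] using hx₂'
      rw [h3, Subgroup.mem_bot] at hm2
      rw [Subgroup.mem_bot]
      have := congrArg (fun t => g * t * g⁻¹) hm2
      simpa [mul_assoc] using this

/-- The other members of a line. -/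
lemma line_members (hS : IsRootSubgroupSet S) (hall : ∀ X ∈ S, ∃ D ∈ S, IsRankOnePair X D) {A B Z : Subgroup G}
    (hA : A ∈ S) (hB : B ∈ linePartners S A) (hZ : Z ∈ S) (hZL : Z ≤ A ⊔ B) (hne : Z ≠ A) :
    A ⊔ Z = A ⊔ B ∧ Z ∈ linePartners S A := by
  obtain ⟨R, hR, hAR⟩ := hall A hA
  obtain ⟨H₀, hH₀, hH₀L, hcR, hsup, hbot, hH₀A, hk1, hk2⟩ := line_data hS hall hA hB hR hAR
  have hl := line_structure hS hk1 hR hAR
  rw [hk2] at hl
  have hmem : Z ∈ membersIn S (A ⊔ H₀) := ⟨hZ, by rw [hsup]; exact hZL⟩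
  have hsupZ : A ⊔ Z = A ⊔ B := by
    rw [hl.1] at hmem
    rcases hmem with ⟨e, he, rfl⟩ | hmem
    · have he1 : e ≠ 1 := by
        rintro rfl
        exact hne (by simp)
      have hlp := line_pt hk1 he he1
      rw [hk2] at hlp
      rw [← hsup]
      exact le_antisymm (sup_le le_sup_left hlp.1) (sup_le le_sup_left hlp.2)
    · have : Z = H₀ := hmem
      rw [this, hsup]
  refine ⟨hsupZ, ⟨hZ, hne, ?_⟩, ?_⟩
  · have hab := (comm_sup_iff (hS.commutative A hA) (hS.commutative B hB.1.1)).mpr hB.1.2.2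
    apply commutator_bot_of_comm
    intro x hx y hy
    exact comm_of_isMulCommutative hab (Subgroup.mem_sup_left hx) (hZL hy)
  · rw [hsupZ]; exact hB.2

/-- Gate of a rank one partner on a line. -/
lemma line_gate (hS : IsRootSubgroupSet S) (hall : ∀ X ∈ S, ∃ D ∈ S, IsRankOnePair X D) {A B R : Subgroup G}
    (hA : A ∈ S) (hB : B ∈ linePartners S A) (hR : R ∈ S) (hAR : IsRankOnePair A R) :
    ∃ H₀ ∈ S, H₀ ≤ A ⊔ B ∧ RootCommutatorCase S R H₀ ∧ A ⊔ H₀ = A ⊔ B ∧ ⁅A, H₀⁆ = ⊥ ∧ H₀ ≠ A ∧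
      RootCommutatorCase S A ⁅R, H₀⁆ ∧ ⁅A, ⁅R, H₀⁆⁆ = H₀ ∧
      (∀ Z ∈ S, Z ≤ A ⊔ B → Z ≠ H₀ → IsRankOnePair Z R) ∧
      (∃ Z ∈ S, Z ≤ A ⊔ B ∧ Z ≠ A ∧ Z ≠ H₀ ∧ IsRankOnePair Z R) := by
  obtain ⟨H₀, hH₀, hH₀L, hcR, hsup, hbot, hH₀A, hk1, hk2⟩ := line_data hS hall hA hB hR hAR
  have hl := line_structure hS hk1 hR hAR
  rw [hk2] at hl
  have hE : ∀ e ∈ ⁅R, H₀⁆, IsRankOnePair (conjBy A e) R := by
    intro e he
    have h1 := rankOne_conj hAR e
    rwa [conj_fix_of_comm (fun d hd => hcR.2.1 e he d (Subgroup.mem_sup_left hd))] at h1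
  refine ⟨H₀, hH₀, hH₀L, hcR, hsup, hbot, hH₀A, hk1, hk2, ?_, ?_⟩
  · intro Z hZ hZL hZH
    have hmem : Z ∈ membersIn S (A ⊔ H₀) := ⟨hZ, by rw [hsup]; exact hZL⟩
    rw [hl.1] at hmem
    rcases hmem with ⟨e, he, rfl⟩ | hmem
    · exact hE e he
    · exact absurd hmem hZH
  · obtain ⟨e, he⟩ := Subgroup.ne_bot_iff_exists_ne_one.mp (hS.ne_bot _ hcR.1)
    have he1 : (e : G) ≠ 1 := by simpa using he
    have hlp := line_pt hk1 e.2 he1
    rw [hk2] at hlp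
    refine ⟨conjBy A e, hS.conj_mem A hA e, by rw [← hsup]; exact hlp.1, conj_ne_of_case hS hk1 hR hAR e.2 he1, ?_, hE e e.2⟩
    intro e1
    have h2 := hE e e.2
    rw [e1] at h2
    exact not_rankOne_of_commutator_case hcR (RankOnePair_symm h2)

/-! ### A nilpotent group has no commutator loops -/

lemma no_comm_loop {W U B X : Subgroup G} (hW : Group.IsNilpotent ↥W) (hU : U ≤ W) (hB : B ≤ W) (hX : X ≤ W)
    (h : ⁅⁅U, B⁆, X⁆ = U) : U = ⊥ := by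
  obtain ⟨n, hn⟩ := (Subgroup.isNilpotent_iff_lowerCentralSeries W).mp hW
  have hall : ∀ k, U ≤ W.lowerCentralSeries k := by
    intro k
    induction k with
    | zero => exact hU
    | succ k ih =>
      have h1 : ⁅U, B⁆ ≤ W.lowerCentralSeries (k + 1) := Subgroup.commutator_mono ih hB
      have h2 : ⁅⁅U, B⁆, X⁆ ≤ W.lowerCentralSeries (k + 1 + 1) := Subgroup.commutator_mono h1 hX
      rw [h] at h2
      exact h2.trans (W.lowerCentralSeries_antitone (Nat.le_succ _))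
  have h3 := hall n
  rw [hn] at h3
  exact le_bot_iff.mp h3

/-! ### Weak TI subsets -/

/-- The stabiliser of a family under conjugation. -/
def famStab (Δ : Set (Subgroup G)) : Subgroup G where
  carrier := {g | ∀ A, A ∈ Δ ↔ conjBy A g ∈ Δ}
  one_mem' := by
    intro A
    simp
  mul_mem' := by
    intro x y hx hy A
    rw [hy A, hx (conjBy A y), conj_conj]
  inv_mem' := by
    intro x hx A
    rw [hx (conjBy A x⁻¹), conj_conj]
    simp

lemma mem_famStab {Δ : Set (Subgroup G)} {g : G} : g ∈ famStab Δ ↔ ∀ A, A ∈ Δ ↔ conjBy A g ∈ Δ := Iff.rfl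

lemma mem_famStab_of_fix {Δ : Set (Subgroup G)} (hΔ : IsWeakTISubset S Δ) {R : Subgroup G} (hR : R ∈ S) {d : G}
    (hd : d ∈ R) {A : Subgroup G} (hA : A ∈ Δ) (h : conjBy A d ∈ Δ) : d ∈ famStab Δ := by
  by_cases hd1 : d = 1
  · rw [hd1]; exact (famStab Δ).one_mem
  have hroot : d ∈ rootElements S := ⟨hd1, R, hR, hd⟩
  rcases hΔ.2.2.2 d hroot with h1 | h1
  · intro X
    constructor
    · intro hX
      rw [← h1]
      exact ⟨X, hX, rfl⟩
    · intro hX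
      rw [← h1] at hX
      obtain ⟨Y, hY, e⟩ := hX
      have : Y = X := conj_injective d e
      rwa [← this]
  · exact absurd h (Set.disjoint_left.mp h1 ⟨A, hA, rfl⟩)

lemma le_famStab_of_comm {Δ : Set (Subgroup G)} (hΔ : IsWeakTISubset S Δ) {R A : Subgroup G} (hR : R ∈ S) (hA : A ∈ Δ)
    (h : ⁅A, R⁆ = ⊥) : R ≤ famStab Δ := by
  intro d hd
  refine mem_famStab_of_fix hΔ hR hd hA ?_
  rw [conj_fix_of_comm (fun x hx => (comm_of_commutator_bot h hx hd).symm)]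
  exact hA

lemma le_famStab_self {Δ : Set (Subgroup G)} (hS : IsRootSubgroupSet S) (hΔ : IsWeakTISubset S Δ) {A : Subgroup G}
    (hA : A ∈ Δ) : A ≤ famStab Δ :=
  le_famStab_of_comm hΔ (hΔ.1 hA) hA (self_comm_bot (hS.commutative A (hΔ.1 hA)))

/-- The step: commutators of pairs of `Δ` propagate along rank one pairs. -/
theorem xi_step (hS : IsRootSubgroupSet S) (hall : ∀ X ∈ S, ∃ D ∈ S, IsRankOnePair X D) {Δ : Set (Subgroup G)}
    (hΔ : IsWeakTISubset S Δ) {A B T : Subgroup G} (hA : A ∈ Δ) (hB : B ∈ Δ) (hCS : ⁅A, B⁆ ∈ S) (hT : T ∈ S)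
    (hCT : IsRankOnePair ⁅A, B⁆ T) : ∃ A' ∈ Δ, ∃ B' ∈ Δ, ⁅A', B'⁆ = T := by
  have hAS := hΔ.1 hA
  have hBS := hΔ.1 hB
  set N := famStab Δ with hN
  have hAN : A ≤ N := le_famStab_self hS hΔ hA
  have hBN : B ≤ N := le_famStab_self hS hΔ hB
  set C := ⁅A, B⁆ with hC
  have hc : RootCommutatorCase S A B := commutator_case_of_mem hS hAS hBS hCS
  have hBAe : ⁅B, A⁆ = C := by rw [Subgroup.commutator_comm]
  have hc' : RootCommutatorCase S B A := commutator_case_of_mem hS hBS hAS (by rw [hBAe]; exact hCS)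
  have hCN : C ≤ N := comm_le_sup.trans (sup_le hAN hBN)
  obtain ⟨D₁, hD₁, h₁⟩ := hall A hAS
  obtain ⟨D₂, hD₂, h₂⟩ := hall B hBS
  have hl₁ := line_structure hS hc hD₁ h₁
  have hl₂ := line_structure hS hc' hD₂ h₂
  rw [hBAe] at hl₂
  have hAl : A ∈ linePartners S C := le_of_line_case_left hS hAS hc hD₁ h₁
  have hBl : B ∈ linePartners S C := by
    have := le_of_line_case_left hS hBS hc' hD₂ h₂
    rwa [hBAe] at this
  obtain ⟨H₁, hH₁, hH₁L, hcT₁, hsup₁, hbot₁, hne₁, -, -⟩ := line_data hS hall hCS hAl hT hCT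
  obtain ⟨H₂, hH₂, hH₂L, hcT₂, hsup₂, hbot₂, hne₂, -, -⟩ := line_data hS hall hCS hBl hT hCT
  -- `H₁, H₂ ∈ Δ`
  have hH₁Δ : H₁ ∈ Δ := by
    have hm : H₁ ∈ membersIn S (A ⊔ C) := ⟨hH₁, by rw [sup_comm]; exact hH₁L⟩
    rw [hl₁.1] at hm
    rcases hm with ⟨b, hb, rfl⟩ | hm
    · exact ((mem_famStab.mp (hBN hb)) A).mp hA
    · exact absurd hm hne₁
  have hH₂Δ : H₂ ∈ Δ := by
    have hm : H₂ ∈ membersIn S (B ⊔ C) := ⟨hH₂, by rw [sup_comm]; exact hH₂L⟩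
    rw [hl₂.1] at hm
    rcases hm with ⟨b, hb, rfl⟩ | hm
    · exact ((mem_famStab.mp (hAN hb)) B).mp hB
    · exact absurd hm hne₂
  have hcomm12 : ⁅H₁, H₂⁆ = C := by
    apply comm_eq_of_lines hc
    · rw [sup_comm]; exact hH₁L
    · rw [sup_comm, hsup₁, sup_comm]; exact le_sup_left
    · rw [sup_comm]; exact hH₂L
    · rw [sup_comm, hsup₂, sup_comm]; exact le_sup_left
  obtain ⟨c, hc₀, hc₁⟩ := exists_ne_one_left hCT
  obtain ⟨t, ht, -, et⟩ := hCT.cond_left c hc₀ hc₁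
  have hnC : conjBy C (c * t⁻¹) = T := by
    rw [← conj_conj, et, conj_conj]; simp
  have hcomm_n : ⁅conjBy H₁ (c * t⁻¹), conjBy H₂ (c * t⁻¹)⁆ = T := by
    rw [← commutator_conj, hcomm12, hnC]
  have key : ∀ H ∈ S, RootCommutatorCase S T H → ⁅C, H⁆ = ⊥ → ⁅H, conjBy H (c * t⁻¹)⁆ = ⊥ := by
    intro H hH hcT hbot
    have hcT' : RootCommutatorCase S H T :=
      commutator_case_of_mem hS hH hT (by rw [Subgroup.commutator_comm]; exact hcT.1)
    have h1 := comm_conj_self hS hH (Or.inr hcT') (T.inv_mem ht)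
    have h2 := conj_bot_of_bot h1 c
    rw [conj_conj, conj_fix_of_comm (fun x hx => comm_of_commutator_bot hbot hc₀ hx)] at h2
    exact h2
  have hX'N : conjBy H₁ (c * t⁻¹) ≤ N := le_famStab_of_comm hΔ (hS.conj_mem H₁ hH₁ _) hH₁Δ (key H₁ hH₁ hcT₁ hbot₁)
  have hY'N : conjBy H₂ (c * t⁻¹) ≤ N := le_famStab_of_comm hΔ (hS.conj_mem H₂ hH₂ _) hH₂Δ (key H₂ hH₂ hcT₂ hbot₂)
  have hTN : T ≤ N := by
    rw [← hcomm_n]
    exact comm_le_sup.trans (sup_le hX'N hY'N)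
  have hn : c * t⁻¹ ∈ N := N.mul_mem (hCN hc₀) (N.inv_mem (hTN ht))
  exact ⟨_, ((mem_famStab.mp hn) H₁).mp hH₁Δ, _, ((mem_famStab.mp hn) H₂).mp hH₂Δ, hcomm_n⟩

/-- A commutator member conjugate to a given member. -/
lemma exists_case_with_comm (hS : IsRootSubgroupClass S) (hnd : IsNondegenerateRootSet S) {B : Subgroup G} (hB : B ∈ S) :
    ∃ U ∈ S, ∃ V ∈ S, RootCommutatorCase S U V ∧ ⁅U, V⁆ = B := by
  obtain ⟨U₀, hU₀, V₀, hV₀, hc⟩ := hnd.2.2
  obtain ⟨g, rfl⟩ := hS.2.2 _ hc.1 B hB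
  refine ⟨conjBy U₀ g, hS.1.conj_mem U₀ hU₀ g, conjBy V₀ g, hS.1.conj_mem V₀ hV₀ g, ?_, ?_⟩
  · apply commutator_case_of_mem hS.1 (hS.1.conj_mem U₀ hU₀ g) (hS.1.conj_mem V₀ hV₀ g)
    rw [← commutator_conj]
    exact hS.1.conj_mem _ hc.1 g
  · rw [← commutator_conj]

/-- A rank one pair in `Δ` produces a commutator pair in `Δ`. -/
theorem xi_of_rankOne (hS : IsRootSubgroupClass S) (hnd : IsNondegenerateRootSet S)
    (hall : ∀ X ∈ S, ∃ D ∈ S, IsRankOnePair X D) {Δ : Set (Subgroup G)}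
    (hΔ : IsWeakTISubset S Δ) {A B : Subgroup G} (hA : A ∈ Δ) (hB : B ∈ Δ) (hAB : IsRankOnePair A B) :
    ∃ A' ∈ Δ, ∃ B' ∈ Δ, ⁅A', B'⁆ = B := by
  have hS0 := hS.1
  have hAS := hΔ.1 hA
  have hBS := hΔ.1 hB
  obtain ⟨U, hU, V, hV, hc, rfl⟩ := exists_case_with_comm hS hnd hBS
  have hc' : RootCommutatorCase S V U := commutator_case_of_mem hS0 hV hU (by rw [Subgroup.commutator_comm]; exact hBS)
  obtain ⟨D₁, hD₁, h₁⟩ := hall U hU
  obtain ⟨D₂, hD₂, h₂⟩ := hall V hV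
  have hUl := le_of_line_case_left hS0 hU hc hD₁ h₁
  have hVl : V ∈ linePartners S ⁅U, V⁆ := by
    have := le_of_line_case_left hS0 hV hc' hD₂ h₂
    rwa [Subgroup.commutator_comm] at this
  have key : ∀ W ∈ linePartners S ⁅U, V⁆, ∃ W' ∈ Δ, W' ≤ ⁅U, V⁆ ⊔ W ∧ W ≤ ⁅U, V⁆ ⊔ W' := by
    intro W hW
    obtain ⟨H₁, hH₁, hH₁L, hcA₁, hsup₁, hbot₁, hne₁, hk₁, hk₁'⟩ := line_data hS0 hall hBS hW hAS (RankOnePair_symm hAB)
    obtain ⟨e, he⟩ := Subgroup.ne_bot_iff_exists_ne_one.mp (hS0.ne_bot _ hcA₁.1)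
    have he1 : (e : G) ≠ 1 := by simpa using he
    have hEN : ⁅A, H₁⁆ ≤ famStab Δ := by
      refine le_famStab_of_comm hΔ hcA₁.1 hA ?_
      apply commutator_bot_of_comm
      intro a ha x hx
      exact (hcA₁.2.1 x hx a (Subgroup.mem_sup_left ha)).symm
    have hlp := line_pt hk₁ e.2 he1
    rw [hk₁'] at hlp
    refine ⟨conjBy ⁅U, V⁆ e, ((mem_famStab.mp (hEN e.2)) _).mp hB, ?_, ?_⟩
    · rw [← hsup₁]; exact hlp.1
    · have : W ≤ ⁅U, V⁆ ⊔ H₁ := by rw [hsup₁]; exact le_sup_right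
      exact this.trans (sup_le le_sup_left hlp.2)
  obtain ⟨U', hU'Δ, hU'1, hU'2⟩ := key U hUl
  obtain ⟨V', hV'Δ, hV'1, hV'2⟩ := key V hVl
  refine ⟨U', hU'Δ, V', hV'Δ, comm_eq_of_lines hc ?_ ?_ ?_ ?_⟩
  · rwa [sup_comm]
  · rwa [sup_comm]
  · rwa [sup_comm]
  · rwa [sup_comm]

lemma class_all_partners (hS : IsRootSubgroupClass S) (hnd : IsNondegenerateRootSet S) :
    ∀ X ∈ S, ∃ D ∈ S, IsRankOnePair X D := by
  obtain ⟨A₀, hA₀, B₀, hB₀, h⟩ := hnd.2.1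
  exact all_partners_of_class hS hA₀ hB₀ h

lemma class_connected (hS : IsRootSubgroupClass S) (hnd : IsNondegenerateRootSet S) :
    IsConnectedFamily (FAdj S) S := by
  obtain ⟨A₀, hA₀, B₀, hB₀, h⟩ := hnd.2.1
  have hne : A₀ ≠ B₀ := h.ne
  refine (s5032_main hS.1 ⟨A₀, hA₀, B₀, hB₀, hne⟩).mpr ⟨hS.2, A₀, hA₀, ?_⟩
  intro hiso
  exact (hiso.2 B₀).1 ⟨hA₀, hB₀, h⟩

/-- S5040. -/
theorem s5040_main (hS : IsRootSubgroupClass S) (hnd : IsNondegenerateRootSet S) {Δ : Set (Subgroup G)}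
    (hΔ : IsWeakTISubset S Δ) : IsAbelianFamily Δ := by
  have hS0 := hS.1
  have hall := class_all_partners hS hnd
  by_contra hna
  have hna' : ∃ A ∈ Δ, ∃ B ∈ Δ, ¬ ⁅A, B⁆ = ⊥ := by
    by_contra hno
    apply hna
    intro A hA B hB a ha b hb
    have h2 : ⁅A, B⁆ = ⊥ := by
      by_contra h3
      exact hno ⟨A, hA, B, hB, h3⟩
    exact comm_of_commutator_bot h2 ha hb
  obtain ⟨A, hA, B, hB, hne⟩ := hna'
  -- a commutator pair
  obtain ⟨A₁, hA₁, B₁, hB₁, hC₁⟩ : ∃ A₁ ∈ Δ, ∃ B₁ ∈ Δ, ⁅A₁, B₁⁆ ∈ S := by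
    rcases hS0.pair A (hΔ.1 hA) B (hΔ.1 hB) with h | h | h
    · exact absurd h hne
    · obtain ⟨A', hA', B', hB', e⟩ := xi_of_rankOne hS hnd hall hΔ hA hB h
      exact ⟨A', hA', B', hB', by rw [e]; exact hΔ.1 hB⟩
    · exact ⟨A, hA, B, hB, h.1⟩
  have hconn := class_connected hS hnd
  have hreach : ∀ T ∈ S, ∃ A' ∈ Δ, ∃ B' ∈ Δ, ⁅A', B'⁆ = T := by
    intro T hT
    have hr := hconn _ hC₁ T hT
    induction hr with
    | refl => exact ⟨A₁, hA₁, B₁, hB₁, rfl⟩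
    | tail _ hbc ih =>
      obtain ⟨A', hA', B', hB', e⟩ := ih hbc.1
      refine xi_step hS0 hall hΔ hA' hB' (by rw [e]; exact hbc.1) hbc.2.1 ?_
      rw [e]
      exact hbc.2.2
  have hTN : ∀ T ∈ S, T ≤ famStab Δ := by
    intro T hT
    obtain ⟨A', hA', B', hB', rfl⟩ := hreach T hT
    exact comm_le_sup.trans (sup_le (le_famStab_self hS0 hΔ hA') (le_famStab_self hS0 hΔ hB'))
  have htop : (⊤ : Subgroup G) ≤ famStab Δ := by
    rw [← hS0.generates]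
    exact iSup₂_le hTN
  apply hΔ.2.2.1
  apply Set.Subset.antisymm hΔ.1
  intro T hT
  obtain ⟨g, rfl⟩ := hS.2.2 A (hΔ.1 hA) T hT
  exact ((mem_famStab.mp (htop (Subgroup.mem_top g))) A).mp hA

/-! ### Connectedness -/

lemma line_partner_symm {A B : Subgroup G} (hA : A ∈ S) (h : B ∈ linePartners S A) : A ∈ linePartners S B := by
  obtain ⟨⟨hB, hne, hbot⟩, hp⟩ := h
  refine ⟨⟨hA, hne.symm, by rw [Subgroup.commutator_comm]; exact hbot⟩, ?_⟩
  rw [sup_comm]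
  exact hp

lemma eadj_symm {A B : Subgroup G} (h : EAdj S S A B) : EAdj S S B A :=
  ⟨h.2.1, h.1, line_partner_symm h.1 h.2.2⟩

lemma ereach_symm {A B : Subgroup G} (h : Relation.ReflTransGen (EAdj S S) A B) :
    Relation.ReflTransGen (EAdj S S) B A := by
  induction h with
  | refl => exact Relation.ReflTransGen.refl
  | tail _ hbc ih => exact Relation.ReflTransGen.head (eadj_symm hbc) ih

lemma ereach_conj (hS : IsRootSubgroupSet S) {A B : Subgroup G} (h : Relation.ReflTransGen (EAdj S S) A B) (g : G) :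
    Relation.ReflTransGen (EAdj S S) (conjBy A g) (conjBy B g) := by
  induction h with
  | refl => exact Relation.ReflTransGen.refl
  | tail _ hbc ih =>
    exact ih.tail ⟨hS.conj_mem _ hbc.1 g, hS.conj_mem _ hbc.2.1 g, line_conj hS hbc.2.2 g⟩

/-- S5041. -/
theorem s5041_main (hS : IsRootSubgroupClass S) (hnd : IsNondegenerateRootSet S) :
    IsConnectedFamily (EAdj S S) S ∧ IsConnectedFamily (DAdj S) S := by
  have hS0 := hS.1
  have hall := class_all_partners hS hnd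
  have hE : IsConnectedFamily (EAdj S S) S := by
    obtain ⟨A₀, hA₀⟩ := hS.2.1
    have hreach : ∀ X ∈ S, Relation.ReflTransGen (EAdj S S) A₀ X := by
      set Δ := componentOf (EAdj S S) S A₀ with hΔdef
      obtain ⟨U, hU, V, hV, hc, e⟩ := exists_case_with_comm hS hnd hA₀
      have hc' : RootCommutatorCase S V U :=
        commutator_case_of_mem hS0 hV hU (by rw [Subgroup.commutator_comm, e]; exact hA₀)
      obtain ⟨D₁, hD₁, h₁⟩ := hall U hU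
      obtain ⟨D₂, hD₂, h₂⟩ := hall V hV
      have hUl := le_of_line_case_left hS0 hU hc hD₁ h₁
      have hVl : V ∈ linePartners S ⁅U, V⁆ := by
        have := le_of_line_case_left hS0 hV hc' hD₂ h₂
        rwa [Subgroup.commutator_comm] at this
      rw [e] at hUl hVl
      have hUΔ : U ∈ Δ := ⟨hU, Relation.ReflTransGen.single ⟨hA₀, hU, hUl⟩⟩
      have hVΔ : V ∈ Δ := ⟨hV, Relation.ReflTransGen.single ⟨hA₀, hV, hVl⟩⟩
      have hA₀Δ : A₀ ∈ Δ := ⟨hA₀, Relation.ReflTransGen.refl⟩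
      by_contra hno
      have hne : Δ ≠ S := by
        intro h
        apply hno
        intro X hX
        rw [← h] at hX
        exact hX.2
      have hwti : IsWeakTISubset S Δ := by
        refine ⟨fun X hX => hX.1, ⟨A₀, hA₀Δ, U, hUΔ, hUl.1.2.1.symm⟩, hne, ?_⟩
        intro d _
        by_cases hdis : Disjoint ((fun A => conjBy A d) '' Δ) Δ
        · exact Or.inr hdis
        · left
          obtain ⟨Y, ⟨X, hX, rfl⟩, hY⟩ := Set.not_disjoint_iff.mp hdis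
          have h1 : Relation.ReflTransGen (EAdj S S) A₀ (conjBy A₀ d) :=
            hY.2.trans (ereach_symm (ereach_conj hS0 hX.2 d))
          apply Set.Subset.antisymm
          · rintro _ ⟨Z, hZ, rfl⟩
            exact ⟨hS0.conj_mem Z hZ.1 d, h1.trans (ereach_conj hS0 hZ.2 d)⟩
          · intro Z hZ
            refine ⟨conjBy Z d⁻¹, ⟨hS0.conj_mem Z hZ.1 d⁻¹, ?_⟩, by simp only; rw [conj_conj_inv]⟩
            have h2 := ereach_conj hS0 h1 d⁻¹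
            rw [conj_inv_conj] at h2
            exact (ereach_symm h2).trans (ereach_conj hS0 hZ.2 d⁻¹)
      have hab := s5040_main hS hnd hwti
      apply hS0.ne_bot A₀ hA₀
      rw [← e]
      exact commutator_bot_of_comm (fun a ha b hb => hab U hUΔ V hVΔ a ha b hb)
    intro X hX Y hY
    exact (ereach_symm (hreach X hX)).trans (hreach Y hY)
  refine ⟨hE, ?_⟩
  intro X hX Y hY
  refine Relation.ReflTransGen.mono ?_ _ _ (hE X hX Y hY)
  rintro U W ⟨hU, hW, hl⟩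
  exact ⟨hU, hW, hl.1.2.1.symm, hl.1.2.2⟩

/-! ### Generation -/

/-- `A` is generated by line partners. -/
lemma self_le_lines (hS : IsRootSubgroupClass S) (hnd : IsNondegenerateRootSet S) {A : Subgroup G} (hA : A ∈ S) :
    A ≤ ⨆ C ∈ linePartners S A, C := by
  have hS0 := hS.1
  have hall := class_all_partners hS hnd
  obtain ⟨A₀, hA₀, B₀, hB₀, hc₀⟩ := hnd.2.2
  obtain ⟨E, hE, hcAE⟩ := exists_case_of_class hS hA₀ hB₀ hc₀ hA
  obtain ⟨R, hR, hAR⟩ := hall A hA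
  have hCl : ⁅A, E⁆ ∈ linePartners S A := comm_mem_line hS0 hcAE hR hAR
  obtain ⟨e, he⟩ := Subgroup.ne_bot_iff_exists_ne_one.mp (hS0.ne_bot E hE)
  have he1 : (e : G) ≠ 1 := by simpa using he
  have hlp := line_pt hcAE e.2 he1
  have hne : conjBy A e ≠ A := conj_ne_of_case hS0 hcAE hR hAR e.2 he1
  have hC'l : conjBy A e ∈ linePartners S A :=
    (line_members hS0 hall hA hCl (hS0.conj_mem A hA e) hlp.1 hne).2
  intro a ha
  have e1 : a = (a * e * a⁻¹ * (e : G)⁻¹) * (e * a * (e : G)⁻¹) := by group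
  rw [e1]
  refine Subgroup.mul_mem _ ?_ ?_
  · exact (le_iSup₂_of_le _ hCl le_rfl : ⁅A, E⁆ ≤ ⨆ C ∈ linePartners S A, C) (mem_comm ha e.2)
  · exact (le_iSup₂_of_le _ hC'l le_rfl : conjBy A e ≤ ⨆ C ∈ linePartners S A, C) (conj_mem_conj _ ha)

/-- Transfer of fullness along a rank one pair. -/
lemma full_transfer (hS : IsRootSubgroupSet S) (hall : ∀ X ∈ S, ∃ D ∈ S, IsRankOnePair X D) {R R' M : Subgroup G}
    (hR : R ∈ S) (hR' : R' ∈ S) (hRR' : IsRankOnePair R' R) (hfull : ∀ Z ∈ linePartners S R, Z ≤ M) (hle : R' ≤ M) :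
    ∀ Z ∈ linePartners S R', Z ≤ M := by
  intro Z hZ
  obtain ⟨H₀, hH₀, hH₀L, hcR, hsup, hbot, hne, hk1, hk2⟩ := line_data hS hall hR' hZ hR hRR'
  obtain ⟨D, hD, hRD⟩ := hall R hR
  have hEl : ⁅R, H₀⁆ ∈ linePartners S R := comm_mem_line hS hcR hD hRD
  have hEM := hfull _ hEl
  have hH₀M : H₀ ≤ M := by
    rw [← hk2]
    exact comm_le_sup.trans (sup_le hle hEM)
  have : Z ≤ R' ⊔ H₀ := by rw [hsup]; exact le_sup_right
  exact this.trans (sup_le hle hH₀M)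

/-- In the commutator case, some line partner of `U` is a rank one partner of `B`. -/
theorem exists_opp_of_case (hS : IsRootSubgroupSet S) (hall : ∀ X ∈ S, ∃ D ∈ S, IsRankOnePair X D)
    {U B : Subgroup G} (hU : U ∈ S) (hB : B ∈ S) (hc : RootCommutatorCase S U B) :
    ∃ X ∈ linePartners S U, IsRankOnePair X B := by
  set F := ⁅U, B⁆ with hF
  have hFS : F ∈ S := hc.1
  have hBUe : ⁅B, U⁆ = F := by rw [Subgroup.commutator_comm]
  have hc' : RootCommutatorCase S B U := commutator_case_of_mem hS hB hU (by rw [hBUe]; exact hFS)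
  obtain ⟨D₁, hD₁, h₁⟩ := hall U hU
  obtain ⟨D₂, hD₂, h₂⟩ := hall B hB
  obtain ⟨T, hT, hFT⟩ := hall F hFS
  have hl₁ := line_structure hS hc hD₁ h₁
  have hl₂ := line_structure hS hc' hD₂ h₂
  rw [hBUe] at hl₂
  have hUl : U ∈ linePartners S F := le_of_line_case_left hS hU hc hD₁ h₁
  have hBl : B ∈ linePartners S F := by
    have := le_of_line_case_left hS hB hc' hD₂ h₂
    rwa [hBUe] at this
  obtain ⟨H₁, hH₁, hH₁L, hcT₁, hsup₁, hbot₁, hne₁, hk₁, hk₁'⟩ := line_data hS hall hFS hUl hT hFT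
  obtain ⟨H₂, hH₂, hH₂L, hcT₂, hsup₂, hbot₂, hne₂, -, -⟩ := line_data hS hall hFS hBl hT hFT
  obtain ⟨b₁, hb₁, eb₁⟩ : ∃ b₁ ∈ B, H₁ = conjBy U b₁ := by
    have hm : H₁ ∈ membersIn S (U ⊔ F) := ⟨hH₁, by rw [sup_comm]; exact hH₁L⟩
    rw [hl₁.1] at hm
    rcases hm with ⟨b, hb, rfl⟩ | hm
    · exact ⟨b, hb, rfl⟩
    · exact absurd hm hne₁
  obtain ⟨u₁, hu₁, eu₁⟩ : ∃ u₁ ∈ U, H₂ = conjBy B u₁ := by
    have hm : H₂ ∈ membersIn S (B ⊔ F) := ⟨hH₂, by rw [sup_comm]; exact hH₂L⟩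
    rw [hl₂.1] at hm
    rcases hm with ⟨b, hb, rfl⟩ | hm
    · exact ⟨b, hb, rfl⟩
    · exact absurd hm hne₂
  have hcomm12 : ⁅H₁, H₂⁆ = F := by
    apply comm_eq_of_lines hc
    · rw [sup_comm]; exact hH₁L
    · rw [sup_comm, hsup₁, sup_comm]; exact le_sup_left
    · rw [sup_comm]; exact hH₂L
    · rw [sup_comm, hsup₂, sup_comm]; exact le_sup_left
  set X₁ := ⁅T, H₁⁆ with hX₁
  have hX₁S : X₁ ∈ S := hcT₁.1
  have hcH₁T : RootCommutatorCase S H₁ T :=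
    commutator_case_of_mem hS hH₁ hT (by rw [Subgroup.commutator_comm]; exact hcT₁.1)
  obtain ⟨D₃, hD₃, h₃⟩ := hall H₁ hH₁
  have hX₁l : X₁ ∈ linePartners S H₁ := by
    have := comm_mem_line hS hcH₁T hD₃ h₃
    rwa [Subgroup.commutator_comm] at this
  have hbotH₁X₁ : ⁅H₁, X₁⁆ = ⊥ := hX₁l.1.2.2
  have hopp : IsRankOnePair X₁ H₂ := by
    by_contra hno
    rcases non_rankOne_cases hS hX₁S hH₂ hno with h1 | h1
    · -- `X₁` commutes with `H₁` and `H₂`, so with `F`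
      apply hS.ne_bot H₁ hH₁
      rw [← hk₁', ← hcomm12]
      apply commutator_bot_of_comm
      intro f hf x hx
      have h2 : ∀ y ∈ H₁ ⊔ H₂, x * y = y * x := by
        intro y hy
        exact comm_sup_of_comm (fun u hu => (comm_of_commutator_bot hbotH₁X₁ hu hx).symm)
          (fun u hu => comm_of_commutator_bot h1 hx hu) y hy
      exact (h2 f (comm_le_sup hf)).symm
    · have hH₂X₁ : ⁅H₂, X₁⁆ ∈ S := by rw [Subgroup.commutator_comm]; exact h1.1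
      have hH₁H₂ : ⁅H₁, H₂⁆ ∈ S := by rw [hcomm12]; exact hFS
      obtain ⟨b, hb⟩ := Subgroup.ne_bot_iff_exists_ne_one.mp (hS.ne_bot H₂ hH₂)
      have hb1 : (b : G) ≠ 1 := by simpa using hb
      have hnil := (s5030_main hS hH₁ hH₂ hX₁S hH₁H₂ hH₂X₁ hX₁l.1 b.2 hb1).2.2.2.2
      apply hS.ne_bot H₁ hH₁
      refine no_comm_loop hnil (le_sup_left.trans le_sup_left) (le_sup_right.trans le_sup_left) le_sup_right ?_
      rw [hcomm12]
      exact hk₁'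
  -- transport
  have hU' : conjBy H₁ (u₁⁻¹ * b₁⁻¹) = U := by
    rw [← conj_conj, eb₁, conj_inv_conj, conj_of_mem (U.inv_mem hu₁)]
  have hbH₂ : ⁅B, H₂⁆ = ⊥ := by
    rw [eu₁]
    exact comm_conj_self hS hB (Or.inr hc') hu₁
  have hB' : conjBy H₂ (u₁⁻¹ * b₁⁻¹) = B := by
    rw [← conj_conj, conj_fix_of_comm (fun d hd => comm_of_commutator_bot hbH₂ (B.inv_mem hb₁) hd), eu₁, conj_inv_conj]
  refine ⟨conjBy X₁ (u₁⁻¹ * b₁⁻¹), ?_, ?_⟩
  · have := line_conj hS hX₁l (u₁⁻¹ * b₁⁻¹)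
    rwa [hU'] at this
  · have := rankOne_conj hopp (u₁⁻¹ * b₁⁻¹)
    rwa [hB'] at this

/-- S5042. -/
theorem s5042_main (hS : IsRootSubgroupClass S) (hnd : IsNondegenerateRootSet S) {A B : Subgroup G}
    (hA : A ∈ S) (hB : B ∈ rankOnePartners S A) : (⨆ C ∈ linePartners S A, C) ⊔ B = ⊤ := by
  have hS0 := hS.1
  have hall := class_all_partners hS hnd
  obtain ⟨hBS, hAB⟩ := hB
  set M := (⨆ C ∈ linePartners S A, C) ⊔ B with hM
  let Full : Subgroup G → Prop := fun R => ∀ Z ∈ linePartners S R, Z ≤ M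
  have hfullA : Full A := fun Z hZ =>
    (le_iSup₂_of_le Z hZ le_rfl : Z ≤ ⨆ C ∈ linePartners S A, C).trans le_sup_left
  have hfullB : Full B := full_transfer hS0 hall hA hBS (RankOnePair_symm hAB) hfullA le_sup_right
  let Good : Subgroup G → Prop := fun R => Full R ∧ ∃ R' ∈ S, IsRankOnePair R R' ∧ Full R'
  have hstep : ∀ R Z, R ∈ S → Good R → Z ∈ linePartners S R → Good Z := by
    rintro R Z hR ⟨hfR, R', hR', hRR', hfR'⟩ hZ
    have hZS := hZ.1.1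
    have hZM : Z ≤ M := hfR Z hZ
    by_cases hZR' : IsRankOnePair Z R'
    · exact ⟨full_transfer hS0 hall hR' hZS hZR' hfR' hZM, R', hR', hZR', hfR'⟩
    · obtain ⟨H₀, -, -, hcH₀, -, -, -, -, -, hgate, -⟩ := line_gate hS0 hall hR hZ hR' hRR'
      have hZH : Z = H₀ := by
        by_contra hne
        exact hZR' (hgate Z hZS le_sup_right hne)
      rw [← hZH] at hcH₀
      -- a line partner `X` of `R'` opposite `Z`
      obtain ⟨X, hX, hXZ⟩ := exists_opp_of_case hS0 hall hR' hZS hcH₀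
      obtain ⟨H', -, -, -, -, -, -, -, -, -, X'', hX''S, hX''L, hX''R', -, hX''R⟩ :=
        line_gate hS0 hall hR' hX hR (RankOnePair_symm hRR')
      have hX''l : X'' ∈ linePartners S R' := (line_members hS0 hall hR' hX hX''S hX''L hX''R').2
      have hfX'' : Full X'' := full_transfer hS0 hall hR hX''S hX''R hfR (hfR' X'' hX''l)
      -- `X''` opposite `Z`
      have hX''Z : IsRankOnePair X'' Z := by
        obtain ⟨H'', -, -, hcH'', -, -, -, -, -, hgate', -⟩ :=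
          line_gate hS0 hall hX.1.1 (line_partner_symm hR' hX) hZS hXZ
        have hR'H : R' = H'' := by
          by_contra hne
          have h1 := hgate' R' hR' le_sup_right hne
          exact not_rankOne_of_commutator_case hcH₀ h1
        refine hgate' X'' hX''S (by rw [sup_comm]; exact hX''L) ?_
        rw [← hR'H]
        exact hX''R'
      exact ⟨full_transfer hS0 hall hX''S hZS (RankOnePair_symm hX''Z) hfX'' hZM, X'', hX''S,
        RankOnePair_symm hX''Z, hfX''⟩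
  have hgoodA : Good A := ⟨hfullA, B, hBS, hAB, hfullB⟩
  obtain ⟨hE, -⟩ := s5041_main hS hnd
  have hgood : ∀ R ∈ S, Good R := by
    intro R hR
    have hr := hE A hA R hR
    induction hr with
    | refl => exact hgoodA
    | tail _ hbc ih => exact hstep _ _ hbc.1 (ih hbc.1) hbc.2.2
  rw [eq_top_iff, ← hS0.generates]
  refine iSup₂_le fun R hR => ?_
  refine (self_le_lines hS hnd hR).trans ?_
  exact iSup₂_le fun Z hZ => (hgood R hR).1 Z hZ

end Cfsg.Agent.RootSub
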